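import Mathlib
import Cfsg.Agent.Lib.Helper40.HPStmt
import Cfsg.Agent.Lib.Helper45.EPStmt

/-!
# S5974 / B1H (helper93, piece of helper40's call): two sub-pieces

`W = W_C ⊥ W_E` (`W_C ≤ Fix y`, `W_E` a sum of blocks) is of plus type when `W_C`, `W_E` have the
same type: plus ⊥ plus (`PPH`, easy) and minus ⊥ minus (`MMH`).
-/

set_option autoImplicit false

universe u

namespace Cfsg.Agent.Lib.Helper93.HPB1Stmt

open Cfsg.Agent.Lib.Helper94.OPStmt (P NDegP)
open Cfsg.Agent.Lib.Helper45.EPStmt (PlusP)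

/-- PPH (S, pure): orthogonal sum of two plus-type subspaces is of plus type.  `U_A ≤ A`,
`U_B ≤ B` totally singular of half dimension: `U_A ⊔ U_B ≤ A ⊔ B` is totally singular
(`Q (u + v) = Q u + Q v + polar u v`, `QuadraticMap.polar`), and
`finrank (U_A ⊔ U_B) = finrank U_A + finrank U_B`, `finrank (A ⊔ B) = finrank A + finrank B`
(`Submodule.finrank_sup_add_finrank_inf_eq`, `U_A ⊓ U_B ≤ A ⊓ B = ⊥`).
`PlusP d F W` unfolds to `∃ U, U ≤ W ∧ (∀ u ∈ U, Q u = 0) ∧ 2 * finrank U = finrank W`. -/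
def PPH : Prop :=
  ∀ (F : Type u) [Field F] [Fintype F] (d : ℕ) (A B : Submodule F (P d → F)),
    (∀ u ∈ A, ∀ v ∈ B, QuadraticMap.polar (Cfsg.quadFormPlus d F) u v = 0) → A ⊓ B = ⊥ →
    PlusP d F A → PlusP d F B → PlusP d F (A ⊔ B)

/-- MMH (M): orthogonal sum of two nondegenerate even-dimensional subspaces, neither of plus
type, is of plus type.  `X := A ⊔ B`; apply
`Cfsg.Agent.Lib.Helper43.TMTWOMINUSG.two_minus_all` (abstract: `Sep (res Q A)`, `Sep (res Q B)`,
orthogonal, `A ⊓ B = ⊥`, `finrank A = 2 e`, `finrank B = 2 f` give a totally singular `e`-space in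
`A`, or an `f`-space in `B`, or a totally singular `T` of finrank `e + f`) to the form restricted
to `↥X` (`Q' = (Cfsg.quadFormPlus d F).comp X.subtype`, `A' = A.comap X.subtype`,
`B' = B.comap X.subtype`; `T` is then a subspace of `↥X` and `T.map X.subtype ≤ X` is totally
singular of finrank `e + f`; the first two alternatives contradict `¬ PlusP A`, `¬ PlusP B`).
`A ⊓ B = ⊥`: `u ∈ A ⊓ B` is orthogonal to `A`, so `u = 0` (`NDegP`);
`finrank X = 2 e + 2 f`.  (`NDegP d F W` is `Cfsg.Geo.IsNondegenerateOn (polar Q) W`: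
`∀ w ∈ W, w ≠ 0 → (∃ v ∈ W, polar v w ≠ 0) ∧ (∃ v ∈ W, polar w v ≠ 0)`.) -/
def MMH : Prop :=
  ∀ (F : Type u) [Field F] [Fintype F] (d : ℕ) (A B : Submodule F (P d → F)),
    NDegP d F A → NDegP d F B →
    (∀ u ∈ A, ∀ v ∈ B, QuadraticMap.polar (Cfsg.quadFormPlus d F) u v = 0) →
    Even (Module.finrank F ↥A) → Even (Module.finrank F ↥B) →
    ¬ PlusP d F A → ¬ PlusP d F B → PlusP d F (A ⊔ B)

end Cfsg.Agent.Lib.Helper93.HPB1Stmt
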