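import Mathlib
import Cfsg.Prelude.Def_Solvable
import Cfsg.Prelude.Def_CaseTheorems
import Cfsg.Prelude.Def_OddOrder
import Cfsg.Prelude.Def_OddOrderLocal

/-!
# S1364 (call by helper93): statement pieces

S1364: `M` maximal, `(K, U)` a sigma-decomposition, `K ≠ 1`, `Ks := M_σ ⊓ C(K)`.  Then `Ks` is
cyclic, `Ks ≠ 1`, `Ks ≤ M_F` and `M_F` is not cyclic.

* `Ks` cyclic, `≠ 1`: landed (S1366 + S1351, S1354), as in `Helper22.S73Main`.
* `Ks ≤ M_F`, `U ≠ 1`: `M_σ` nilpotent (`Helper22.BG147N0.nilpotent_of_U_ne_bot`), so `M_σ = M_F`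
  (`Helper57.BG14FHCore.main_of` with S1350).
* `Ks ≤ M_F`, `U = 1`: `q := |Ks|` is prime (S1373), `M = M_σ K`, `M' = M_σ` (S1365), `Ks ≤ M''`
  (S1365), `K` acts on `H := M_σ` in a prime manner (`Helper55.S66Base.primAct`).  ABSTRACT
  LEMMA (`SylNormal`): then `O := O_q(H)` is a Sylow `q`-subgroup of `M` (so a normal nilpotent
  Hall subgroup, `≤ M_F`) containing `Ks`.  Proof: in `X̄ = X / O` (`X = M`): prime action passes
  to `H̄ = H O / O` (`QuotPrime`), `F(H̄)` is a `q'`-group (`FitQ`), the fixed points of `R̄` on `H̄`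
  are the image of `Ks`, a `q`-group; so S1445 gives `[H̄, R̄] ≤ F(H̄)`; `H̄ ≤ C̄ F(H̄)` (`Decomp`),
  `H̄ / F(H̄)` is abelian, `C̄ ≤ H̄' ≤ F(H̄)`, so `H̄ = F(H̄)` is a `q'`-group.
* `M_F` not cyclic: a cyclic normal Hall subgroup `N` of `M` has `N ⊓ M'' = 1` (`NC`), but
  `1 ≠ Ks ≤ M_F ⊓ M''`.
-/

set_option autoImplicit false

namespace Cfsg.Agent.Lib.Helper93.S64Stmt

universe u

open Cfsg

/-- `O_q(H)` for a normal subgroup `H` of `X`, as `O_q(X) ⊓ H`. -/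
def Oq (X : Type u) [Group X] (H : Subgroup X) (q : ℕ) : Subgroup X :=
  Cfsg.pCore q X ⊓ H

instance Oq_normal (X : Type u) [Group X] (H : Subgroup X) [H.Normal] (q : ℕ) :
    (Oq X H q).Normal :=
  Subgroup.normal_inf_normal _ _

theorem Oq_le (X : Type u) [Group X] (H : Subgroup X) (q : ℕ) : Oq X H q ≤ H := inf_le_right

/-- first half of the abstract setting: `X = H R` solvable of odd order, coprime, `R ≠ 1`, prime
action of `R` on `H` -/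
structure SetA (X : Type u) [Group X] (H R : Subgroup X) : Prop where
  solv : Group.IsSolvable X
  odd : Odd (Nat.card X)
  ne : R ≠ ⊥
  sup : H ⊔ R = ⊤
  cop : (Nat.card H).Coprime (Nat.card R)
  prime : ∀ x ∈ R, x ≠ 1 → H ⊓ Subgroup.centralizer ({x} : Set X) =
    H ⊓ Subgroup.centralizer (R : Set X)

/-- second half: the fixed points `H ⊓ C(R)` have prime order `q` and lie in `H'` -/
structure SetB (X : Type u) [Group X] (H R : Subgroup X) (q : ℕ) : Prop where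
  qprime : q.Prime
  card : Nat.card ↥(H ⊓ Subgroup.centralizer (R : Set X)) = q
  der : H ⊓ Subgroup.centralizer (R : Set X) ≤ ⁅H, H⁆

/-! ## pure group theory -/

/-- [NC] (M) a cyclic normal Hall subgroup `N` of `M` meets `M''` trivially.
`D := ⁅⊤, ⊤⁆`.  (a) `D ≤ centralizer N`: conjugation by `a` on the cyclic group `N` is a power
map (`MonoidHom.map_cyclic` for `N →* N`), power maps commute, so `⁅a, b⁆` centralizes `N`
(`Subgroup.commutator_le`).  (b) `N₁ := (N ⊓ D).subgroupOf D` is normal in `D`, central, and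
`(Nat.card N₁).Coprime N₁.index` (`|D : N ⊓ D| = |D N : N|` divides `N.index`;
`Subgroup.relIndex_sup_left`/`relIndex_inf_mul_relIndex`), so it has a complement `T` in `D`
(`Subgroup.exists_right_complement'_of_coprime`).  (c) `x = n₁ t₁`, `y = n₂ t₂` (`n_i` central
in `D`): `⁅x, y⁆ = ⁅t₁, t₂⁆ ∈ T`; so `⁅D, D⁆ ≤ T` and `N ⊓ ⁅D, D⁆ ≤ N₁ ⊓ T = ⊥`. -/
def NC : Prop :=
  ∀ {M : Type u} [Group M] [Finite M] (N : Subgroup M), N.Normal → IsCyclic ↥N →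
    (Nat.card ↥N).Coprime N.index →
    N ⊓ ⁅⁅(⊤ : Subgroup M), (⊤ : Subgroup M)⁆, ⁅(⊤ : Subgroup M), (⊤ : Subgroup M)⁆⁆ = ⊥

/-- [FHHALL] (S-M) `M_F` is a Hall subgroup.  If a prime `p` divides `|M_F|` then some member
`N` of the family has `p ∣ |N|` (else every member is a normal `p'`-subgroup, so lies in
`Cfsg.pPrimeCore p M`, whose order is prime to `p`:
`Cfsg.Agent.Lib.Helper55.SolvCore.card_pPrimeCore_coprime`); `N ≤ M_F` (`le_sSup`), `p ∤ N.index`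
and `(fittingHall M).index ∣ N.index` (`Subgroup.index_dvd_of_le`).  `Nat.Coprime` from
`Nat.Coprime` iff no common prime (`Nat.coprime_of_dvd` / `Nat.Prime.not_coprime_iff_dvd`). -/
def FHHall : Prop :=
  ∀ {M : Type u} [Group M] [Finite M],
    (Nat.card ↥(Cfsg.fittingHall M)).Coprime (Cfsg.fittingHall M).index

/-- [QUOTPRIME] (M-L) prime action passes to `X / N` (`N ≤ H` normal in `X`), and the fixed
points are the image of `C = H ⊓ C(R)`.  `π = QuotientGroup.mk' N`.  Let `y = π x ∈ R̄`, `y ≠ 1`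
(`x ∈ R`, `x ≠ 1`); `r` a prime dividing `orderOf x`, `x₁ = x ^ (orderOf x / r)` (order `r`,
`x₁ ∈ R`, `x₁ ≠ 1`, `r ∤ |N|` as `|N| ∣ |H|` is prime to `|R|`).  If `π h` (`h ∈ H`) commutes
with `y` then with `π x₁`, i.e. `h⁻¹ * (x₁ * h * x₁⁻¹) ∈ N`;
`Cfsg.Agent.Lib.Helper31.SigBasic.exists_commute_in_coset x₁ _ N _ _ h _` gives `n ∈ N` with
`x₁ * (h * n) = (h * n) * x₁`; `h * n ∈ H ⊓ C({x₁}) = H ⊓ C(R)` (`hprime`), `π (h * n) = π h`.
Conversely `π (H ⊓ C(R)) ≤ H̄ ⊓ C({y})`. -/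
def QuotPrime : Prop :=
  ∀ {X : Type u} [Group X] [Finite X] (H R N : Subgroup X) [N.Normal], N ≤ H →
    (Nat.card ↥H).Coprime (Nat.card ↥R) →
    (∀ x ∈ R, x ≠ 1 → H ⊓ Subgroup.centralizer ({x} : Set X) =
      H ⊓ Subgroup.centralizer (R : Set X)) →
    ∀ y ∈ R.map (QuotientGroup.mk' N), y ≠ 1 →
      H.map (QuotientGroup.mk' N) ⊓ Subgroup.centralizer ({y} : Set (X ⧸ N)) =
        (H ⊓ Subgroup.centralizer (R : Set X)).map (QuotientGroup.mk' N)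

/-- [FITQ] (M-L) `F(H / O_q(H))` is a `q'`-group.  `π = QuotientGroup.mk' (Oq X H q)`,
`H̄ = H.map π` (normal in `X̄`), `Fb = Cfsg.fittingOf H̄` = image of `Cfsg.fittingSubgroup ↥H̄`
(nilpotent: as in `Cfsg.Agent.S1445` / `Cfsg.Agent.S3766.fitting_characteristic`; normal in `X̄`
by `ConjAct.normal_of_characteristic_of_normal`).  If `q ∣ |Fb|`: a Sylow `q`-subgroup `P` of
the nilpotent group `fittingSubgroup ↥H̄` is normal, so characteristic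
(`Sylow.characteristic_of_normal`), so its image `S` in `X̄` is a normal `q`-subgroup `≠ ⊥`
inside `H̄` (as in `Cfsg.Agent.Lib.Helper57.BG14FHCore.mem_sigma_of_normal_hall`).
`S.comap π` is normal in `X`, a `q`-group (`IsPGroup.comap_of_ker_isPGroup`, kernel `Oq ≤ pCore`,
`Cfsg.Agent.Lib.Helper76.PSolv.pCore_isPGroup`), and `≤ H` (`π g ∈ H̄` gives `g ∈ H ⊔ Oq = H`);
so `S.comap π ≤ Oq X H q` (`Helper76.PSolv.le_pCore`), `S = ⊥`: contradiction. -/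
def FitQ : Prop :=
  ∀ {X : Type u} [Group X] [Finite X] (H : Subgroup X) [H.Normal] (q : ℕ), q.Prime →
    ¬ q ∣ Nat.card ↥(Cfsg.fittingOf (H.map (QuotientGroup.mk' (Oq X H q))))

/-- [DECOMP] (S) coprime decomposition relative to a normal `Fb ⊇ [H, R]`: for `h ∈ H`,
`h⁻¹ * (x * h * x⁻¹) = ⁅h⁻¹, x⁆ ∈ ⁅H, R⁆ ≤ Fb`;
`Cfsg.Agent.Lib.Helper31.SigBasic.exists_commute_in_coset x _ Fb _ _ h _` (`p = orderOf x` does
not divide `|Fb|`, which divides `|H|`) gives `n ∈ Fb` with `h * n ∈ H ⊓ C({x})`. -/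
def Decomp : Prop :=
  ∀ {X : Type u} [Group X] [Finite X] (H R Fb : Subgroup X), H.Normal → Fb.Normal → Fb ≤ H →
    (Nat.card ↥H).Coprime (Nat.card ↥R) → ⁅H, R⁆ ≤ Fb →
    ∀ x ∈ R, (orderOf x).Prime →
      H ≤ (H ⊓ Subgroup.centralizer ({x} : Set X)) ⊔ Fb

/-- [SYLN] (L; main (hQ : QuotPrime) (hF : FitQ) (hD : Decomp) : SylNormal; uses
`Cfsg.Agent.S1445.result`) `O = Oq X H q` is a Sylow `q`-subgroup of `X` containing the fixed
points.  `X̄ = X ⧸ O`, `π = mk' O`, `H̄ = H.map π`, `R̄ = R.map π`, `C = H ⊓ C(R)`, `C̄ = C.map π`,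
`Fb = Cfsg.fittingOf H̄`.  `X̄` solvable of odd order; `H̄` normal; `H̄ ⊔ R̄ = ⊤`; cards coprime
(`Subgroup.card_map_dvd`).  `x₀ ∈ R` of prime order `r` (Cauchy); `π x₀ ≠ 1` (`r ∤ |O|`), so
`R̄` has an element `≠ 1` and `H̄ ⊓ C(R̄) = C̄` (`QuotPrime` at `π x₀`, both inclusions); `hprime`
for `X̄` from `QuotPrime`.  `Fb ⊓ C(R̄) = ⊥`: an element is `π c`, `c ^ q = 1`, and its order
divides `|Fb|`, prime to `q` (`FitQ`).  `Cfsg.Agent.S1445.result`: `⁅H̄, R̄⁆ ≤ Fb`.  `Decomp` in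
`X̄` (`x = π x₀`, of order `r`): `H̄ ≤ C̄ ⊔ Fb`.  `C̄` is commutative (`C` has prime order), so
`⁅H̄, H̄⁆ ≤ Fb` (`Subgroup.commutator_le`; `a = c₁ f₁`, `b = c₂ f₂`; in `X̄ ⧸ Fb` the images
commute).  `C̄ ≤ ⁅H̄, H̄⁆` (`Subgroup.map_commutator`, `SetB.der`).  So `H̄ ≤ Fb`, `q ∤ |H̄|`;
`q ∤ |R̄|` (`q ∣ |H|` by `card`); `|X̄| ∣ |H̄| * |R̄|`
(`Cfsg.Agent.Lib.Helper55.SolvCore.card_sup_dvd`); `O.index = Nat.card (X ⧸ O)`.  Finally
`c ∈ C`: `π c` has order dividing `q` and `|X̄|`, so `π c = 1`, `c ∈ O`. -/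
def SylNormal : Prop :=
  ∀ {X : Type u} [Group X] [Finite X] (H R : Subgroup X) [H.Normal] (q : ℕ),
    SetA X H R → SetB X H R q →
    ¬ q ∣ (Oq X H q).index ∧ H ⊓ Subgroup.centralizer (R : Set X) ≤ Oq X H q

/-! ## the concrete glue (`U = ⊥`) -/

/-- [GLUEA] (M) `X = ↥M`, `H = piCore (sigma M) ↥M` (so `H.map M.subtype = sigmaCore M`),
`R = K.subgroupOf M`.  `solv`: `hG.2.2.2 M hM.1`; `odd`: `Subgroup.card_subgroup_dvd_card`;
`ne`: `K ≤ M` (`hKU.hall.1`); `sup`: `hKU.compl.2.2.2` with `U = ⊥` gives `m ∈ K ⊔ sigmaCore M`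
(`Subgroup.mem_sup` and normality of `H`); `cop`: primes of `|sigmaCore M|` are in `sigma M`
(`(Cfsg.Agent.S1350.result hG M hM).1.2.1`), primes of `|K|` in `kappa M` (`hKU.hall.2.1`),
and `kappa M` is disjoint from `sigma M` by definition (`Nat.Coprime` from no common prime
factor: `Nat.Coprime.symm`/`Nat.coprime_of_dvd`); `prime`:
`Cfsg.Agent.Lib.Helper55.S66Base.primAct hG M K U hM hKU x hx hx1`, transported by
`Subgroup.mem_map`, `Subgroup.mem_centralizer_iff`. -/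
def GlueA : Prop :=
  ∀ {G : Type u} [Group G] [Finite G], Cfsg.IsMinSimpleOddOrder G →
  ∀ (M K U : Subgroup G), IsCoatom M → Cfsg.IsSigmaDecomposition M K U → K ≠ ⊥ → U = ⊥ →
    SetA ↥M (Cfsg.piCore (Cfsg.sigma M) ↥M) (K.subgroupOf M)

/-- [GLUEB] (M) `q := Nat.card ↥(sigmaCore M ⊓ C(K))`, prime by
`Cfsg.Agent.S1373.result hG M hM K U hKU hK1 hU`; `card`: `(H ⊓ C(R)).map M.subtype =
sigmaCore M ⊓ C(K)` (elements of `sigmaCore M` lie in `M`) and `Subgroup.card_map_of_injective`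
(or `Nat.card_congr (Subgroup.equivMapOfInjective ..)`); `der`:
`(Cfsg.Agent.S1365.result hG M hM K U hKU hK1)` gives `⁅M, M⁆ = U ⊔ sigmaCore M = sigmaCore M`
and `Ks ≤ ⁅⁅M, M⁆, ⁅M, M⁆⁆ = ⁅sigmaCore M, sigmaCore M⁆ = (⁅H, H⁆).map M.subtype`
(`Subgroup.map_commutator`). -/
def GlueB : Prop :=
  ∀ {G : Type u} [Group G] [Finite G], Cfsg.IsMinSimpleOddOrder G →
  ∀ (M K U : Subgroup G), IsCoatom M → Cfsg.IsSigmaDecomposition M K U → K ≠ ⊥ → U = ⊥ →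
    SetB ↥M (Cfsg.piCore (Cfsg.sigma M) ↥M) (K.subgroupOf M)
      (Nat.card ↥(Cfsg.sigmaCore M ⊓ Subgroup.centralizer (K : Set G)))

/-- [LE3] (S-M; main (hS : SylNormal) (hA : GlueA) (hB : GlueB) : Le3) `U = ⊥`: `Ks ≤ M_F`.
`O := Oq ↥M H q` is normal, a `q`-group (`Helper76.PSolv.pCore_isPGroup`, `IsPGroup.to_le`), so
nilpotent (`IsPGroup.isNilpotent`), and `(Nat.card O).Coprime O.index` (`|O|` is a power of `q`,
`q ∤ O.index`); so `O ≤ Cfsg.fittingHall ↥M` (`le_sSup`).  `x ∈ Ks`: `x ∈ M`, `⟨x, _⟩ ∈ H ⊓ C(R)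
≤ O`. -/
def Le3 : Prop :=
  ∀ {G : Type u} [Group G] [Finite G], Cfsg.IsMinSimpleOddOrder G →
  ∀ (M K U : Subgroup G), IsCoatom M → Cfsg.IsSigmaDecomposition M K U → K ≠ ⊥ → U = ⊥ →
    Cfsg.sigmaCore M ⊓ Subgroup.centralizer (K : Set G) ≤ Cfsg.fittingHallOf M

/-- [NOTCYC] (M; main (hNC : NC) (hH : FHHall) : NotCyc) `M_F` is not cyclic.  If
`fittingHallOf M` is cyclic so is `fittingHall ↥M` (`Subgroup.equivMapOfInjective`,
`isCyclic_of_surjective` / `MulEquiv.isCyclic`).  `NC` for `↥M`, `N = fittingHall ↥M`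
(`Cfsg.fittingHall_normal`, `FHHall`).  `x ∈ Ks`, `x ≠ 1`
(`(Cfsg.Agent.S1354.result hG M hM K hKU.cyclic hKU.hall).1`); `x ∈ fittingHallOf M` (hyp), so
`⟨x, _⟩ ∈ fittingHall ↥M`; `x ∈ ⁅⁅M, M⁆, ⁅M, M⁆⁆` (`(Cfsg.Agent.S1365.result ..).2`) and
`⁅M, M⁆ = (⁅⊤, ⊤⁆ : Subgroup ↥M).map M.subtype` (`Subgroup.map_commutator`,
`Subgroup.map_subtype_top`/`← MonoidHom.range_eq_map`, `Subgroup.range_subtype`), twice; so
`⟨x, _⟩ ∈ N ⊓ ⁅⁅⊤, ⊤⁆, ⁅⊤, ⊤⁆⁆ = ⊥`. -/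
def NotCyc : Prop :=
  ∀ {G : Type u} [Group G] [Finite G], Cfsg.IsMinSimpleOddOrder G →
  ∀ (M K U : Subgroup G), IsCoatom M → Cfsg.IsSigmaDecomposition M K U → K ≠ ⊥ →
    Cfsg.sigmaCore M ⊓ Subgroup.centralizer (K : Set G) ≤ Cfsg.fittingHallOf M →
    ¬ IsCyclic ↥(Cfsg.fittingHallOf M)

end Cfsg.Agent.Lib.Helper93.S64Stmt
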