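import Mathlib
import Cfsg.Agent.Lib.Helper37.OrtStmt

/-!
# S5981, piece OCONG

Over a finite field of odd characteristic the isometry groups of two invertible symmetric
matrices (on index types of the same cardinality) whose determinants differ by a square have the
same order: reindex, use the congruence `gᵀ * S * g = S''` given by `Cong` and conjugate by `g`.
-/

set_option autoImplicit false

namespace Cfsg.Agent.Lib.Helper93.OrtOCONG

open scoped Matrix
open Cfsg.Agent.Lib.Helper37.OrtStmt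

universe u

variable {F : Type u} [Field F]

theorem mem_OGrp {κ : Type} [Fintype κ] [DecidableEq κ] (S : Matrix κ κ F) (a : GL κ F) :
    a ∈ OGrp S ↔ (a : Matrix κ κ F)ᵀ * S * (a : Matrix κ κ F) = S := Iff.rfl

/-- Conjugation by `g` carries the isometry group of `gᵀ * S * g` into that of `S`. -/
theorem conj_mem {κ : Type} [Fintype κ] [DecidableEq κ] (S S'' : Matrix κ κ F) (g : GL κ F)
    (hg : (g : Matrix κ κ F)ᵀ * S * (g : Matrix κ κ F) = S'') (a : GL κ F) (ha : a ∈ OGrp S'') :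
    g * a * g⁻¹ ∈ OGrp S := by
  rw [mem_OGrp] at ha ⊢
  have h1 : (g : Matrix κ κ F) * ((g⁻¹ : GL κ F) : Matrix κ κ F) = 1 := by
    rw [← Units.val_mul, mul_inv_cancel, Units.val_one]
  have h2 : ((g⁻¹ : GL κ F) : Matrix κ κ F)ᵀ * (g : Matrix κ κ F)ᵀ = 1 := by
    rw [← Matrix.transpose_mul, h1, Matrix.transpose_one]
  rw [Units.val_mul, Units.val_mul, Matrix.transpose_mul, Matrix.transpose_mul]
  calc ((g⁻¹ : GL κ F) : Matrix κ κ F)ᵀ * ((a : Matrix κ κ F)ᵀ * (g : Matrix κ κ F)ᵀ) * S *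
        ((g : Matrix κ κ F) * (a : Matrix κ κ F) * ((g⁻¹ : GL κ F) : Matrix κ κ F))
      = ((g⁻¹ : GL κ F) : Matrix κ κ F)ᵀ * ((a : Matrix κ κ F)ᵀ *
          ((g : Matrix κ κ F)ᵀ * S * (g : Matrix κ κ F)) * (a : Matrix κ κ F)) *
          ((g⁻¹ : GL κ F) : Matrix κ κ F) := by simp only [Matrix.mul_assoc]
    _ = ((g⁻¹ : GL κ F) : Matrix κ κ F)ᵀ * ((g : Matrix κ κ F)ᵀ * S * (g : Matrix κ κ F)) *
          ((g⁻¹ : GL κ F) : Matrix κ κ F) := by rw [hg, ha]
    _ = (((g⁻¹ : GL κ F) : Matrix κ κ F)ᵀ * (g : Matrix κ κ F)ᵀ) * S *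
          ((g : Matrix κ κ F) * ((g⁻¹ : GL κ F) : Matrix κ κ F)) := by
          simp only [Matrix.mul_assoc]
    _ = S := by rw [h1, h2, Matrix.one_mul, Matrix.mul_one]

/-- Congruent matrices have isometry groups of the same order. -/
theorem card_of_cong {κ : Type} [Fintype κ] [DecidableEq κ] (S S'' : Matrix κ κ F) (g : GL κ F)
    (hg : (g : Matrix κ κ F)ᵀ * S * (g : Matrix κ κ F) = S'') :
    Nat.card (OGrp S'') = Nat.card (OGrp S) := by
  have h1 : (g : Matrix κ κ F) * ((g⁻¹ : GL κ F) : Matrix κ κ F) = 1 := by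
    rw [← Units.val_mul, mul_inv_cancel, Units.val_one]
  have h2 : ((g⁻¹ : GL κ F) : Matrix κ κ F)ᵀ * (g : Matrix κ κ F)ᵀ = 1 := by
    rw [← Matrix.transpose_mul, h1, Matrix.transpose_one]
  have hg' : ((g⁻¹ : GL κ F) : Matrix κ κ F)ᵀ * S'' * ((g⁻¹ : GL κ F) : Matrix κ κ F) = S := by
    rw [← hg]
    calc ((g⁻¹ : GL κ F) : Matrix κ κ F)ᵀ * ((g : Matrix κ κ F)ᵀ * S * (g : Matrix κ κ F)) *
          ((g⁻¹ : GL κ F) : Matrix κ κ F)
        = (((g⁻¹ : GL κ F) : Matrix κ κ F)ᵀ * (g : Matrix κ κ F)ᵀ) * S *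
          ((g : Matrix κ κ F) * ((g⁻¹ : GL κ F) : Matrix κ κ F)) := by
          simp only [Matrix.mul_assoc]
      _ = S := by rw [h1, h2, Matrix.one_mul, Matrix.mul_one]
  refine Nat.card_congr (Equiv.subtypeEquiv (MulAut.conj g).toEquiv fun a => ?_)
  constructor
  · intro ha
    exact conj_mem S S'' g hg a ha
  · intro ha
    have h3 := conj_mem S'' S g⁻¹ hg' _ ha
    have h4 : g⁻¹ * ((MulAut.conj g).toEquiv a) * g⁻¹⁻¹ = a := by
      show g⁻¹ * (g * a * g⁻¹) * g⁻¹⁻¹ = a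
      group
    rw [h4] at h3
    exact h3

/-- Reindexing does not change the order of the isometry group. -/
theorem card_reindex {κ ι : Type} [Fintype κ] [DecidableEq κ] [Fintype ι] [DecidableEq ι]
    (e : κ ≃ ι) (S' : Matrix κ κ F) :
    Nat.card (OGrp S') = Nat.card (OGrp (Matrix.reindex e e S')) := by
  refine Nat.card_congr (Equiv.subtypeEquiv
    (Units.mapEquiv (Matrix.reindexAlgEquiv F F e).toMulEquiv).toEquiv fun a => ?_)
  rw [mem_OGrp, mem_OGrp]
  have hcoe : ((Units.mapEquiv (Matrix.reindexAlgEquiv F F e).toMulEquiv).toEquiv a : GL ι F)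
      = Units.map (Matrix.reindexAlgEquiv F F e).toMulEquiv.toMonoidHom a := rfl
  have hval : (((Units.mapEquiv (Matrix.reindexAlgEquiv F F e).toMulEquiv).toEquiv a : GL ι F)
      : Matrix ι ι F) = Matrix.reindex e e (a : Matrix κ κ F) := rfl
  rw [hval]
  have hmul : (Matrix.reindex e e (a : Matrix κ κ F))ᵀ * Matrix.reindex e e S' *
      Matrix.reindex e e (a : Matrix κ κ F)
      = Matrix.reindex e e ((a : Matrix κ κ F)ᵀ * S' * (a : Matrix κ κ F)) := by
    simp only [Matrix.reindex_apply, Matrix.transpose_submatrix, Matrix.submatrix_mul_equiv]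
  rw [hmul]
  constructor
  · intro h
    rw [h]
  · intro h
    exact (Matrix.reindex e e).injective h

theorem main : Cong.{u} → OCong.{u} := by
  intro hCong F _ _ h2 κ _ _ n hcard S S' hS hdet hS' μ hμ hdet'
  classical
  obtain ⟨e⟩ : Nonempty (κ ≃ Fin n) := ⟨Fintype.equivFinOfCardEq hcard⟩
  have hS''t : (Matrix.reindex e e S')ᵀ = Matrix.reindex e e S' := by
    rw [Matrix.reindex_apply, Matrix.transpose_submatrix, hS']
  have hS''d : (Matrix.reindex e e S').det = S.det * μ ^ 2 := by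
    rw [Matrix.det_reindex_self, hdet']
  obtain ⟨g, hgdet, hg⟩ := hCong F h2 n S (Matrix.reindex e e S') hS hdet hS''t μ hμ hS''d
  rw [card_reindex e S']
  exact card_of_cong S (Matrix.reindex e e S') (Matrix.GeneralLinearGroup.mkOfDetNeZero g hgdet)
    hg

end Cfsg.Agent.Lib.Helper93.OrtOCONG
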