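import Mathlib
import Cfsg.Agent.Lib.Helper37.HypStmt
import Cfsg.Agent.Lib.Helper93.HypB2

set_option autoImplicit false

/-! S5992 piece B1 (assembly): under `Cond`, every element of order `r` of `Omega` fixes a
hyperbolic `m`-space. -/

namespace Cfsg.Agent.Lib.Helper93.HypB1

universe u

open Cfsg.Agent.Lib.Helper37.HypStmt Cfsg.Agent.Lib.Helper93.HypB2

lemma stab_of_le_Fx {F : Type u} [Field F] {d : ℕ} (x : Matrix (I d) (I d) F)
    {W : Submodule F (I d → F)} (h : W ≤ Fx x) : Stab x W := by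
  intro v hv
  obtain ⟨w, hw, rfl⟩ := Submodule.mem_map.mp hv
  have h1 := (mem_Fx x w).mp (h hw)
  rw [Matrix.toLin'_apply, h1]
  exact hw

lemma stab_sup {F : Type u} [Field F] {d : ℕ} {x : Matrix (I d) (I d) F}
    {W₁ W₂ : Submodule F (I d → F)} (h1 : Stab x W₁) (h2 : Stab x W₂) : Stab x (W₁ ⊔ W₂) := by
  unfold Stab at *
  rw [Submodule.map_sup]
  exact sup_le_sup h1 h2

/-- arithmetic core of B1 -/
lemma arith1 (d m c f j : ℕ) (hn : f + j * c = 2 * d + 1) (hm : m ≤ 2 * d)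
    (hl : m % c = 0 ∨ m % c < (2 * d + 1) % c) :
    min (m / c) j * c ≤ m ∧ (min (m / c) j * c < m → m - min (m / c) j * c < f) ∧
      min (m / c) j * c + f ≤ 2 * d + 1 := by
  have hA : m / c * c + m % c = m := Nat.div_add_mod' m c
  have hk : (2 * d + 1) % c ≤ f := by
    rw [← hn, Nat.add_mul_mod_self_right]
    exact Nat.mod_le f c
  rcases Nat.le_total (m / c) j with h | h
  · rw [Nat.min_eq_left h]
    have hle : m / c * c ≤ j * c := Nat.mul_le_mul_right c h
    refine ⟨by omega, fun hlt => by omega, by omega⟩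
  · rw [Nat.min_eq_right h]
    have hle : j * c ≤ m / c * c := Nat.mul_le_mul_right c h
    refine ⟨by omega, fun hlt => by omega, by omega⟩

theorem main (hIPos : IPos.{u}) (hTop : TopND.{u}) (hFxLt : FxLt.{u}) (hFixND : FixND.{u})
    (hDim : DimObs.{u}) (hBlocks : Blocks.{u}) (hTO : TypeOdd.{u}) (hTE : TypeEven.{u})
    (hHS : HypSub.{u}) : B1S.{u} := by
  intro F _ _ p _ _ hodd d m hd3 hm2 hmev hmle r _ hr2 hrp hcond x hxO hxord
  have hi : 0 < orderOf ((Fintype.card F : ℕ) : ZMod r) := hIPos F p r hrp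
  have hxiso : x ∈ Cfsg.isometryGroup F (Cfsg.quadFormOdd d F) := by
    obtain ⟨y, -, rfl⟩ := hxO
    exact y.2
  have hxr : x ^ r = 1 := by rw [← hxord]; exact pow_orderOf_eq_one x
  have hrprime : r.Prime := Fact.out
  have hx1 : (x : Matrix (I d) (I d) F) ≠ 1 := by
    intro h
    have h1 : x = 1 := Units.ext h
    rw [h1, orderOf_one] at hxord
    exact hrprime.one_lt.ne hxord
  have hflt := hFxLt F d (x : Matrix (I d) (I d) F) hx1
  have hfnd := hFixND F p hodd d r hrp x hxiso hxr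
  have hstabtop : Stab (x : Matrix (I d) (I d) F) ⊤ := le_top
  have hdvd := hDim F p hodd d r hr2 hrp x hxiso hxr ⊤ hstabtop (hTop F hodd d)
  have htopdim : Module.finrank F ↥(⊤ : Submodule F (I d → F)) = 2 * d + 1 := by
    rw [finrank_top, Module.finrank_fintype_fun_eq_card, Fintype.card_sum, Fintype.card_sum,
      Fintype.card_unit, Fintype.card_fin]
    omega
  rw [htopdim, top_inf_eq] at hdvd
  obtain ⟨j, hj⟩ := hdvd
  have hn : Module.finrank F ↥(Fx (x : Matrix (I d) (I d) F)) +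
      j * cc (orderOf ((Fintype.card F : ℕ) : ZMod r)) = 2 * d + 1 := by
    rw [mul_comm]
    omega
  -- consequences of `Cond`
  have hl : m % cc (orderOf ((Fintype.card F : ℕ) : ZMod r)) = 0 ∨
      m % cc (orderOf ((Fintype.card F : ℕ) : ZMod r)) <
        (2 * d + 1) % cc (orderOf ((Fintype.card F : ℕ) : ZMod r)) := by
    rcases hcond with ⟨-, -, h0 | ⟨-, hlt⟩⟩ | ⟨-, -, hlt, -⟩
    · exact Or.inl h0
    · exact Or.inr hlt
    · exact Or.inr hlt
  obtain ⟨ha1, ha2, ha3⟩ := arith1 d m _ _ j hn hmle hl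
  obtain ⟨E, hEstab, hEnd, hEdim, hEbot, hEperp⟩ :=
    hBlocks F p hodd d r hr2 hrp x hxiso hxr _ ha3
  by_cases hEq : min (m / cc (orderOf ((Fintype.card F : ℕ) : ZMod r))) j *
      cc (orderOf ((Fintype.card F : ℕ) : ZMod r)) = m
  · -- `W = E`
    refine ⟨E, ⟨hEdim.trans hEq, hEnd, ?_⟩, hEstab⟩
    have hm0 : m % cc (orderOf ((Fintype.card F : ℕ) : ZMod r)) = 0 := by
      conv_lhs => rw [← hEq]
      exact Nat.mul_mod_left _ _
    rcases hcond with ⟨hio, -, -⟩ | ⟨hie, -, -, hev⟩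
    · exact hTO F p hodd d r hr2 hrp hio x hxiso hxr E hEstab hEnd hEbot
    · refine (hTE F p hodd d r hr2 hrp hie x hxiso hxr E hEstab hEnd hEbot).mpr ?_
      rw [hEdim, hEq]
      rcases hev with h | h
      · omega
      · exact h
  · -- complete `E` inside the fixed space
    have hElt : min (m / cc (orderOf ((Fintype.card F : ℕ) : ZMod r))) j *
        cc (orderOf ((Fintype.card F : ℕ) : ZMod r)) < m := lt_of_le_of_ne ha1 hEq
    have hEeven : Even (Module.finrank F ↥E) := by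
      rw [hEdim]
      exact (cc_even _).mul_left _
    obtain ⟨W₁, hW₁, hHyp⟩ := hHS F hodd d m hmev E (Fx (x : Matrix (I d) (I d) F)) hEnd hfnd
      hEperp hEeven (by rw [hEdim]; exact hElt) (by rw [hEdim]; exact ha2 hElt)
    exact ⟨E ⊔ W₁, hHyp, stab_sup hEstab (stab_of_le_Fx _ hW₁)⟩

end Cfsg.Agent.Lib.Helper93.HypB1
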