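import Mathlib
import Cfsg.Agent.Lib.Helper40.HPStmt
import Cfsg.Agent.Lib.Helper45.EPStmt
import Cfsg.Agent.Lib.Helper44.TPStmt
import Cfsg.Agent.Lib.Helper93.HPB1Stmt

/-!
# S5974 / B1H (helper93): assembly

Under `CondH`, every isometry `y` of the plus form with `y ^ r = 1` (`r` odd, `r ≠ p`) fixes a
hyperbolic `m`-space `W = E ⊥ W_C`: `E` a sum of `j'` blocks, `W_C ≤ Fix y` of the same type.
-/

set_option autoImplicit false

universe u

open scoped Matrix

namespace Cfsg.Agent.Lib.Helper93.HPB1H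

open Cfsg.Agent.Lib.Helper37.HypStmt (cc IPos)
open Cfsg.Agent.Lib.Helper94.OPStmt (P FxP NDegP StabP mem_FxP)
open Cfsg.Agent.Lib.Helper45.EPStmt (PlusP MemE SubTypeE BlocksA DimObsA)
open Cfsg.Agent.Lib.Helper40.HPStmt
open Cfsg.Agent.Lib.Helper93.HPB1Stmt

theorem cc_cases' (i : ℕ) : (Even i ∧ cc i = i) ∨ (Odd i ∧ cc i = 2 * i) := by
  unfold cc
  by_cases h : Even i
  · left
    exact ⟨h, if_pos h⟩
  · right
    exact ⟨Nat.not_even_iff_odd.mp h, if_neg h⟩

theorem cc_even' (i : ℕ) : Even (cc i) := by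
  rcases cc_cases' i with ⟨h, e⟩ | ⟨_, e⟩
  · rw [e]; exact h
  · rw [e]; exact even_two_mul i

theorem cc_pos' {i : ℕ} (hi : 0 < i) : 0 < cc i := by
  rcases cc_cases' i with ⟨_, e⟩ | ⟨_, e⟩
  · rw [e]; exact hi
  · rw [e]; omega

/-- the type of the fixed space -/
theorem fx_plus (hFx : Cfsg.Agent.Lib.Helper44.TPStmt.FxType.{u})
    (F : Type u) [Field F] [Fintype F] (p : ℕ) [Fact p.Prime] [CharP F p] (d : ℕ)
    (r : ℕ) [Fact r.Prime] (hr2 : r ≠ 2) (hrp : r ≠ p)
    (y : Matrix.GeneralLinearGroup (P d) F)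
    (hy : y ∈ Cfsg.isometryGroup F (Cfsg.quadFormPlus d F)) (hyr : y ^ r = 1)
    (i c f s : ℕ) (hi : i = orderOf ((Fintype.card F : ℕ) : ZMod r)) (hipos : 0 < i)
    (hc : c = cc i) (hf : f = Module.finrank F ↥(FxP (y : Matrix (P d) (P d) F)))
    (h2d : 2 * d = f + c * s) :
    PlusP d F (FxP (y : Matrix (P d) (P d) F)) ↔ (Odd i ∨ Even s) := by
  have h := hFx F p d r hr2 hrp y hy hyr
  have h' : PlusP d F (FxP (y : Matrix (P d) (P d) F)) ↔ (Odd i ∨ Even ((2 * d - f) / i)) := by
    rw [hi, hf]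
    exact h
  rcases cc_cases' i with ⟨hev, hci⟩ | ⟨hodd, -⟩
  · have hci' : c = i := hc.trans hci
    have h3 : (2 * d - f) / i = s := by
      rw [h2d, Nat.add_sub_cancel_left, hci', Nat.mul_div_cancel_left _ hipos]
    rw [h3] at h'
    exact h'
  · exact ⟨fun _ => Or.inl hodd, fun _ => h'.mpr (Or.inl hodd)⟩

/-- the construction -/
theorem build (hBlocks : BlocksA.{u}) (hSub : SubTypeE.{u})
    (hFixND : Cfsg.Agent.Lib.Helper44.TPStmt.FixND.{u})
    (hFx : Cfsg.Agent.Lib.Helper44.TPStmt.FxType.{u})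
    (hTE : Cfsg.Agent.Lib.Helper44.TPStmt.TypeEven.{u})
    (hHO : Cfsg.Agent.Lib.Helper44.TPStmt.HalfOdd.{u})
    (hOS : Cfsg.Agent.Lib.Helper44.TPStmt.OrthSum.{u})
    (hPP : PPH.{u}) (hMM : MMH.{u})
    (F : Type u) [Field F] [Fintype F] (p : ℕ) [Fact p.Prime] [CharP F p] (d m : ℕ)
    (r : ℕ) [Fact r.Prime] (hr2 : r ≠ 2) (hrp : r ≠ p)
    (y : Matrix.GeneralLinearGroup (P d) F)
    (hy : y ∈ Cfsg.isometryGroup F (Cfsg.quadFormPlus d F)) (hyr : y ^ r = 1)
    (i c f s : ℕ) (hi : i = orderOf ((Fintype.card F : ℕ) : ZMod r)) (hipos : 0 < i)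
    (hc : c = cc i) (hf : f = Module.finrank F ↥(FxP (y : Matrix (P d) (P d) F)))
    (h2d : 2 * d = f + c * s) (hm : Even m)
    (j' e : ℕ) (hj : j' ≤ s) (hem : e + j' * c = m)
    (hok : (Odd i ∧ e ≤ f) ∨ (Even i ∧ ((0 < e ∧ e < f) ∨ (e = 0 ∧ Even j') ∨
      (e = f ∧ (Even s ↔ Even j'))))) :
    ∃ W : Submodule F (P d → F), HypJ d F m W ∧ StabP (y : Matrix (P d) (P d) F) W := by
  have hceven : Even c := hc ▸ cc_even' i
  have hjc : j' * c ≤ c * s := by
    rw [mul_comm c s]
    exact Nat.mul_le_mul_right c hj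
  obtain ⟨E, hEst, hEnd, hEdim, hEF, hEorth⟩ := hBlocks F p d r hr2 hrp y hy hyr j' (by
    rw [← hi, ← hc, ← hf]
    omega)
  rw [← hi, ← hc] at hEdim
  -- type of `E`
  have hEplus : PlusP d F E ↔ (Odd i ∨ Even j') := by
    rcases cc_cases' i with ⟨hev, hci⟩ | ⟨hodd, -⟩
    · have hci' : c = i := hc.trans hci
      have h := hTE F p d r hr2 hrp (hi ▸ hev) y hy hyr E hEst hEnd hEF
      have h' : PlusP d F E ↔ Even (Module.finrank F ↥E / i) := by
        rw [hi]
        exact h
      rw [hEdim, hci', Nat.mul_div_cancel _ hipos] at h'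
      constructor
      · intro hp
        exact Or.inr (h'.mp hp)
      · rintro (ho | he)
        · exact absurd hev (Nat.not_even_iff_odd.mpr ho)
        · exact h'.mpr he
    · constructor
      · intro _
        exact Or.inl hodd
      · intro _
        obtain ⟨U, hUE, -, hUts, hUdim⟩ :=
          hHO F p d r hr2 hrp (hi ▸ hodd) y hy hyr E hEst hEnd hEF
        exact ⟨U, hUE, hUts, hUdim⟩
  have hCnd : NDegP d F (FxP (y : Matrix (P d) (P d) F)) := hFixND F p d r hrp y hy hyr
  have hCplus := fx_plus hFx F p d r hr2 hrp y hy hyr i c f s hi hipos hc hf h2d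
  have hEe : Even e := by
    have h1 : Even (e + j' * c) := hem ▸ hm
    exact (Nat.even_add.mp h1).mpr (Even.mul_left hceven j')
  by_cases he0 : e = 0
  · -- `W = E`
    have hp : PlusP d F E := by
      rw [hEplus]
      rcases hok with ⟨ho, -⟩ | ⟨hev, ⟨h1, -⟩ | ⟨-, h2⟩ | ⟨h3, h4⟩⟩
      · exact Or.inl ho
      · omega
      · exact Or.inr h2
      · right
        apply h4.mp
        have hf0 : Module.finrank F ↥(FxP (y : Matrix (P d) (P d) F)) = 0 := by omega
        have hpl : PlusP d F (FxP (y : Matrix (P d) (P d) F)) := by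
          refine ⟨⊥, bot_le, ?_, ?_⟩
          · intro u hu
            rw [(Submodule.mem_bot F).mp hu]
            simp [Cfsg.quadFormPlus]
          · rw [finrank_bot, hf0]
        rcases hCplus.mp hpl with ho | hs
        · exact absurd hev (Nat.not_even_iff_odd.mpr ho)
        · exact hs
    refine ⟨E, (hypJ_iff d m E).mpr ⟨?_, hEnd, hp⟩, hEst⟩
    rw [hEdim]
    omega
  · -- `W = E ⊔ W_C`
    have hcase : e < f ∨ (e = f ∧ (PlusP d F (FxP (y : Matrix (P d) (P d) F)) ↔ PlusP d F E)) := by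
      rcases hok with ⟨ho, hle⟩ | ⟨hev, ⟨-, h1⟩ | ⟨h2, -⟩ | ⟨h3, h4⟩⟩
      · rcases Nat.lt_or_ge e f with h | h
        · exact Or.inl h
        · right
          refine ⟨le_antisymm hle h, ?_⟩
          rw [hCplus, hEplus]
          exact ⟨fun _ => Or.inl ho, fun _ => Or.inl ho⟩
      · exact Or.inl h1
      · exact absurd h2 he0
      · right
        refine ⟨h3, ?_⟩
        rw [hCplus, hEplus]
        constructor
        · rintro (ho | hs)
          · exact Or.inl ho
          · exact Or.inr (h4.mp hs)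
        · rintro (ho | hs)
          · exact Or.inl ho
          · exact Or.inr (h4.mpr hs)
    have hWC : ∃ WC : Submodule F (P d → F), WC ≤ FxP (y : Matrix (P d) (P d) F) ∧
        NDegP d F WC ∧ Module.finrank F ↥WC = e ∧ (PlusP d F WC ↔ PlusP d F E) := by
      rcases hcase with hlt | ⟨hef, hiff⟩
      · obtain ⟨⟨W1, hW1le, hW1dim, hW1nd, hW1plus⟩, hell⟩ :=
          hSub F d e (FxP (y : Matrix (P d) (P d) F)) hCnd hEe (hf ▸ hlt)
        by_cases hp : PlusP d F E
        · exact ⟨W1, hW1le, hW1nd, hW1dim, ⟨fun _ => hp, fun _ => hW1plus⟩⟩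
        · have h2e : 2 ≤ e := by
            obtain ⟨t, ht⟩ := hEe
            omega
          obtain ⟨W2, hW2le, hW2dim, hW2nd, hW2np⟩ := hell h2e
          exact ⟨W2, hW2le, hW2nd, hW2dim, ⟨fun h => absurd h hW2np, fun h => absurd h hp⟩⟩
      · exact ⟨FxP (y : Matrix (P d) (P d) F), le_rfl, hCnd, by rw [hef]; exact hf.symm, hiff⟩
    obtain ⟨WC, hWCle, hWCnd, hWCdim, hWCiff⟩ := hWC
    have horth : ∀ u ∈ E, ∀ v ∈ WC,
        QuadraticMap.polar (Cfsg.quadFormPlus d F) u v = 0 :=
      fun u hu v hv => hEorth u hu v (hWCle hv)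
    obtain ⟨hWnd, hinf, hWdim⟩ := hOS F d E WC hEnd hWCnd horth
    have hplus : PlusP d F (E ⊔ WC) := by
      by_cases hp : PlusP d F E
      · exact hPP F d E WC horth hinf hp (hWCiff.mpr hp)
      · refine hMM F d E WC hEnd hWCnd horth ?_ ?_ hp (fun h => hp (hWCiff.mp h))
        · rw [hEdim]
          exact Even.mul_left hceven j'
        · rw [hWCdim]
          exact hEe
    refine ⟨E ⊔ WC, (hypJ_iff d m (E ⊔ WC)).mpr ⟨?_, hWnd, hplus⟩, ?_⟩
    · have h1 : Module.finrank F ↥(E ⊔ WC) = Module.finrank F ↥E + Module.finrank F ↥WC := hWdim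
      rw [h1, hEdim, hWCdim]
      omega
    · unfold StabP
      rw [Submodule.map_sup]
      apply sup_le_sup hEst
      rintro _ ⟨w, hw, rfl⟩
      rw [Matrix.toLin'_apply, (mem_FxP _ w).mp (hWCle hw)]
      exact hw

/-- B1H from the landed geometric pieces -/
theorem main_of (hIPos : IPos.{u}) (hTop : Cfsg.Agent.Lib.Helper44.TPStmt.Top.{u})
    (hDim : DimObsA.{u}) (hBlocks : BlocksA.{u}) (hSub : SubTypeE.{u})
    (hFixND : Cfsg.Agent.Lib.Helper44.TPStmt.FixND.{u})
    (hFx : Cfsg.Agent.Lib.Helper44.TPStmt.FxType.{u})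
    (hTE : Cfsg.Agent.Lib.Helper44.TPStmt.TypeEven.{u})
    (hHO : Cfsg.Agent.Lib.Helper44.TPStmt.HalfOdd.{u})
    (hOS : Cfsg.Agent.Lib.Helper44.TPStmt.OrthSum.{u})
    (hPP : PPH.{u}) (hMM : MMH.{u}) : B1H.{u} := by
  intro F _ _ p _ _ d m hd hm2 hm hmd r _ hr2 hrp hcond y hy hyr
  have hipos : 0 < orderOf ((Fintype.card F : ℕ) : ZMod r) := hIPos F p r hrp
  obtain ⟨i, hidef⟩ : ∃ i : ℕ, i = orderOf ((Fintype.card F : ℕ) : ZMod r) := ⟨_, rfl⟩
  rw [← hidef] at hipos hcond
  obtain ⟨c, hcdef⟩ : ∃ c : ℕ, c = cc i := ⟨_, rfl⟩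
  have hcpos : 0 < c := hcdef ▸ cc_pos' hipos
  obtain ⟨f, hfdef⟩ : ∃ f : ℕ, f = Module.finrank F ↥(FxP (y : Matrix (P d) (P d) F)) :=
    ⟨_, rfl⟩
  have hVdim : Module.finrank F (P d → F) = 2 * d := by
    rw [Module.finrank_pi]
    simp
    omega
  have hfle : f ≤ 2 * d := by
    rw [hfdef, ← hVdim]
    exact Submodule.finrank_le _
  have hstT : StabP (y : Matrix (P d) (P d) F) ⊤ := by
    unfold StabP
    exact le_top
  have hdvd : c ∣ 2 * d - f := by
    have h := hDim F p d r hr2 hrp y hy hyr ⊤ hstT (hTop F d).1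
    rw [top_inf_eq, finrank_top, hVdim, ← hidef, ← hcdef, ← hfdef] at h
    exact h
  obtain ⟨s, hs⟩ := hdvd
  have h2d : 2 * d = f + c * s := by omega
  have hk : (2 * d) % c = f % c := by
    rw [h2d, Nat.add_mul_mod_self_left]
  have hfmodle : f % c ≤ f := Nat.mod_le f c
  have hcs : c * s = s * c := mul_comm c s
  have hCplus := fx_plus hFx F p d r hr2 hrp y hy hyr i c f s hidef hipos hcdef hfdef h2d
  have hplus0 : f = 0 → PlusP d F (FxP (y : Matrix (P d) (P d) F)) := by
    intro hf0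
    refine ⟨⊥, bot_le, ?_, ?_⟩
    · intro u hu
      rw [(Submodule.mem_bot F).mp hu]
      simp [Cfsg.quadFormPlus]
    · rw [finrank_bot, ← hfdef, hf0]
  have B := fun (j' e : ℕ) (hj : j' ≤ s) (hem : e + j' * c = m) hok =>
    build hBlocks hSub hFixND hFx hTE hHO hOS hPP hMM F p d m r hr2 hrp y hy hyr i c f s
      hidef hipos hcdef hfdef h2d hm j' e hj hem hok
  have hmd' : m % c + m / c * c = m := Nat.mod_add_div' m c
  unfold CondH at hcond
  rw [← hcdef] at hcond
  -- the case of many blocks in `W`: `s < m / c`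
  have hbig : s < m / c → (0 < m - s * c ∧ m - s * c < f ∧ m - s * c + s * c = m) := by
    intro has
    have h1 : (s + 1) * c ≤ m := (Nat.le_div_iff_mul_le hcpos).mp has
    rw [Nat.succ_mul] at h1
    refine ⟨by omega, by omega, by omega⟩
  rcases cc_cases' i with ⟨hev, hci⟩ | ⟨hodd, hci⟩
  · -- `i` even, `c = i`
    have hci' : c = i := hcdef.trans hci
    rw [← hci'] at hcond
    have hevc : Even c := hci' ▸ hev
    rcases Nat.lt_or_ge s (m / c) with has | has
    · obtain ⟨h1, h2, h3⟩ := hbig has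
      exact B s (m - s * c) le_rfl h3 (Or.inr ⟨hev, Or.inl ⟨h1, h2⟩⟩)
    · by_cases hl0 : m % c = 0
      · rcases Nat.even_or_odd (m / c) with hae | hao
        · exact B (m / c) 0 has (by omega) (Or.inr ⟨hev, Or.inr (Or.inl ⟨rfl, hae⟩)⟩)
        · have hA : (2 * d) % c = 0 ∧ Odd ((2 * d) / c) := by
            rcases hcond with ⟨ho, -⟩ | ⟨-, ⟨hk0, hJodd | ⟨-, hae'⟩⟩ |
              ⟨-, ⟨-, hlpos⟩ | ⟨-, hlpos, -⟩ | ⟨-, -, hae'⟩⟩⟩
            · exact absurd hevc (Nat.not_even_iff_odd.mpr ho)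
            · exact ⟨hk0, hJodd⟩
            · exact absurd hae' (Nat.not_even_iff_odd.mpr hao)
            · omega
            · omega
            · exact absurd hae' (Nat.not_even_iff_odd.mpr hao)
          have hfmod : f % c = 0 := by
            rw [← hk]
            exact hA.1
          have hJ : (2 * d) / c = f / c + s := by
            rw [h2d]
            exact Nat.add_mul_div_left f s hcpos
          have hft : c * (f / c) = f := Nat.mul_div_cancel' (Nat.dvd_of_mod_eq_zero hfmod)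
          obtain ⟨t, ht⟩ : ∃ t : ℕ, t = f / c := ⟨_, rfl⟩
          rw [← ht] at hJ hft
          have hodd' : Odd (t + s) := hJ ▸ hA.2
          have ht0 : t ≠ 0 := by
            intro h0
            rw [h0, zero_add] at hodd'
            have hf0 : f = 0 := by
              rw [← hft, h0, mul_zero]
            rcases hCplus.mp (hplus0 hf0) with ho | hs'
            · exact absurd hev (Nat.not_even_iff_odd.mpr ho)
            · exact absurd hs' (Nat.not_even_iff_odd.mpr hodd')
          obtain ⟨b, hb⟩ : ∃ b : ℕ, m / c = b + 1 := by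
            obtain ⟨b', hb'⟩ := hao
            exact ⟨2 * b', hb'⟩
          have hbc : (b + 1) * c = b * c + c := Nat.succ_mul b c
          rw [hb] at hmd' has hao
          have hbe : Even b := by
            rcases Nat.even_or_odd b with h | h
            · exact h
            · exact absurd (Odd.add_odd h odd_one) (Nat.not_even_iff_odd.mpr hao)
          refine B b c (by omega) (by omega) (Or.inr ⟨hev, ?_⟩)
          rcases Nat.lt_or_ge 1 t with h2t | h2t
          · left
            refine ⟨hcpos, ?_⟩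
            have h3 : c * 2 ≤ c * t := Nat.mul_le_mul_left c h2t
            omega
          · right; right
            have ht1 : t = 1 := by omega
            rw [ht1, mul_one] at hft
            rw [ht1] at hodd'
            have hse : Even s := by
              rcases Nat.even_or_odd s with h | h
              · exact h
              · exact absurd (Odd.add_odd odd_one h) (Nat.not_even_iff_odd.mpr hodd')
            exact ⟨hft, ⟨fun _ => hbe, fun _ => hse⟩⟩
      · by_cases hlf : m % c < f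
        · exact B (m / c) (m % c) has hmd' (Or.inr ⟨hev, Or.inl ⟨by omega, hlf⟩⟩)
        · have hl : m % c < c := Nat.mod_lt m hcpos
          have hfc : f % c = f := Nat.mod_eq_of_lt (by omega)
          have hkf : (2 * d) % c = f := by rw [hk, hfc]
          rw [hkf] at hcond
          rcases hcond with ⟨ho, -⟩ | ⟨-, ⟨hk0, hJodd | ⟨hl0', -⟩⟩ |
            ⟨-, ⟨hlt, -⟩ | ⟨hkl, -, hpar⟩ | ⟨-, hl0', -⟩⟩⟩
          · exact absurd hevc (Nat.not_even_iff_odd.mpr ho)
          · exfalso
            have hJ : (2 * d) / c = s := by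
              rw [h2d, hk0, zero_add]
              exact Nat.mul_div_cancel_left s hcpos
            rw [hJ] at hJodd
            rcases hCplus.mp (hplus0 hk0) with ho | hs'
            · exact absurd hev (Nat.not_even_iff_odd.mpr ho)
            · exact absurd hs' (Nat.not_even_iff_odd.mpr hJodd)
          · exact absurd hl0' hl0
          · omega
          · refine B (m / c) (m % c) has hmd' (Or.inr ⟨hev, Or.inr (Or.inr ⟨hkl.symm, ?_⟩)⟩)
            have h1 : 2 * d + m - 2 * f = c * (s + m / c) := by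
              rw [mul_add, mul_comm c (m / c)]
              omega
            rw [h1, Nat.mul_div_cancel_left _ hcpos] at hpar
            exact Nat.even_add.mp hpar
          · exact absurd hl0' hl0
  · -- `i` odd
    have hle : m % c ≤ (2 * d) % c := by
      rcases hcond with ⟨-, -, h⟩ | ⟨hev, -⟩
      · exact h
      · exact absurd hev (Nat.not_even_iff_odd.mpr hodd)
    rcases Nat.lt_or_ge s (m / c) with has | has
    · obtain ⟨h1, h2, h3⟩ := hbig has
      exact B s (m - s * c) le_rfl h3 (Or.inl ⟨hodd, by omega⟩)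
    · exact B (m / c) (m % c) has hmd' (Or.inl ⟨hodd, by omega⟩)

end Cfsg.Agent.Lib.Helper93.HPB1H
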