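import Mathlib
import Cfsg.Prelude.Def_ClassificationK
import Cfsg.Agent.Lib.Helper29.Basic
import Cfsg.Agent.Lib.Helper71.Fitting

/-!
# 2-groups of symplectic type and exponent dividing 4

In a finite 2-group `T` of exponent dividing 4 in which every characteristic abelian subgroup is
cyclic, all squares and all commutators lie in `{1, ζ}` for the central involution `ζ`.
-/

set_option autoImplicit false

namespace Cfsg.Agent.Lib.Helper93.SympType

open Subgroup

variable {T : Type*} [Group T]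

/-- The subgroup generated by the squares. -/
def sqSub (T : Type*) [Group T] : Subgroup T := Subgroup.closure {y | ∃ x : T, y = x * x}

theorem sq_mem_sqSub (x : T) : x * x ∈ sqSub T := Subgroup.subset_closure ⟨x, rfl⟩

instance sqSub_char : (sqSub T).Characteristic := by
  rw [Subgroup.characteristic_iff_map_le]
  intro φ
  unfold sqSub
  rw [MonoidHom.map_closure, Subgroup.closure_le]
  rintro _ ⟨y, ⟨x, rfl⟩, rfl⟩
  exact Subgroup.subset_closure ⟨φ x, by simp⟩

theorem comm_mem_sqSub (x y : T) : x * y * x⁻¹ * y⁻¹ ∈ sqSub T := by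
  have e : x * y * x⁻¹ * y⁻¹ =
      (x * y) * (x * y) * ((y⁻¹ * x⁻¹ * y) * (y⁻¹ * x⁻¹ * y)) * (y⁻¹ * y⁻¹) := by group
  rw [e]
  exact (sqSub T).mul_mem ((sqSub T).mul_mem (sq_mem_sqSub _) (sq_mem_sqSub _)) (sq_mem_sqSub _)

theorem pow_four_eq (x : T) : x * x * (x * x) = x ^ 4 := by
  rw [show (4 : ℕ) = 2 + 2 from rfl, pow_add, pow_two]

/-- a nontrivial finite 2-group has an involution -/
theorem exists_invol (H : Type*) [Group H] [Finite H] (hH : IsPGroup 2 H) [Nontrivial H] :
    ∃ x : H, orderOf x = 2 := by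
  haveI : Fact (Nat.Prime 2) := ⟨Nat.prime_two⟩
  obtain ⟨n, hn⟩ := IsPGroup.iff_card.mp hH
  have hn0 : n ≠ 0 := by
    rintro rfl
    have : Nat.card H = 1 := by simpa using hn
    have h1 : 1 < Nat.card H := Finite.one_lt_card
    omega
  have hdvd : 2 ∣ Nat.card H := by
    rw [hn]
    exact dvd_pow_self 2 hn0
  exact exists_prime_orderOf_dvd_card' 2 hdvd

/-- In a finite 2-group, a normal subgroup `W` not contained in a normal subgroup `B`
contains an element outside `B` that is central and of order two modulo `B`. -/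
theorem exists_central_mod [Finite T] (hT : IsPGroup 2 T) (B W : Subgroup T) [hB : B.Normal]
    [hW : W.Normal] (hne : ¬ W ≤ B) :
    ∃ t ∈ W, t ∉ B ∧ t * t ∈ B ∧ ∀ x : T, x * t * x⁻¹ * t⁻¹ ∈ B := by
  classical
  haveI : Fact (Nat.Prime 2) := ⟨Nat.prime_two⟩
  set Wb : Subgroup (T ⧸ B) := W.map (QuotientGroup.mk' B) with hWb
  have hWbn : Wb.Normal := Subgroup.Normal.map hW _ (QuotientGroup.mk'_surjective B)
  have hWbne : Wb ≠ ⊥ := by
    intro h
    apply hne
    intro w hw
    have h1 : (QuotientGroup.mk' B) w ∈ Wb := Subgroup.mem_map_of_mem _ hw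
    rw [h, Subgroup.mem_bot] at h1
    exact (QuotientGroup.eq_one_iff w).mp h1
  have hTb : IsPGroup 2 (T ⧸ B) := hT.to_quotient B
  have hnil : Group.IsNilpotent ↥(⊤ : Subgroup (T ⧸ B)) :=
    (hTb.to_subgroup ⊤).isNilpotent
  have h2 := Cfsg.Agent.Lib.Helper71.Fitting.inf_centralizer_ne_bot (⊤ : Subgroup (T ⧸ B)) Wb
    hnil le_top hWbne (by rw [Subgroup.normalizer_eq_top])
  have hI2 : IsPGroup 2 ↥(Wb ⊓ centralizer ((⊤ : Subgroup (T ⧸ B)) : Set (T ⧸ B))) :=
    hTb.to_subgroup _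
  haveI hnt : Nontrivial ↥(Wb ⊓ centralizer ((⊤ : Subgroup (T ⧸ B)) : Set (T ⧸ B))) :=
    (Subgroup.nontrivial_iff_ne_bot _).mpr h2
  obtain ⟨c, hc⟩ := exists_invol _ hI2
  obtain ⟨hcW, hcZ⟩ := c.2
  obtain ⟨t, htW, htc⟩ := hcW
  have hc' : orderOf ((c : T ⧸ B)) = 2 := by rw [Subgroup.orderOf_coe]; exact hc
  have hcc : (c : T ⧸ B) * (c : T ⧸ B) = 1 := by
    have := pow_orderOf_eq_one (c : T ⧸ B)
    rwa [hc', pow_two] at this
  have hc1 : (c : T ⧸ B) ≠ 1 := by
    intro h
    rw [h, orderOf_one] at hc'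
    omega
  refine ⟨t, htW, ?_, ?_, ?_⟩
  · intro htB
    apply hc1
    rw [← htc]
    exact (QuotientGroup.eq_one_iff t).mpr htB
  · rw [← QuotientGroup.eq_one_iff]
    have : ((t * t : T) : T ⧸ B) = (QuotientGroup.mk' B) t * (QuotientGroup.mk' B) t := rfl
    rw [this, htc]
    exact hcc
  · intro x
    rw [← QuotientGroup.eq_one_iff]
    have e : ((x * t * x⁻¹ * t⁻¹ : T) : T ⧸ B) =
        (QuotientGroup.mk' B) x * (QuotientGroup.mk' B) t * ((QuotientGroup.mk' B) x)⁻¹ *
          ((QuotientGroup.mk' B) t)⁻¹ := rfl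
    rw [e, htc]
    have h3 := Subgroup.mem_centralizer_iff.mp hcZ ((QuotientGroup.mk' B) x) (Subgroup.mem_top _)
    rw [h3]
    group

theorem zpowers_normal_of_center {ζ : T} (hζc : ζ ∈ center T) : (zpowers ζ).Normal := by
  refine ⟨fun n hn g => ?_⟩
  have hle : zpowers ζ ≤ center T := (Subgroup.zpowers_le).mpr hζc
  have h1 := Subgroup.mem_center_iff.mp (hle hn) g
  have : g * n * g⁻¹ = n := by rw [h1]; group
  rw [this]
  exact hn

theorem mem_zpowers_two {ζ : T} (hζ : ζ * ζ = 1) (x : T) : x ∈ zpowers ζ ↔ x = 1 ∨ x = ζ := by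
  constructor
  · intro hx
    have hle : zpowers ζ ≤ (⊤ : Subgroup T) := le_top
    obtain ⟨k, rfl⟩ := Subgroup.mem_zpowers_iff.mp hx
    rcases Int.emod_two_eq_zero_or_one k with h | h
    · left
      have hk : k = 2 * (k / 2) := by omega
      rw [hk, zpow_mul, zpow_ofNat, pow_two, hζ, one_zpow]
    · right
      have hk : k = 2 * (k / 2) + 1 := by omega
      rw [hk, zpow_add, zpow_mul, zpow_ofNat, pow_two, hζ, one_zpow, one_mul, zpow_one]
  · rintro (h | h)
    · rw [h]; exact Subgroup.one_mem _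
    · rw [h]; exact Subgroup.mem_zpowers ζ

/-- if `x t x⁻¹ t⁻¹ ∈ {1, ζ}` with `ζ` a central involution, then `x * x` commutes with `t`. -/
theorem sq_commute_of_comm {ζ : T} (hζ : ζ * ζ = 1) (hζc : ζ ∈ center T) {x t : T}
    (h : x * t * x⁻¹ * t⁻¹ = 1 ∨ x * t * x⁻¹ * t⁻¹ = ζ) : (x * x) * t = t * (x * x) := by
  rcases h with h | h
  · have h1 : x * t = t * x := by
      have := congrArg (fun u => u * t * x) h
      simpa [mul_assoc] using this
    calc x * x * t = x * (x * t) := by group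
      _ = x * (t * x) := by rw [h1]
      _ = (x * t) * x := by group
      _ = t * x * x := by rw [h1]
      _ = t * (x * x) := by group
  · have hc : ∀ u : T, u * ζ = ζ * u := fun u => Subgroup.mem_center_iff.mp hζc u
    have h1 : x * t = ζ * (t * x) := by
      have := congrArg (fun u => u * t * x) h
      simpa [mul_assoc] using this
    calc x * x * t = x * (x * t) := by group
      _ = x * (ζ * (t * x)) := by rw [h1]
      _ = (x * ζ) * t * x := by group
      _ = (ζ * x) * t * x := by rw [hc x]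
      _ = ζ * (x * t) * x := by group
      _ = ζ * (ζ * (t * x)) * x := by rw [h1]
      _ = (ζ * ζ) * (t * (x * x)) := by group
      _ = t * (x * x) := by rw [hζ, one_mul]

/-- **Structure of symplectic-type 2-groups of exponent dividing 4**: the subgroup generated by
the squares is contained in `{1, ζ}`. -/
theorem sqSub_le [Finite T] (hT : Cfsg.IsOfSymplecticType T) (h4 : ∀ q : T, q ^ 4 = 1) (ζ : T)
    (hζ : orderOf ζ = 2) (hζc : ζ ∈ center T) : ∀ w ∈ sqSub T, w = 1 ∨ w = ζ := by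
  classical
  haveI : Fact (Nat.Prime 2) := ⟨Nat.prime_two⟩
  obtain ⟨hT2, hsymp⟩ := hT
  have hζζ : ζ * ζ = 1 := by
    have := pow_orderOf_eq_one ζ
    rwa [hζ, pow_two] at this
  have hζ1 : ζ ≠ 1 := by
    intro h
    rw [h, orderOf_one] at hζ
    omega
  have hord2 : ∀ c : T, c * c = 1 → c ≠ 1 → orderOf c = 2 := fun c hc hc1 =>
    orderOf_eq_prime (by rw [pow_two]; exact hc) hc1
  set W := sqSub T with hW
  haveI hWn : W.Normal := Subgroup.normal_of_characteristic W
  -- the centre of `W`, as a characteristic abelian (hence cyclic) subgroup of `T`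
  set A : Subgroup T := W ⊓ centralizer (W : Set T) with hA
  haveI hAchar : A.Characteristic := inferInstance
  haveI hAn : A.Normal := Subgroup.normal_of_characteristic A
  haveI hAcomm : IsMulCommutative ↥A := by
    refine ⟨⟨fun a b => Subtype.ext ?_⟩⟩
    have h1 := Subgroup.mem_centralizer_iff.mp b.2.2 (a : T) a.2.1
    exact h1
  haveI hAcyc : IsCyclic ↥A := hsymp A hAchar hAcomm
  -- involutions of `A` are equal
  have hAinv : ∀ a ∈ A, ∀ b ∈ A, a * a = 1 → a ≠ 1 → b * b = 1 → b ≠ 1 → a = b := by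
    intro a ha b hb haa ha1 hbb hb1
    have h1 : orderOf (⟨a, ha⟩ : ↥A) = 2 := by
      rw [← Subgroup.orderOf_coe]; exact hord2 a haa ha1
    have h2 : orderOf (⟨b, hb⟩ : ↥A) = 2 := by
      rw [← Subgroup.orderOf_coe]; exact hord2 b hbb hb1
    have := Cfsg.Agent.Lib.Helper29.Basic.eq_of_orderOf_eq_two_of_isCyclic h1 h2
    exact congrArg Subtype.val this
  -- an element all of whose conjugates differ from it by `1` or `ζ` and lying in `W` is in `A`
  have hCA : ∀ t ∈ W, (∀ x : T, x * t * x⁻¹ * t⁻¹ = 1 ∨ x * t * x⁻¹ * t⁻¹ = ζ) → t ∈ A := by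
    intro t ht hx
    refine ⟨ht, ?_⟩
    show t ∈ centralizer (W : Set T)
    have hle : W ≤ centralizer ({t} : Set T) := by
      rw [hW, sqSub, Subgroup.closure_le]
      rintro _ ⟨x, rfl⟩
      rw [SetLike.mem_coe, Subgroup.mem_centralizer_singleton_iff]
      exact sq_commute_of_comm hζζ hζc (hx x)
    rw [Subgroup.mem_centralizer_iff]
    intro w hw
    have := hle hw
    rw [Subgroup.mem_centralizer_singleton_iff] at this
    exact this
  by_contra hcon
  push Not at hcon
  obtain ⟨w, hwW, hw1, hwζ⟩ := hcon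
  haveI hB1n : (zpowers ζ).Normal := zpowers_normal_of_center hζc
  -- `ζ ∈ W`
  have hζW : ζ ∈ W := by
    have hWne : W ≠ ⊥ := by
      intro h
      rw [h, Subgroup.mem_bot] at hwW
      exact hw1 hwW
    have hnil : Group.IsNilpotent ↥(⊤ : Subgroup T) := (hT2.to_subgroup ⊤).isNilpotent
    have h2 := Cfsg.Agent.Lib.Helper71.Fitting.inf_centralizer_ne_bot (⊤ : Subgroup T) W
      hnil le_top hWne (by rw [Subgroup.normalizer_eq_top])
    have hI2 : IsPGroup 2 ↥(W ⊓ centralizer ((⊤ : Subgroup T) : Set T)) := hT2.to_subgroup _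
    haveI hnt : Nontrivial ↥(W ⊓ centralizer ((⊤ : Subgroup T) : Set T)) :=
      (Subgroup.nontrivial_iff_ne_bot _).mpr h2
    obtain ⟨c, hc⟩ := exists_invol _ hI2
    have hc' : orderOf (c : T) = 2 := by rw [Subgroup.orderOf_coe]; exact hc
    have hcc : (c : T) ∈ center T := by
      rw [Subgroup.mem_center_iff]
      intro g
      exact Subgroup.mem_centralizer_iff.mp c.2.2 g (Subgroup.mem_top _)
    haveI : IsCyclic ↥(center T) := hsymp _ Subgroup.centerCharacteristic inferInstance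
    have h3 : orderOf (⟨(c : T), hcc⟩ : ↥(center T)) = 2 := by
      rw [← Subgroup.orderOf_coe]; exact hc'
    have h4' : orderOf (⟨ζ, hζc⟩ : ↥(center T)) = 2 := by
      rw [← Subgroup.orderOf_coe]; exact hζ
    have := Cfsg.Agent.Lib.Helper29.Basic.eq_of_orderOf_eq_two_of_isCyclic h3 h4'
    have h5 : (c : T) = ζ := congrArg Subtype.val this
    rw [← h5]
    exact c.2.1
  have hζA : ζ ∈ A := by
    refine ⟨hζW, ?_⟩
    show ζ ∈ centralizer (W : Set T)
    rw [Subgroup.mem_centralizer_iff]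
    intro g _
    exact Subgroup.mem_center_iff.mp hζc g
  have hB1A : zpowers ζ ≤ A := (Subgroup.zpowers_le).mpr hζA
  -- first step
  have hne1 : ¬ W ≤ zpowers ζ := by
    intro h
    rcases (mem_zpowers_two hζζ w).mp (h hwW) with h' | h'
    · exact hw1 h'
    · exact hwζ h'
  obtain ⟨y, hyW, hyB, hyy, hyx⟩ := exists_central_mod hT2 (zpowers ζ) W hne1
  have hyA : y ∈ A := hCA y hyW (fun x => (mem_zpowers_two hζζ _).mp (hyx x))
  have hy1 : y ≠ 1 := fun h => hyB (by rw [h]; exact Subgroup.one_mem _)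
  have hyζ : y ≠ ζ := fun h => hyB (by rw [h]; exact Subgroup.mem_zpowers ζ)
  have hyy' : y * y = ζ := by
    rcases (mem_zpowers_two hζζ _).mp hyy with h | h
    · exact absurd (hAinv y hyA ζ hζA h hy1 hζζ hζ1) hyζ
    · exact h
  -- second step
  have hne2 : ¬ W ≤ A := by
    intro h
    apply hne1
    rw [hW, sqSub, Subgroup.closure_le]
    rintro _ ⟨x, rfl⟩
    rw [SetLike.mem_coe, mem_zpowers_two hζζ]
    have hxA : x * x ∈ A := h (sq_mem_sqSub x)
    have hxx : (x * x) * (x * x) = 1 := by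
      have := h4 x
      calc x * x * (x * x) = x ^ 4 := pow_four_eq x
        _ = 1 := this
    by_cases hx1 : x * x = 1
    · exact Or.inl hx1
    · exact Or.inr (hAinv _ hxA ζ hζA hxx hx1 hζζ hζ1)
  obtain ⟨t, htW, htA, htt, htx⟩ := exists_central_mod hT2 A W hne2
  have hty : t * y = y * t := by
    have := Subgroup.mem_centralizer_iff.mp hyA.2 t htW
    exact this
  have htt4 : (t * t) * (t * t) = 1 := by
    have := h4 t
    calc t * t * (t * t) = t ^ 4 := pow_four_eq t
      _ = 1 := this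
  have htt' : t * t = 1 ∨ t * t = ζ := by
    by_cases h1 : t * t = 1
    · exact Or.inl h1
    · exact Or.inr (hAinv _ htt ζ hζA htt4 h1 hζζ hζ1)
  -- an involution `u ∈ W`, not in `A`, central modulo `A`
  obtain ⟨u, huW, huA, huu, hux⟩ : ∃ u ∈ W, u ∉ A ∧ u * u = 1 ∧ ∀ x : T, x * u * x⁻¹ * u⁻¹ ∈ A := by
    rcases htt' with h | h
    · exact ⟨t, htW, htA, h, htx⟩
    · refine ⟨t * y, W.mul_mem htW hyW, ?_, ?_, ?_⟩
      · intro h1
        apply htA
        have := A.mul_mem h1 (A.inv_mem hyA)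
        simpa using this
      · calc t * y * (t * y) = t * (y * t) * y := by group
          _ = t * (t * y) * y := by rw [hty]
          _ = (t * t) * (y * y) := by group
          _ = 1 := by rw [h, hyy', hζζ]
      · intro x
        have e : x * (t * y) * x⁻¹ * (t * y)⁻¹ =
            (x * t * x⁻¹ * t⁻¹) * (t * (x * y * x⁻¹ * y⁻¹) * t⁻¹) := by group
        rw [e]
        exact A.mul_mem (htx x) (hAn.conj_mem _ (hB1A (hyx x)) t)
  apply huA
  apply hCA u huW
  intro x
  have ha : x * u * x⁻¹ * u⁻¹ ∈ A := hux x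
  have hau : (x * u * x⁻¹ * u⁻¹) * u = u * (x * u * x⁻¹ * u⁻¹) := by
    have := Subgroup.mem_centralizer_iff.mp ha.2 u huW
    exact this.symm
  have hsq : (x * u * x⁻¹ * u⁻¹) * (x * u * x⁻¹ * u⁻¹) = 1 := by
    have h1 : (x * u * x⁻¹) * (x * u * x⁻¹) = 1 := by
      calc x * u * x⁻¹ * (x * u * x⁻¹) = x * (u * u) * x⁻¹ := by group
        _ = 1 := by rw [huu]; group
    have h2 : x * u * x⁻¹ = (x * u * x⁻¹ * u⁻¹) * u := by group
    rw [h2] at h1
    generalize x * u * x⁻¹ * u⁻¹ = a at hau h1 ⊢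
    calc a * a = a * a * (u * u) := by rw [huu, mul_one]
      _ = a * (a * u) * u := by group
      _ = a * (u * a) * u := by rw [hau]
      _ = (a * u) * (a * u) := by group
      _ = 1 := h1
  by_cases h1 : x * u * x⁻¹ * u⁻¹ = 1
  · exact Or.inl h1
  · exact Or.inr (hAinv _ ha ζ hζA hsq h1 hζζ hζ1)

/-- The central involution is unique, squares and commutators lie in `{1, ζ}`. -/
theorem structure_thm [Finite T] (hT : Cfsg.IsOfSymplecticType T) (h4 : ∀ q : T, q ^ 4 = 1) (ζ : T)
    (hζ : orderOf ζ = 2) (hζc : ζ ∈ center T) :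
    (∀ c ∈ center T, c * c = 1 → c = 1 ∨ c = ζ) ∧ (∀ x : T, x * x = 1 ∨ x * x = ζ) ∧
      (∀ x y : T, x * y * x⁻¹ * y⁻¹ = 1 ∨ x * y * x⁻¹ * y⁻¹ = ζ) := by
  refine ⟨?_, fun x => sqSub_le hT h4 ζ hζ hζc _ (sq_mem_sqSub x),
    fun x y => sqSub_le hT h4 ζ hζ hζc _ (comm_mem_sqSub x y)⟩
  intro c hc hcc
  by_cases hc1 : c = 1
  · exact Or.inl hc1
  · right
    haveI : IsCyclic ↥(center T) := hT.2 _ Subgroup.centerCharacteristic inferInstance
    have h3 : orderOf (⟨c, hc⟩ : ↥(center T)) = 2 := by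
      rw [← Subgroup.orderOf_coe]
      exact orderOf_eq_prime (by rw [pow_two]; exact hcc) hc1
    have h4' : orderOf (⟨ζ, hζc⟩ : ↥(center T)) = 2 := by
      rw [← Subgroup.orderOf_coe]; exact hζ
    have := Cfsg.Agent.Lib.Helper29.Basic.eq_of_orderOf_eq_two_of_isCyclic h3 h4'
    exact congrArg Subtype.val this

end Cfsg.Agent.Lib.Helper93.SympType
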