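import Mathlib

set_option autoImplicit false
set_option linter.unusedSimpArgs false

namespace Cfsg.Agent.Lib.Helper93.TransvN

open Matrix

variable {n : ℕ}

/-- the matrix with rows `(1, c, a)`, `(0, 1, 0)`, `(0, b, A)` -/
def mk (c : ZMod 2) (a b : Fin n → ZMod 2) (A : Matrix (Fin n) (Fin n) (ZMod 2)) :
    Matrix (Fin (n + 2)) (Fin (n + 2)) (ZMod 2) :=
  Matrix.of fun i j =>
    Fin.cases (motive := fun _ => ZMod 2)
      (Fin.cases (motive := fun _ => ZMod 2) 1
        (fun j' => Fin.cases (motive := fun _ => ZMod 2) c (fun j'' => a j'') j') j)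
      (fun i' => Fin.cases (motive := fun _ => ZMod 2)
        (Fin.cases (motive := fun _ => ZMod 2) 0
          (fun j' => Fin.cases (motive := fun _ => ZMod 2) 1 (fun _ => 0) j') j)
        (fun i'' => Fin.cases (motive := fun _ => ZMod 2) 0
          (fun j' => Fin.cases (motive := fun _ => ZMod 2) (b i'') (fun j'' => A i'' j'') j') j)
        i') i

variable (c c' : ZMod 2) (a a' b b' : Fin n → ZMod 2) (A A' : Matrix (Fin n) (Fin n) (ZMod 2))

theorem one_eq : (1 : Fin (n + 2)) = Fin.succ 0 := (Fin.succ_zero_eq_one).symm

theorem zero_ne_ss (k : Fin n) : (0 : Fin (n + 2)) ≠ k.succ.succ := (Fin.succ_ne_zero _).symm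
theorem ss_ne_zero (k : Fin n) : k.succ.succ ≠ (0 : Fin (n + 2)) := Fin.succ_ne_zero _
theorem one_ne_ss (k : Fin n) : (1 : Fin (n + 2)) ≠ k.succ.succ := by
  rw [one_eq]
  intro h
  exact Fin.succ_ne_zero _ (Fin.succ_injective _ h).symm
theorem ss_ne_one (k : Fin n) : k.succ.succ ≠ (1 : Fin (n + 2)) := (one_ne_ss k).symm
theorem one_ne_zero' : (1 : Fin (n + 2)) ≠ 0 := by
  rw [one_eq]; exact Fin.succ_ne_zero _
theorem zero_ne_one' : (0 : Fin (n + 2)) ≠ 1 := one_ne_zero'.symm

@[simp] theorem mk_00 : mk c a b A 0 0 = 1 := rfl
@[simp] theorem mk_01 : mk c a b A 0 1 = c := by rw [one_eq]; rfl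
@[simp] theorem mk_02 (k : Fin n) : mk c a b A 0 k.succ.succ = a k := rfl
@[simp] theorem mk_10 : mk c a b A 1 0 = 0 := by rw [one_eq]; rfl
@[simp] theorem mk_11 : mk c a b A 1 1 = 1 := by rw [one_eq]; rfl
@[simp] theorem mk_12 (k : Fin n) : mk c a b A 1 k.succ.succ = 0 := by rw [one_eq]; rfl
@[simp] theorem mk_20 (i : Fin n) : mk c a b A i.succ.succ 0 = 0 := rfl
@[simp] theorem mk_21 (i : Fin n) : mk c a b A i.succ.succ 1 = b i := by rw [one_eq]; rfl
@[simp] theorem mk_22 (i k : Fin n) : mk c a b A i.succ.succ k.succ.succ = A i k := rfl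

theorem mk_mul : mk c a b A * mk c' a' b' A' =
    mk (c + c' + a ⬝ᵥ b') (a' + a ᵥ* A') (b + A *ᵥ b') (A * A') := by
  ext i j
  rw [Matrix.mul_apply, Fin.sum_univ_succ, Fin.sum_univ_succ]
  induction i using Fin.cases with
  | zero =>
    induction j using Fin.cases with
    | zero => simp
    | succ j =>
      induction j using Fin.cases with
      | zero => simp [dotProduct]; ring
      | succ j => simp [Matrix.vecMul, dotProduct]
  | succ i =>
    induction i using Fin.cases with
    | zero =>
      induction j using Fin.cases with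
      | zero => simp
      | succ j =>
        induction j using Fin.cases with
        | zero => simp
        | succ j => simp
    | succ i =>
      induction j using Fin.cases with
      | zero => simp
      | succ j =>
        induction j using Fin.cases with
        | zero => simp [Matrix.mulVec, dotProduct]
        | succ j => simp [Matrix.mul_apply]

theorem mk_one : mk (0 : ZMod 2) (0 : Fin n → ZMod 2) 0 1 = 1 := by
  ext i j
  induction i using Fin.cases with
  | zero =>
    induction j using Fin.cases with
    | zero => simp
    | succ j =>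
      induction j using Fin.cases with
      | zero => simp [Matrix.one_apply, zero_ne_ss, ss_ne_zero, one_ne_ss, ss_ne_one, one_ne_zero', zero_ne_one']
      | succ j => simp [Matrix.one_apply, zero_ne_ss, ss_ne_zero, one_ne_ss, ss_ne_one, one_ne_zero', zero_ne_one']
  | succ i =>
    induction i using Fin.cases with
    | zero =>
      induction j using Fin.cases with
      | zero => simp [Matrix.one_apply, zero_ne_ss, ss_ne_zero, one_ne_ss, ss_ne_one, one_ne_zero', zero_ne_one']
      | succ j =>
        induction j using Fin.cases with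
        | zero => simp
        | succ j => simp [Matrix.one_apply, zero_ne_ss, ss_ne_zero, one_ne_ss, ss_ne_one, one_ne_zero', zero_ne_one']
    | succ i =>
      induction j using Fin.cases with
      | zero => simp [Matrix.one_apply, zero_ne_ss, ss_ne_zero, one_ne_ss, ss_ne_one, one_ne_zero', zero_ne_one']
      | succ j =>
        induction j using Fin.cases with
        | zero => simp [Matrix.one_apply, zero_ne_ss, ss_ne_zero, one_ne_ss, ss_ne_one, one_ne_zero', zero_ne_one']
        | succ j => simp [Matrix.one_apply, zero_ne_ss, ss_ne_zero, one_ne_ss, ss_ne_one, one_ne_zero', zero_ne_one']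

/-- projections -/
def pc (M : Matrix (Fin (n + 2)) (Fin (n + 2)) (ZMod 2)) : ZMod 2 := M 0 1
def pa (M : Matrix (Fin (n + 2)) (Fin (n + 2)) (ZMod 2)) : Fin n → ZMod 2 := fun k => M 0 k.succ.succ
def pb (M : Matrix (Fin (n + 2)) (Fin (n + 2)) (ZMod 2)) : Fin n → ZMod 2 :=
  fun i => M i.succ.succ 1
def blk (M : Matrix (Fin (n + 2)) (Fin (n + 2)) (ZMod 2)) : Matrix (Fin n) (Fin n) (ZMod 2) :=
  Matrix.of fun i j => M i.succ.succ j.succ.succ

@[simp] theorem pc_mk : pc (mk c a b A) = c := mk_01 c a b A
@[simp] theorem pa_mk : pa (mk c a b A) = a := rfl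
@[simp] theorem pb_mk : pb (mk c a b A) = b := funext fun i => mk_21 c a b A i
@[simp] theorem blk_mk : blk (mk c a b A) = A := rfl

theorem mk_inj {c c' : ZMod 2} {a a' b b' : Fin n → ZMod 2}
    {A A' : Matrix (Fin n) (Fin n) (ZMod 2)} (h : mk c a b A = mk c' a' b' A') :
    c = c' ∧ a = a' ∧ b = b' ∧ A = A' :=
  ⟨by simpa using congrArg pc h, by simpa using congrArg pa h, by simpa using congrArg pb h,
    by simpa using congrArg blk h⟩

theorem eq_mk (M : Matrix (Fin (n + 2)) (Fin (n + 2)) (ZMod 2)) (h0 : ∀ i, i ≠ 0 → M i 0 = 0)
    (h1 : ∀ j, j ≠ 1 → M 1 j = 0) (h00 : M 0 0 = 1) (h11 : M 1 1 = 1) :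
    M = mk (pc M) (pa M) (pb M) (blk M) := by
  ext i j
  induction i using Fin.cases with
  | zero =>
    induction j using Fin.cases with
    | zero => simp [h00]
    | succ j =>
      induction j using Fin.cases with
      | zero => simp [pc]
      | succ j => simp [pa]
  | succ i =>
    induction i using Fin.cases with
    | zero =>
      induction j using Fin.cases with
      | zero => simpa using h0 1 one_ne_zero'
      | succ j =>
        induction j using Fin.cases with
        | zero => simp [h11]
        | succ j =>
          simp only [Fin.succ_zero_eq_one, mk_12]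
          apply h1
          intro h
          rw [one_eq] at h
          have := Fin.succ_injective _ h
          exact Fin.succ_ne_zero _ this
    | succ i =>
      induction j using Fin.cases with
      | zero => simpa using h0 _ (Fin.succ_ne_zero _)
      | succ j =>
        induction j using Fin.cases with
        | zero => simp [pb]
        | succ j => simp [blk]

theorem transvection_eq_mk :
    (Matrix.transvection (0 : Fin (n + 2)) 1 (1 : ZMod 2)) = mk 1 0 0 1 := by
  ext i j
  induction i using Fin.cases with
  | zero =>
    induction j using Fin.cases with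
    | zero => simp [Matrix.transvection, Matrix.single_apply, Matrix.one_apply, zero_ne_ss, ss_ne_zero, one_ne_ss, ss_ne_one, one_ne_zero', zero_ne_one']
    | succ j =>
      induction j using Fin.cases with
      | zero => simp [Matrix.transvection, Matrix.single_apply, Matrix.one_apply, zero_ne_ss, ss_ne_zero, one_ne_ss, ss_ne_one, one_ne_zero', zero_ne_one']
      | succ j => simp [Matrix.transvection, Matrix.single_apply, Matrix.one_apply, zero_ne_ss, ss_ne_zero, one_ne_ss, ss_ne_one, one_ne_zero', zero_ne_one']
  | succ i =>
    induction i using Fin.cases with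
    | zero =>
      induction j using Fin.cases with
      | zero => simp [Matrix.transvection, Matrix.single_apply, Matrix.one_apply, zero_ne_ss, ss_ne_zero, one_ne_ss, ss_ne_one, one_ne_zero', zero_ne_one']
      | succ j =>
        induction j using Fin.cases with
        | zero => simp [Matrix.transvection, Matrix.single_apply, Matrix.one_apply, zero_ne_ss, ss_ne_zero, one_ne_ss, ss_ne_one, one_ne_zero', zero_ne_one']
        | succ j => simp [Matrix.transvection, Matrix.single_apply, Matrix.one_apply, zero_ne_ss, ss_ne_zero, one_ne_ss, ss_ne_one, one_ne_zero', zero_ne_one']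
    | succ i =>
      induction j using Fin.cases with
      | zero => simp [Matrix.transvection, Matrix.single_apply, Matrix.one_apply, zero_ne_ss, ss_ne_zero, one_ne_ss, ss_ne_one, one_ne_zero', zero_ne_one']
      | succ j =>
        induction j using Fin.cases with
        | zero => simp [Matrix.transvection, Matrix.single_apply, Matrix.one_apply, zero_ne_ss, ss_ne_zero, one_ne_ss, ss_ne_one, one_ne_zero', zero_ne_one']
        | succ j => simp [Matrix.transvection, Matrix.single_apply, Matrix.one_apply, zero_ne_ss, ss_ne_zero, one_ne_ss, ss_ne_one, one_ne_zero', zero_ne_one']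

end Cfsg.Agent.Lib.Helper93.TransvN
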