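import Mathlib
import Cfsg.Agent.Lib.Helper93.TransvN
import Cfsg.Agent.Lib.Helper30.XSExt
import Cfsg.Agent.Lib.Helper90.FStarES
import Cfsg.Agent.Lib.Helper50.Cores
import Cfsg.Agent.S5422

set_option autoImplicit false
set_option linter.unusedSimpArgs false

namespace Cfsg.Agent.Lib.Helper93.TransvN

open Matrix Cfsg.Agent.Lib.Helper30.XSExt

variable {n : ℕ}

theorem det_eq_one_of_mul {m : Type*} [Fintype m] [DecidableEq m] (M N : Matrix m m (ZMod 2))
    (h : M * N = 1) : M.det = 1 := by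
  have h2 : M.det * N.det = 1 := by rw [← Matrix.det_mul, h, Matrix.det_one]
  have h3 : ∀ x y : ZMod 2, x * y = 1 → x = 1 := by decide
  exact h3 _ _ h2

/-- a monoid hom from a group to matrices over `ZMod 2` lands in `SL` -/
def toSL {Γ : Type*} [Group Γ] {m : Type*} [Fintype m] [DecidableEq m]
    (f : Γ →* Matrix m m (ZMod 2)) : Γ →* Matrix.SpecialLinearGroup m (ZMod 2) where
  toFun x := ⟨f x, det_eq_one_of_mul _ (f x⁻¹) (by rw [← map_mul, mul_inv_cancel, map_one])⟩
  map_one' := Subtype.ext (map_one f)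
  map_mul' x y := Subtype.ext (map_mul f x y)

theorem toSL_coe {Γ : Type*} [Group Γ] {m : Type*} [Fintype m] [DecidableEq m]
    (f : Γ →* Matrix m m (ZMod 2)) (x : Γ) :
    ((toSL f x : Matrix.SpecialLinearGroup m (ZMod 2)) : Matrix m m (ZMod 2)) = f x := rfl

/-- the Heisenberg part, as matrices -/
def heisMat : Ext (Coc.hyp n) →* Matrix (Fin (n + 2)) (Fin (n + 2)) (ZMod 2) where
  toFun x := mk x.c (fun i => (x.v i).2) (fun i => (x.v i).1) 1
  map_one' := mk_one
  map_mul' x y := by
    rw [mk_mul]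
    have h1 : (x * y).c = x.c + y.c + (fun i => (x.v i).2) ⬝ᵥ (fun i => (y.v i).1) := rfl
    have h2 : (fun i => ((x * y).v i).2) = (fun i => (y.v i).2) + (fun i => (x.v i).2) ᵥ* 1 := by
      rw [Matrix.vecMul_one]
      funext i
      show (x.v i + y.v i).2 = (y.v i).2 + (x.v i).2
      rw [Prod.snd_add, add_comm]
    have h3 : (fun i => ((x * y).v i).1) = (fun i => (x.v i).1) + 1 *ᵥ (fun i => (y.v i).1) := by
      rw [Matrix.one_mulVec]
      rfl
    rw [h1, h2, h3, mul_one]

/-- the Heisenberg part -/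
def heis : Ext (Coc.hyp n) →* Matrix.SpecialLinearGroup (Fin (n + 2)) (ZMod 2) := toSL heisMat

theorem heis_coe (x : Ext (Coc.hyp n)) :
    ((heis x : Matrix.SpecialLinearGroup (Fin (n + 2)) (ZMod 2)) :
      Matrix (Fin (n + 2)) (Fin (n + 2)) (ZMod 2)) =
      mk x.c (fun i => (x.v i).2) (fun i => (x.v i).1) 1 := rfl

theorem heis_injective : Function.Injective (heis (n := n)) := by
  intro x y h
  have h2 := congrArg Subtype.val h
  rw [heis_coe, heis_coe] at h2
  obtain ⟨h3, h4, h5, -⟩ := mk_inj h2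
  apply Ext.ext h3
  funext i
  exact Prod.ext (congrFun h5 i) (congrFun h4 i)

/-- the block diagonal part, as matrices -/
def diagMat : Matrix (Fin n) (Fin n) (ZMod 2) →* Matrix (Fin (n + 2)) (Fin (n + 2)) (ZMod 2) where
  toFun A := mk 0 0 0 A
  map_one' := mk_one
  map_mul' A B := by
    rw [mk_mul]
    simp

/-- the block diagonal copy of `GL_n(2)` -/
def diagGL : GL (Fin n) (ZMod 2) →* Matrix.SpecialLinearGroup (Fin (n + 2)) (ZMod 2) :=
  toSL (diagMat.comp (Units.coeHom _))

theorem diagGL_coe (u : GL (Fin n) (ZMod 2)) :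
    ((diagGL u : Matrix.SpecialLinearGroup (Fin (n + 2)) (ZMod 2)) :
      Matrix (Fin (n + 2)) (Fin (n + 2)) (ZMod 2)) = mk 0 0 0 u.1 := rfl

theorem diagGL_injective : Function.Injective (diagGL (n := n)) := by
  intro x y h
  have h2 := congrArg Subtype.val h
  rw [diagGL_coe, diagGL_coe] at h2
  exact Units.ext (mk_inj h2).2.2.2


/-! ### `O_2(GL_n(2)) = 1` -/

theorem zmod2_eq_zero_of_ne_one : ∀ a : ZMod 2, a ≠ 1 → a = 0 := by decide

theorem zmod2_cases : ∀ a : ZMod 2, a = 0 ∨ a = 1 := by decide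

theorem eq_one_of_fix_single (g : GL (Fin n) (ZMod 2))
    (h : ∀ j : Fin n, g • (Pi.single j 1 : Fin n → ZMod 2) = Pi.single j 1) : g = 1 := by
  apply Units.ext
  ext i j
  have h1 := congrFun (h j) i
  have h2 : (g • (Pi.single j 1 : Fin n → ZMod 2)) i =
      (g : Matrix (Fin n) (Fin n) (ZMod 2)) i j := by
    show ((g : Matrix (Fin n) (Fin n) (ZMod 2)).mulVec (Pi.single j 1)) i = _
    rw [Matrix.mulVec_single_one]
    rfl
  rw [h2] at h1
  rw [h1, Units.val_one, Matrix.one_apply, Pi.single_apply]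

/-- the transvection as an element of `GL` -/
noncomputable def tGL (i j : Fin n) (hij : i ≠ j) : GL (Fin n) (ZMod 2) :=
  Matrix.SpecialLinearGroup.toGL
    ⟨Matrix.transvection i j 1, Matrix.det_transvection_of_ne i j hij 1⟩

theorem tGL_smul (i j : Fin n) (hij : i ≠ j) (v : Fin n → ZMod 2) :
    tGL i j hij • v = v + Pi.single i (v j) := by
  show (Matrix.transvection i j (1 : ZMod 2)).mulVec v = _
  rw [Matrix.transvection, Matrix.add_mulVec, Matrix.one_mulVec, Matrix.single_mulVec, one_mul]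
  rfl

/-- a normal `2`-subgroup of `GL_n(2)` is trivial -/
theorem normal_two_subgroup_eq_bot (N : Subgroup (GL (Fin n) (ZMod 2))) [hNn : N.Normal]
    (hN : IsPGroup 2 N) : N = ⊥ := by
  have : Fact (Nat.Prime 2) := ⟨Nat.prime_two⟩
  rcases Nat.eq_zero_or_pos n with h0 | hpos
  · subst h0
    rw [eq_bot_iff]
    intro x _
    rw [Subgroup.mem_bot]
    apply Units.ext
    ext i
    exact i.elim0
  · have hcard : 2 ∣ Nat.card (Fin n → ZMod 2) := by
      rw [Nat.card_eq_fintype_card, Fintype.card_fun, ZMod.card, Fintype.card_fin]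
      exact dvd_pow_self 2 (by omega)
    have h0 : (0 : Fin n → ZMod 2) ∈ MulAction.fixedPoints N (Fin n → ZMod 2) := by
      intro x
      show (x.1 : Matrix (Fin n) (Fin n) (ZMod 2)).mulVec 0 = 0
      exact Matrix.mulVec_zero _
    obtain ⟨v, hv, hv0⟩ :=
      hN.exists_fixed_point_of_prime_dvd_card_of_fixed_point (Fin n → ZMod 2) hcard h0
    have hfix : ∀ (w : Fin n → ZMod 2), (∀ x ∈ N, x • w = w) →
        ∀ g : GL (Fin n) (ZMod 2), ∀ x ∈ N, x • (g • w) = g • w := by
      intro w hw g x hx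
      have h1 : g⁻¹ * x * g ∈ N := by
        have := hNn.conj_mem x hx g⁻¹
        rwa [inv_inv] at this
      have h2 : x * g = g * (g⁻¹ * x * g) := by group
      rw [← mul_smul, h2, mul_smul, hw _ h1]
    have hv' : ∀ x ∈ N, x • v = v := fun x hx => hv ⟨x, hx⟩
    obtain ⟨i, hi⟩ : ∃ i, v i = 1 := by
      by_contra hall
      push Not at hall
      apply hv0
      funext k
      exact (zmod2_eq_zero_of_ne_one _ (hall k)).symm
    have hadd : ∀ (u w : Fin n → ZMod 2), (∀ x ∈ N, x • u = u) →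
        (∀ x ∈ N, x • (u + w) = u + w) → ∀ x ∈ N, x • w = w := by
      intro u w hu huw x hx
      have h1 := huw x hx
      rw [smul_add, hu x hx] at h1
      exact add_left_cancel h1
    have hj : ∀ j, j ≠ i → ∀ x ∈ N, x • (Pi.single j 1 : Fin n → ZMod 2) = Pi.single j 1 := by
      intro j hji
      apply hadd v _ hv'
      have := hfix v hv' (tGL j i hji)
      rw [tGL_smul, hi] at this
      exact this
    have hi' : ∀ x ∈ N, x • (Pi.single i 1 : Fin n → ZMod 2) = Pi.single i 1 := by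
      by_cases hex : ∃ j, j ≠ i
      · obtain ⟨j, hji⟩ := hex
        apply hadd (Pi.single j 1) _ (hj j hji)
        have := hfix _ (hj j hji) (tGL i j (Ne.symm hji))
        rw [tGL_smul, Pi.single_eq_same] at this
        exact this
      · push Not at hex
        have : v = Pi.single i 1 := by
          funext k
          rw [hex k, Pi.single_eq_same, hi]
        rw [← this]
        exact hv'
    rw [eq_bot_iff]
    intro x hx
    rw [Subgroup.mem_bot]
    apply eq_one_of_fix_single
    intro j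
    by_cases hji : j = i
    · subst hji; exact hi' x hx
    · exact hj j hji x hx

/-! ### The centraliser of the transvection -/

section cent

variable {z : Matrix.SpecialLinearGroup (Fin (n + 2)) (ZMod 2)}

/-- the entries forced by commuting with the transvection -/
theorem cent_entries
    (hz : (z : Matrix (Fin (n + 2)) (Fin (n + 2)) (ZMod 2)) = Matrix.transvection 0 1 1)
    {g : Matrix.SpecialLinearGroup (Fin (n + 2)) (ZMod 2)}
    (hg : g ∈ Subgroup.centralizer ({z} : Set (Matrix.SpecialLinearGroup (Fin (n + 2)) (ZMod 2)))) :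
    (∀ i : Fin (n + 2), i ≠ 0 → g.1 i 0 = 0) ∧ (∀ j : Fin (n + 2), j ≠ 1 → g.1 1 j = 0) ∧
      g.1 0 0 = 1 ∧ g.1 1 1 = 1 := by
  have h := Subgroup.mem_centralizer_singleton_iff.mp hg
  have h2 : g.1 * z.1 = z.1 * g.1 := congrArg Subtype.val h
  have hs' : z.1 = Matrix.transvection 0 1 1 := hz
  rw [hs', Matrix.transvection, mul_add, add_mul, mul_one, one_mul] at h2
  have h1 : g.1 * Matrix.single 0 1 1 = Matrix.single 0 1 1 * g.1 := add_left_cancel h2
  have hA : ∀ i : Fin (n + 2), i ≠ 0 → g.1 i 0 = 0 := by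
    intro i hi
    have := congrFun (congrFun h1 i) 1
    rw [Matrix.mul_single_apply_same, Matrix.single_mul_apply_of_ne _ _ _ _ _ hi, mul_one] at this
    exact this
  have hB : ∀ j : Fin (n + 2), j ≠ 1 → g.1 1 j = 0 := by
    intro j hj
    have := congrFun (congrFun h1 0) j
    rw [Matrix.mul_single_apply_of_ne _ _ _ _ _ hj, Matrix.single_mul_apply_same, one_mul] at this
    exact this.symm
  have hC : g.1 0 0 = g.1 1 1 := by
    have := congrFun (congrFun h1 0) 1
    rw [Matrix.mul_single_apply_same, Matrix.single_mul_apply_same, mul_one, one_mul] at this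
    exact this
  have hD : g.1 0 0 = 1 := by
    by_contra hne
    have h0 : g.1 0 0 = 0 := by
      have h3 : ∀ a : ZMod 2, a ≠ 1 → a = 0 := by decide
      exact h3 _ hne
    have hdet : g.1.det = 0 := Matrix.det_eq_zero_of_column_eq_zero 0 (fun i => by
      by_cases hi : i = 0
      · rw [hi]; exact h0
      · exact hA i hi)
    rw [g.2] at hdet
    exact one_ne_zero hdet
  exact ⟨hA, hB, hD, hC ▸ hD⟩

theorem cent_eq_mk
    (hz : (z : Matrix (Fin (n + 2)) (Fin (n + 2)) (ZMod 2)) = Matrix.transvection 0 1 1)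
    {g : Matrix.SpecialLinearGroup (Fin (n + 2)) (ZMod 2)}
    (hg : g ∈ Subgroup.centralizer ({z} : Set (Matrix.SpecialLinearGroup (Fin (n + 2)) (ZMod 2)))) :
    g.1 = mk (pc g.1) (pa g.1) (pb g.1) (blk g.1) := by
  obtain ⟨h1, h2, h3, h4⟩ := cent_entries hz hg
  exact eq_mk g.1 h1 h2 h3 h4

theorem mem_cent_of_eq_mk
    (hz : (z : Matrix (Fin (n + 2)) (Fin (n + 2)) (ZMod 2)) = Matrix.transvection 0 1 1)
    {g : Matrix.SpecialLinearGroup (Fin (n + 2)) (ZMod 2)} {c : ZMod 2} {a b : Fin n → ZMod 2}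
    {A : Matrix (Fin n) (Fin n) (ZMod 2)} (h : g.1 = mk c a b A) :
    g ∈ Subgroup.centralizer ({z} : Set (Matrix.SpecialLinearGroup (Fin (n + 2)) (ZMod 2))) := by
  rw [Subgroup.mem_centralizer_singleton_iff]
  apply Subtype.ext
  show g.1 * z.1 = z.1 * g.1
  rw [h, hz, transvection_eq_mk, mk_mul, mk_mul]
  simp [add_comm]

/-- the block, as a homomorphism on the centraliser -/
noncomputable def blkHom
    (hz : (z : Matrix (Fin (n + 2)) (Fin (n + 2)) (ZMod 2)) = Matrix.transvection 0 1 1) :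
    ↥(Subgroup.centralizer ({z} : Set (Matrix.SpecialLinearGroup (Fin (n + 2)) (ZMod 2)))) →*
      Matrix (Fin n) (Fin n) (ZMod 2) where
  toFun g := blk g.1.1
  map_one' := by
    show blk (1 : Matrix (Fin (n + 2)) (Fin (n + 2)) (ZMod 2)) = 1
    rw [← mk_one, blk_mk]
  map_mul' g g' := by
    show blk (g.1.1 * g'.1.1) = blk g.1.1 * blk g'.1.1
    conv_lhs => rw [cent_eq_mk hz g.2, cent_eq_mk hz g'.2, mk_mul, blk_mk]

/-- the block, as a homomorphism to `GL_n(2)` -/
noncomputable def bet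
    (hz : (z : Matrix (Fin (n + 2)) (Fin (n + 2)) (ZMod 2)) = Matrix.transvection 0 1 1) :
    ↥(Subgroup.centralizer ({z} : Set (Matrix.SpecialLinearGroup (Fin (n + 2)) (ZMod 2)))) →*
      GL (Fin n) (ZMod 2) := (blkHom hz).toHomUnits

theorem bet_coe
    (hz : (z : Matrix (Fin (n + 2)) (Fin (n + 2)) (ZMod 2)) = Matrix.transvection 0 1 1)
    (g : ↥(Subgroup.centralizer ({z} : Set (Matrix.SpecialLinearGroup (Fin (n + 2)) (ZMod 2))))) :
    ((bet hz g : GL (Fin n) (ZMod 2)) : Matrix (Fin n) (Fin n) (ZMod 2)) = blk g.1.1 := rfl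

theorem heis_mem_cent
    (hz : (z : Matrix (Fin (n + 2)) (Fin (n + 2)) (ZMod 2)) = Matrix.transvection 0 1 1)
    (x : Ext (Coc.hyp n)) :
    heis x ∈ Subgroup.centralizer ({z} : Set (Matrix.SpecialLinearGroup (Fin (n + 2)) (ZMod 2))) :=
  mem_cent_of_eq_mk hz (heis_coe x)

theorem diagGL_mem_cent
    (hz : (z : Matrix (Fin (n + 2)) (Fin (n + 2)) (ZMod 2)) = Matrix.transvection 0 1 1)
    (u : GL (Fin n) (ZMod 2)) :
    diagGL u ∈ Subgroup.centralizer ({z} : Set (Matrix.SpecialLinearGroup (Fin (n + 2)) (ZMod 2))) :=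
  mem_cent_of_eq_mk hz (diagGL_coe u)

theorem mem_range_heis_iff
    (hz : (z : Matrix (Fin (n + 2)) (Fin (n + 2)) (ZMod 2)) = Matrix.transvection 0 1 1)
    (g : Matrix.SpecialLinearGroup (Fin (n + 2)) (ZMod 2)) :
    g ∈ (heis (n := n)).range ↔
      g ∈ Subgroup.centralizer ({z} : Set (Matrix.SpecialLinearGroup (Fin (n + 2)) (ZMod 2))) ∧
        blk g.1 = 1 := by
  constructor
  · rintro ⟨x, rfl⟩
    exact ⟨heis_mem_cent hz x, by rw [heis_coe, blk_mk]⟩
  · rintro ⟨hg, hb⟩
    refine ⟨⟨pc g.1, fun i => (pb g.1 i, pa g.1 i)⟩, ?_⟩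
    apply Subtype.ext
    rw [heis_coe]
    conv_rhs => rw [cent_eq_mk hz hg, hb]

theorem ker_map
    (hz : (z : Matrix (Fin (n + 2)) (Fin (n + 2)) (ZMod 2)) = Matrix.transvection 0 1 1) :
    (bet hz).ker.map
      (Subgroup.centralizer ({z} : Set (Matrix.SpecialLinearGroup (Fin (n + 2)) (ZMod 2)))).subtype =
      (heis (n := n)).range := by
  ext g
  rw [mem_range_heis_iff hz]
  constructor
  · rintro ⟨⟨g', hg'⟩, hk, rfl⟩
    refine ⟨hg', ?_⟩
    have := congrArg Units.val (MonoidHom.mem_ker.mp hk)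
    rw [bet_coe] at this
    exact this
  · rintro ⟨hg, hb⟩
    refine ⟨⟨g, hg⟩, MonoidHom.mem_ker.mpr ?_, rfl⟩
    apply Units.ext
    rw [bet_coe]
    exact hb

theorem z_eq_heis
    (hz : (z : Matrix (Fin (n + 2)) (Fin (n + 2)) (ZMod 2)) = Matrix.transvection 0 1 1) :
    z = heis (⟨1, 0⟩ : Ext (Coc.hyp n)) := by
  apply Subtype.ext
  rw [heis_coe, hz, transvection_eq_mk]
  rfl

theorem bet_surjective
    (hz : (z : Matrix (Fin (n + 2)) (Fin (n + 2)) (ZMod 2)) = Matrix.transvection 0 1 1) :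
    Function.Surjective (bet hz) := by
  intro u
  refine ⟨⟨diagGL u, diagGL_mem_cent hz u⟩, ?_⟩
  apply Units.ext
  rw [bet_coe]
  show blk (diagGL u).1 = u.1
  rw [diagGL_coe, blk_mk]

theorem card_ext : Nat.card (Ext (Coc.hyp n)) = 2 ^ (2 * n + 1) := by
  rw [Ext.card, Nat.card_eq_fintype_card, Fintype.card_fun, Fintype.card_prod, ZMod.card,
    Fintype.card_fin, pow_succ, pow_mul]
  ring

theorem isPGroup_ext : IsPGroup 2 (Ext (Coc.hyp n)) :=
  IsPGroup.of_card (n := 2 * n + 1) card_ext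

theorem isPGroup_ker
    (hz : (z : Matrix (Fin (n + 2)) (Fin (n + 2)) (ZMod 2)) = Matrix.transvection 0 1 1) :
    IsPGroup 2 (bet hz).ker := by
  rintro ⟨⟨g, hg⟩, hk⟩
  have hmem : g ∈ (heis (n := n)).range := by
    rw [← ker_map hz]
    exact ⟨⟨g, hg⟩, hk, rfl⟩
  obtain ⟨x, rfl⟩ := hmem
  obtain ⟨k, hk'⟩ := isPGroup_ext x
  refine ⟨k, ?_⟩
  apply Subtype.ext
  apply Subtype.ext
  show (heis x) ^ 2 ^ k = 1
  rw [← map_pow, hk', map_one]

/-- `O_2` of the centraliser is the Heisenberg group -/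
theorem pCore_eq
    (hz : (z : Matrix (Fin (n + 2)) (Fin (n + 2)) (ZMod 2)) = Matrix.transvection 0 1 1) :
    (Cfsg.pCore 2 ↥(Subgroup.centralizer
      ({z} : Set (Matrix.SpecialLinearGroup (Fin (n + 2)) (ZMod 2))))).map
      (Subgroup.centralizer ({z} : Set (Matrix.SpecialLinearGroup (Fin (n + 2)) (ZMod 2)))).subtype =
      (heis (n := n)).range := by
  have : Fact (Nat.Prime 2) := ⟨Nat.prime_two⟩
  rw [← ker_map hz]
  congr 1
  apply le_antisymm
  · have hP := Cfsg.Agent.Lib.Helper50.Cores.pCore_isPGroup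
      (G := ↥(Subgroup.centralizer
        ({z} : Set (Matrix.SpecialLinearGroup (Fin (n + 2)) (ZMod 2))))) 2
    have hNn : ((Cfsg.pCore 2 ↥(Subgroup.centralizer
        ({z} : Set (Matrix.SpecialLinearGroup (Fin (n + 2)) (ZMod 2))))).map (bet hz)).Normal :=
      Subgroup.Normal.map inferInstance _ (bet_surjective hz)
    have hbot := normal_two_subgroup_eq_bot _ (hP.map (bet hz))
    exact (Subgroup.map_eq_bot_iff _).mp hbot
  · exact Cfsg.Agent.Lib.Helper50.Cores.le_pCore 2 _ (MonoidHom.normal_ker _) (isPGroup_ker hz)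

theorem extraspecial_range (hn : 1 ≤ n) : Cfsg.IsExtraspecial 2 ↥(heis (n := n)).range := by
  have : Nonempty (Fin n) := ⟨⟨0, hn⟩⟩
  exact Cfsg.Agent.Lib.Helper90.FStarES.isExtraspecial_of_mulEquiv
    (MonoidHom.ofInjective heis_injective) Ext.extraspecial

theorem card_range : Nat.card ↥(heis (n := n)).range = 2 ^ (2 * n + 1) := by
  rw [← Nat.card_congr (MonoidHom.ofInjective (heis_injective (n := n))).toEquiv, card_ext]

/-! ### the elementary abelian subgroup -/

/-- the elementary abelian subgroup, as matrices -/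
def elemMat : Multiplicative (ZMod 2 × (Fin n → ZMod 2)) →*
    Matrix (Fin (n + 2)) (Fin (n + 2)) (ZMod 2) where
  toFun u := mk u.toAdd.1 u.toAdd.2 0 1
  map_one' := mk_one
  map_mul' u w := by
    rw [mk_mul]
    simp [add_comm]

/-- the elementary abelian subgroup -/
def elemHom : Multiplicative (ZMod 2 × (Fin n → ZMod 2)) →*
    Matrix.SpecialLinearGroup (Fin (n + 2)) (ZMod 2) := toSL elemMat

theorem elemHom_coe (u : Multiplicative (ZMod 2 × (Fin n → ZMod 2))) :
    ((elemHom u : Matrix.SpecialLinearGroup (Fin (n + 2)) (ZMod 2)) :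
      Matrix (Fin (n + 2)) (Fin (n + 2)) (ZMod 2)) = mk u.toAdd.1 u.toAdd.2 0 1 := rfl

theorem elemHom_injective : Function.Injective (elemHom (n := n)) := by
  intro u w h
  have h2 := congrArg Subtype.val h
  rw [elemHom_coe, elemHom_coe] at h2
  obtain ⟨h3, h4, -, -⟩ := mk_inj h2
  exact Multiplicative.toAdd.injective (Prod.ext h3 h4)

theorem elem_le : (elemHom (n := n)).range ≤ (heis (n := n)).range := by
  rintro _ ⟨u, rfl⟩
  exact ⟨⟨u.toAdd.1, fun i => (0, u.toAdd.2 i)⟩, Subtype.ext rfl⟩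

theorem elem_elementary : Cfsg.IsElementaryAbelian 2 (elemHom (n := n)).range := by
  refine ⟨⟨⟨?_⟩⟩, ?_⟩
  · rintro ⟨_, ⟨u, rfl⟩⟩ ⟨_, ⟨w, rfl⟩⟩
    apply Subtype.ext
    show elemHom u * elemHom w = elemHom w * elemHom u
    rw [← map_mul, ← map_mul, mul_comm]
  · rintro _ ⟨u, rfl⟩
    rw [← map_pow]
    have h2 : u ^ 2 = 1 := by
      apply Multiplicative.toAdd.injective
      rw [toAdd_pow, toAdd_one]
      apply Prod.ext
      · show 2 • (Multiplicative.toAdd u).1 = 0
        rw [two_nsmul]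
        exact CharTwo.add_self_eq_zero _
      · show 2 • (Multiplicative.toAdd u).2 = 0
        rw [two_nsmul]
        funext i
        exact CharTwo.add_self_eq_zero _
    rw [h2, map_one]

theorem card_elem : Nat.card ↥(elemHom (n := n)).range = 2 ^ (n + 1) := by
  rw [← Nat.card_congr (MonoidHom.ofInjective (elemHom_injective (n := n))).toEquiv,
    Nat.card_congr Multiplicative.toAdd, Nat.card_eq_fintype_card,
    Fintype.card_prod, Fintype.card_fun, ZMod.card, Fintype.card_fin, pow_succ]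
  ring

/-! ### centralisers -/

theorem cent_range
    (hz : (z : Matrix (Fin (n + 2)) (Fin (n + 2)) (ZMod 2)) = Matrix.transvection 0 1 1)
    (g : Matrix.SpecialLinearGroup (Fin (n + 2)) (ZMod 2))
    (h : ∀ q ∈ (heis (n := n)).range, g * q = q * g) : g = 1 ∨ g = z := by
  have hg : g ∈ Subgroup.centralizer
      ({z} : Set (Matrix.SpecialLinearGroup (Fin (n + 2)) (ZMod 2))) := by
    rw [Subgroup.mem_centralizer_singleton_iff]
    exact h z (by rw [z_eq_heis hz]; exact ⟨_, rfl⟩)
  have hm := cent_eq_mk hz hg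
  have key : ∀ (c' : ZMod 2) (xa xb : Fin n → ZMod 2),
      pc g.1 + c' + pa g.1 ⬝ᵥ xb = c' + pc g.1 + xa ⬝ᵥ pb g.1 ∧
        xa + pa g.1 ᵥ* 1 = pa g.1 + xa ᵥ* blk g.1 := by
    intro c' xa xb
    have h1 := congrArg Subtype.val
      (h (heis ⟨c', fun k => (xb k, xa k)⟩) ⟨_, rfl⟩)
    have h2 : g.1 * mk c' xa xb 1 = mk c' xa xb 1 * g.1 := h1
    rw [hm, mk_mul, mk_mul] at h2
    obtain ⟨h3, h4, -, -⟩ := mk_inj h2
    exact ⟨h3, h4⟩
  have hA : blk g.1 = 1 := by
    ext i j
    have h1 := (key 0 (Pi.single i 1) 0).2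
    rw [Matrix.vecMul_one, Matrix.single_one_vecMul, add_comm] at h1
    have h2 : (Pi.single i 1 : Fin n → ZMod 2) j = blk g.1 i j := congrFun (add_left_cancel h1) j
    rw [← h2, Matrix.one_apply, Pi.single_apply]
    by_cases hij : i = j
    · rw [if_pos hij, if_pos hij.symm]
    · rw [if_neg hij, if_neg (Ne.symm hij)]
  have ha : pa g.1 = 0 := by
    funext i
    have h1 := (key 0 0 (Pi.single i 1)).1
    rw [dotProduct_single_one, zero_dotProduct, add_zero, zero_add, add_zero] at h1
    have h2 : pc g.1 + pa g.1 i = pc g.1 + 0 := by rw [h1, add_zero]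
    exact add_left_cancel h2
  have hb : pb g.1 = 0 := by
    funext i
    have h1 := (key 0 (Pi.single i 1) 0).1
    rw [single_one_dotProduct, dotProduct_zero, add_zero, zero_add, add_zero] at h1
    have h2 : pc g.1 + pb g.1 i = pc g.1 + 0 := by rw [← h1, add_zero]
    exact add_left_cancel h2
  rw [hA, ha, hb] at hm
  rcases zmod2_cases (pc g.1) with h0 | h1
  · left
    apply Subtype.ext
    rw [hm, h0, mk_one]
    rfl
  · right
    apply Subtype.ext
    rw [hm, h1, hz, transvection_eq_mk]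

theorem z_mem_range
    (hz : (z : Matrix (Fin (n + 2)) (Fin (n + 2)) (ZMod 2)) = Matrix.transvection 0 1 1) :
    z ∈ (heis (n := n)).range := by
  rw [z_eq_heis hz]; exact ⟨_, rfl⟩

theorem range_le_cent
    (hz : (z : Matrix (Fin (n + 2)) (Fin (n + 2)) (ZMod 2)) = Matrix.transvection 0 1 1) :
    (heis (n := n)).range ≤ Subgroup.centralizer
      ({z} : Set (Matrix.SpecialLinearGroup (Fin (n + 2)) (ZMod 2))) :=
  fun q hq => ((mem_range_heis_iff hz q).mp hq).1

theorem mem_center_map_iff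
    (hz : (z : Matrix (Fin (n + 2)) (Fin (n + 2)) (ZMod 2)) = Matrix.transvection 0 1 1)
    (x : Matrix.SpecialLinearGroup (Fin (n + 2)) (ZMod 2)) :
    x ∈ (Subgroup.center ↥(heis (n := n)).range).map (heis (n := n)).range.subtype ↔
      x = 1 ∨ x = z := by
  constructor
  · rintro ⟨⟨q, hq⟩, hc, rfl⟩
    apply cent_range hz
    intro q' hq'
    have := Subgroup.mem_center_iff.mp hc ⟨q', hq'⟩
    exact (congrArg Subtype.val this).symm
  · rintro (rfl | rfl)
    · exact Subgroup.one_mem _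
    · refine ⟨⟨x, z_mem_range hz⟩, Subgroup.mem_center_iff.mpr ?_, rfl⟩
      rintro ⟨q, hq⟩
      apply Subtype.ext
      exact Subgroup.mem_centralizer_singleton_iff.mp (range_le_cent hz hq)

theorem centralizer_range
    (hz : (z : Matrix (Fin (n + 2)) (Fin (n + 2)) (ZMod 2)) = Matrix.transvection 0 1 1) :
    Subgroup.centralizer (((heis (n := n)).range :
        Subgroup (Matrix.SpecialLinearGroup (Fin (n + 2)) (ZMod 2))) :
        Set (Matrix.SpecialLinearGroup (Fin (n + 2)) (ZMod 2))) =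
      (Subgroup.center ↥(heis (n := n)).range).map (heis (n := n)).range.subtype := by
  ext g
  rw [mem_center_map_iff hz, Subgroup.mem_centralizer_iff]
  constructor
  · intro h
    apply cent_range hz
    intro q hq
    exact (h q hq).symm
  · rintro (rfl | rfl) q hq
    · simp
    · exact Subgroup.mem_centralizer_singleton_iff.mp (range_le_cent hz hq)

theorem conj_mem_range
    (hz : (z : Matrix (Fin (n + 2)) (Fin (n + 2)) (ZMod 2)) = Matrix.transvection 0 1 1)
    {g : Matrix.SpecialLinearGroup (Fin (n + 2)) (ZMod 2)}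
    (hg : g ∈ Subgroup.centralizer ({z} : Set (Matrix.SpecialLinearGroup (Fin (n + 2)) (ZMod 2))))
    {q : Matrix.SpecialLinearGroup (Fin (n + 2)) (ZMod 2)} (hq : q ∈ (heis (n := n)).range) :
    g * q * g⁻¹ ∈ (heis (n := n)).range := by
  have hqC := range_le_cent hz hq
  have hk : bet hz ⟨q, hqC⟩ = 1 := by
    apply Units.ext
    rw [bet_coe]
    exact ((mem_range_heis_iff hz q).mp hq).2
  have hC : g * q * g⁻¹ ∈ Subgroup.centralizer
      ({z} : Set (Matrix.SpecialLinearGroup (Fin (n + 2)) (ZMod 2))) :=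
    Subgroup.mul_mem _ (Subgroup.mul_mem _ hg hqC) (Subgroup.inv_mem _ hg)
  rw [mem_range_heis_iff hz]
  refine ⟨hC, ?_⟩
  have h1 : bet hz (⟨g, hg⟩ * ⟨q, hqC⟩ * ⟨g, hg⟩⁻¹) = 1 := by
    rw [map_mul, map_mul, hk, mul_one, map_inv, mul_inv_cancel]
  have h2 := congrArg Units.val h1
  rw [bet_coe] at h2
  exact h2

theorem cent_le_normalizer_range
    (hz : (z : Matrix (Fin (n + 2)) (Fin (n + 2)) (ZMod 2)) = Matrix.transvection 0 1 1) :
    Subgroup.centralizer ({z} : Set (Matrix.SpecialLinearGroup (Fin (n + 2)) (ZMod 2))) ≤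
      Subgroup.normalizer (((heis (n := n)).range :
        Subgroup (Matrix.SpecialLinearGroup (Fin (n + 2)) (ZMod 2))) :
        Set (Matrix.SpecialLinearGroup (Fin (n + 2)) (ZMod 2))) := by
  intro g hg
  rw [Subgroup.mem_normalizer_iff]
  intro q
  refine ⟨fun hq => conj_mem_range hz hg hq, fun hq => ?_⟩
  have := conj_mem_range hz (Subgroup.inv_mem _ hg) hq
  rw [inv_inv] at this
  have e : g⁻¹ * (g * q * g⁻¹) * g = q := by group
  rwa [e] at this

theorem center_cent_le_normalizer
    (hz : (z : Matrix (Fin (n + 2)) (Fin (n + 2)) (ZMod 2)) = Matrix.transvection 0 1 1) :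
    Subgroup.centralizer
      (((Subgroup.center ↥(heis (n := n)).range).map (heis (n := n)).range.subtype :
        Subgroup (Matrix.SpecialLinearGroup (Fin (n + 2)) (ZMod 2))) :
        Set (Matrix.SpecialLinearGroup (Fin (n + 2)) (ZMod 2))) ≤
      Subgroup.normalizer (((heis (n := n)).range :
        Subgroup (Matrix.SpecialLinearGroup (Fin (n + 2)) (ZMod 2))) :
        Set (Matrix.SpecialLinearGroup (Fin (n + 2)) (ZMod 2))) := by
  intro g hg
  apply cent_le_normalizer_range hz
  rw [Subgroup.mem_centralizer_singleton_iff]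
  have hzmem : z ∈ (Subgroup.center ↥(heis (n := n)).range).map (heis (n := n)).range.subtype :=
    (mem_center_map_iff hz z).mpr (Or.inr rfl)
  exact (Subgroup.mem_centralizer_iff.mp hg z hzmem).symm

/-! ### a conjugate of `z` inside the Heisenberg group -/

theorem transvection_eq_mk' (i0 : Fin n) :
    Matrix.transvection (0 : Fin (n + 2)) i0.succ.succ (1 : ZMod 2) =
      mk 0 (Pi.single i0 1) 0 1 := by
  ext i j
  induction i using Fin.cases with
  | zero =>
    induction j using Fin.cases with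
    | zero => simp [Matrix.transvection, Matrix.single_apply, Matrix.one_apply, zero_ne_ss,
        ss_ne_zero, one_ne_ss, ss_ne_one, one_ne_zero', zero_ne_one']
    | succ j =>
      induction j using Fin.cases with
      | zero => simp [Matrix.transvection, Matrix.single_apply, Matrix.one_apply, zero_ne_ss,
          ss_ne_zero, one_ne_ss, ss_ne_one, one_ne_zero', zero_ne_one']
      | succ j =>
        simp [Matrix.transvection, Matrix.single_apply, Matrix.one_apply, zero_ne_ss,
          ss_ne_zero, one_ne_ss, ss_ne_one, one_ne_zero', zero_ne_one', Pi.single_apply,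
          eq_comm]
  | succ i =>
    induction i using Fin.cases with
    | zero =>
      induction j using Fin.cases with
      | zero => simp [Matrix.transvection, Matrix.single_apply, Matrix.one_apply, zero_ne_ss,
          ss_ne_zero, one_ne_ss, ss_ne_one, one_ne_zero', zero_ne_one']
      | succ j =>
        induction j using Fin.cases with
        | zero => simp [Matrix.transvection, Matrix.single_apply, Matrix.one_apply, zero_ne_ss,
            ss_ne_zero, one_ne_ss, ss_ne_one, one_ne_zero', zero_ne_one']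
        | succ j => simp [Matrix.transvection, Matrix.single_apply, Matrix.one_apply, zero_ne_ss,
            ss_ne_zero, one_ne_ss, ss_ne_one, one_ne_zero', zero_ne_one']
    | succ i =>
      induction j using Fin.cases with
      | zero => simp [Matrix.transvection, Matrix.single_apply, Matrix.one_apply, zero_ne_ss,
          ss_ne_zero, one_ne_ss, ss_ne_one, one_ne_zero', zero_ne_one']
      | succ j =>
        induction j using Fin.cases with
        | zero => simp [Matrix.transvection, Matrix.single_apply, Matrix.one_apply, zero_ne_ss,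
            ss_ne_zero, one_ne_ss, ss_ne_one, one_ne_zero', zero_ne_one']
        | succ j => simp [Matrix.transvection, Matrix.single_apply, Matrix.one_apply, zero_ne_ss,
            ss_ne_zero, one_ne_ss, ss_ne_one, one_ne_zero', zero_ne_one']

theorem swap_conj {m : Type*} [Fintype m] [DecidableEq m] (p q r : m) (hpq : p ≠ q) (hpr : p ≠ r)
    (hqr : q ≠ r) :
    (Matrix.transvection r q (1 : ZMod 2) * Matrix.transvection q r 1) * Matrix.transvection p q 1 =
      Matrix.transvection p r 1 * (Matrix.transvection r q 1 * Matrix.transvection q r 1) := by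
  simp only [Matrix.transvection, mul_add, add_mul, mul_one, one_mul]
  rw [Matrix.single_mul_single_same, Matrix.single_mul_single_of_ne _ _ _ _ hpr.symm,
    Matrix.single_mul_single_of_ne _ _ _ _ hpq.symm,
    Matrix.single_mul_single_same, Matrix.single_mul_single_of_ne _ _ _ _ hqr.symm,
    Matrix.single_mul_single_of_ne _ _ _ _ hpr.symm, Matrix.single_mul_single_same]
  simp only [mul_one, add_zero]
  have e : (0 : Matrix m m (ZMod 2)) = Matrix.single p r (1 : ZMod 2) + Matrix.single p r 1 := by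
    rw [← Matrix.single_add]
    have h2 : (1 : ZMod 2) + 1 = 0 := by decide
    rw [h2, Matrix.single_zero]
  linear_combination (norm := abel) e

/-- the conjugating element -/
noncomputable def swp (i0 : Fin n) : Matrix.SpecialLinearGroup (Fin (n + 2)) (ZMod 2) :=
  ⟨Matrix.transvection i0.succ.succ 1 1 * Matrix.transvection 1 i0.succ.succ 1, by
    rw [Matrix.det_mul, Matrix.det_transvection_of_ne _ _ (ss_ne_one i0),
      Matrix.det_transvection_of_ne _ _ (one_ne_ss i0), mul_one]⟩

theorem swp_conj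
    (hz : (z : Matrix (Fin (n + 2)) (Fin (n + 2)) (ZMod 2)) = Matrix.transvection 0 1 1)
    (i0 : Fin n) :
    swp i0 * z * (swp i0)⁻¹ = heis (⟨0, fun k => (0, (Pi.single i0 1 : Fin n → ZMod 2) k)⟩ : Ext (Coc.hyp n)) := by
  rw [mul_inv_eq_iff_eq_mul]
  apply Subtype.ext
  show (swp i0).1 * z.1 = mk 0 (Pi.single i0 1) 0 1 * (swp i0).1
  rw [hz, ← transvection_eq_mk']
  exact swap_conj 0 1 i0.succ.succ zero_ne_one' (zero_ne_ss i0) (one_ne_ss i0)

/-- the Heisenberg group is a large extraspecial subgroup -/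
theorem large
    (hz : (z : Matrix (Fin (n + 2)) (Fin (n + 2)) (ZMod 2)) = Matrix.transvection 0 1 1)
    (hn : 2 ≤ n) : Cfsg.IsLargeExtraspecial (heis (n := n)).range := by
  let i0 : Fin n := ⟨0, by omega⟩
  have hconj := swp_conj hz i0
  have hz'1 : heis (⟨0, fun k => (0, (Pi.single i0 1 : Fin n → ZMod 2) k)⟩ : Ext (Coc.hyp n)) ≠ 1 := by
    intro h
    have := heis_injective (h.trans (map_one heis).symm)
    have h2 := congrArg (fun x : Ext (Coc.hyp n) => (x.v i0).2) this
    simp [Ext.one_v] at h2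
  have hz'z : heis (⟨0, fun k => (0, (Pi.single i0 1 : Fin n → ZMod 2) k)⟩ : Ext (Coc.hyp n)) ≠ z := by
    intro h
    rw [z_eq_heis hz] at h
    have := heis_injective h
    have h2 := congrArg (fun x : Ext (Coc.hyp n) => (x.v i0).2) this
    simp at h2
  have hzmem : z ∈ (Subgroup.center ↥(heis (n := n)).range).map (heis (n := n)).range.subtype :=
    (mem_center_map_iff hz z).mpr (Or.inr rfl)
  have hg : swp i0 ∉ Subgroup.normalizer
      (((Subgroup.center ↥(heis (n := n)).range).map (heis (n := n)).range.subtype :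
        Subgroup (Matrix.SpecialLinearGroup (Fin (n + 2)) (ZMod 2))) :
        Set (Matrix.SpecialLinearGroup (Fin (n + 2)) (ZMod 2))) := by
    intro hmem
    have := (Subgroup.mem_normalizer_iff.mp hmem z).mp hzmem
    rw [hconj, mem_center_map_iff hz] at this
    rcases this with h | h
    · exact hz'1 h
    · exact hz'z h
  have hZg : ((Subgroup.center ↥(heis (n := n)).range).map (heis (n := n)).range.subtype).map
      (MulAut.conj (swp i0)).toMonoidHom ≤ (heis (n := n)).range := by
    rintro _ ⟨y, hy, rfl⟩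
    rcases (mem_center_map_iff hz y).mp hy with rfl | rfl
    · rw [map_one]; exact Subgroup.one_mem _
    · show swp i0 * y * (swp i0)⁻¹ ∈ _
      rw [hconj]; exact ⟨_, rfl⟩
  exact (Cfsg.Agent.S5422.result _ (extraspecial_range (by omega)) (centralizer_range hz)
    (center_cent_le_normalizer hz) n hn card_range (swp i0) hg hZg).2.2

/-! ### the complement -/

/-- the block diagonal copy of `SL_n(2)` -/
noncomputable def diagSL : Matrix.SpecialLinearGroup (Fin n) (ZMod 2) →*
    Matrix.SpecialLinearGroup (Fin (n + 2)) (ZMod 2) :=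
  diagGL.comp Matrix.SpecialLinearGroup.toGL

theorem diagSL_coe (A : Matrix.SpecialLinearGroup (Fin n) (ZMod 2)) :
    ((diagSL A : Matrix.SpecialLinearGroup (Fin (n + 2)) (ZMod 2)) :
      Matrix (Fin (n + 2)) (Fin (n + 2)) (ZMod 2)) = mk 0 0 0 A.1 := rfl

theorem diagSL_injective : Function.Injective (diagSL (n := n)) := by
  intro x y h
  have h2 := congrArg Subtype.val h
  rw [diagSL_coe, diagSL_coe] at h2
  exact Subtype.ext (mk_inj h2).2.2.2

theorem diag_le_cent
    (hz : (z : Matrix (Fin (n + 2)) (Fin (n + 2)) (ZMod 2)) = Matrix.transvection 0 1 1) :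
    (diagSL (n := n)).range ≤ Subgroup.centralizer
      ({z} : Set (Matrix.SpecialLinearGroup (Fin (n + 2)) (ZMod 2))) := by
  rintro _ ⟨A, rfl⟩
  exact mem_cent_of_eq_mk hz (diagSL_coe A)

theorem range_inf_diag : (heis (n := n)).range ⊓ (diagSL (n := n)).range = ⊥ := by
  rw [eq_bot_iff]
  rintro g ⟨⟨x, rfl⟩, ⟨A, hA⟩⟩
  rw [Subgroup.mem_bot]
  have h := congrArg Subtype.val hA
  rw [diagSL_coe, heis_coe] at h
  obtain ⟨h1, h2, h3, h4⟩ := mk_inj h
  apply Subtype.ext
  rw [heis_coe, ← h1, ← h2, ← h3, mk_one]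
  rfl

theorem range_sup_diag
    (hz : (z : Matrix (Fin (n + 2)) (Fin (n + 2)) (ZMod 2)) = Matrix.transvection 0 1 1) :
    (heis (n := n)).range ⊔ (diagSL (n := n)).range = Subgroup.centralizer
      ({z} : Set (Matrix.SpecialLinearGroup (Fin (n + 2)) (ZMod 2))) := by
  apply le_antisymm (sup_le (range_le_cent hz) (diag_le_cent hz))
  intro g hg
  have hdet : (blk g.1).det = 1 := by
    refine det_eq_one_of_mul _ ((bet hz ⟨g, hg⟩)⁻¹ : GL (Fin n) (ZMod 2)).1 ?_
    rw [← bet_coe hz ⟨g, hg⟩]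
    exact Units.mul_inv _
  have hkC := diag_le_cent hz (⟨⟨blk g.1, hdet⟩, rfl⟩ : diagSL ⟨blk g.1, hdet⟩ ∈ (diagSL (n := n)).range)
  have hq : g * (diagSL ⟨blk g.1, hdet⟩)⁻¹ ∈ (heis (n := n)).range := by
    rw [mem_range_heis_iff hz]
    refine ⟨Subgroup.mul_mem _ hg (Subgroup.inv_mem _ hkC), ?_⟩
    have h1 : bet hz (⟨g, hg⟩ * ⟨diagSL ⟨blk g.1, hdet⟩, hkC⟩⁻¹) = 1 := by
      rw [map_mul, map_inv, mul_inv_eq_one]
      apply Units.ext
      rw [bet_coe, bet_coe]
      exact (blk_mk 0 0 0 _).symm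
    have h2 := congrArg Units.val h1
    rw [bet_coe] at h2
    exact h2
  have e : g = g * (diagSL ⟨blk g.1, hdet⟩)⁻¹ * diagSL ⟨blk g.1, hdet⟩ := by group
  rw [e]
  exact Subgroup.mul_mem_sup hq ⟨_, rfl⟩

end cent

end Cfsg.Agent.Lib.Helper93.TransvN
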