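import Mathlib
import Cfsg.Agent.Lib.Helper93.TransvN2

set_option autoImplicit false
set_option linter.unusedSimpArgs false

namespace Cfsg.Agent.Lib.Helper93.TransvN

open Matrix

variable {n : ℕ}

/-- the affine matrix with linear part `L` (on the coordinates `0, 2, 3, …`) and translation
part `v` (column `1`); row `1` is `e₁` -/
def aff (L : Matrix (Fin (n + 1)) (Fin (n + 1)) (ZMod 2)) (v : Fin (n + 1) → ZMod 2) :
    Matrix (Fin (n + 2)) (Fin (n + 2)) (ZMod 2) :=
  Matrix.of fun i j =>
    Fin.cases (motive := fun _ => ZMod 2)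
      (Fin.cases (motive := fun _ => ZMod 2) (L 0 0)
        (fun j' => Fin.cases (motive := fun _ => ZMod 2) (v 0) (fun j'' => L 0 j''.succ) j') j)
      (fun i' => Fin.cases (motive := fun _ => ZMod 2)
        (Fin.cases (motive := fun _ => ZMod 2) 0
          (fun j' => Fin.cases (motive := fun _ => ZMod 2) 1 (fun _ => 0) j') j)
        (fun i'' => Fin.cases (motive := fun _ => ZMod 2) (L i''.succ 0)
          (fun j' => Fin.cases (motive := fun _ => ZMod 2) (v i''.succ)
            (fun j'' => L i''.succ j''.succ) j') j)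
        i') i

variable (L L' : Matrix (Fin (n + 1)) (Fin (n + 1)) (ZMod 2)) (v v' : Fin (n + 1) → ZMod 2)

@[simp] theorem aff_00 : aff L v 0 0 = L 0 0 := rfl
@[simp] theorem aff_01 : aff L v 0 1 = v 0 := by rw [one_eq]; rfl
@[simp] theorem aff_02 (k : Fin n) : aff L v 0 k.succ.succ = L 0 k.succ := rfl
@[simp] theorem aff_10 : aff L v 1 0 = 0 := by rw [one_eq]; rfl
@[simp] theorem aff_11 : aff L v 1 1 = 1 := by rw [one_eq]; rfl
@[simp] theorem aff_12 (k : Fin n) : aff L v 1 k.succ.succ = 0 := by rw [one_eq]; rfl
@[simp] theorem aff_20 (i : Fin n) : aff L v i.succ.succ 0 = L i.succ 0 := rfl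
@[simp] theorem aff_21 (i : Fin n) : aff L v i.succ.succ 1 = v i.succ := by rw [one_eq]; rfl
@[simp] theorem aff_22 (i k : Fin n) : aff L v i.succ.succ k.succ.succ = L i.succ k.succ := rfl

theorem aff_mul : aff L v * aff L' v' = aff (L * L') (v + L *ᵥ v') := by
  ext i j
  rw [Matrix.mul_apply, Fin.sum_univ_succ, Fin.sum_univ_succ]
  induction i using Fin.cases with
  | zero =>
    induction j using Fin.cases with
    | zero => simp [Matrix.mul_apply, Fin.sum_univ_succ]
    | succ j =>
      induction j using Fin.cases with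
      | zero => simp [Matrix.mulVec, dotProduct, Fin.sum_univ_succ]; ring
      | succ j => simp [Matrix.mul_apply, Fin.sum_univ_succ]
  | succ i =>
    induction i using Fin.cases with
    | zero =>
      induction j using Fin.cases with
      | zero => simp
      | succ j =>
        induction j using Fin.cases with
        | zero => simp
        | succ j => simp
    | succ i =>
      induction j using Fin.cases with
      | zero => simp [Matrix.mul_apply, Fin.sum_univ_succ]
      | succ j =>
        induction j using Fin.cases with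
        | zero => simp [Matrix.mulVec, dotProduct, Fin.sum_univ_succ]; ring
        | succ j => simp [Matrix.mul_apply, Fin.sum_univ_succ]

theorem aff_one : aff (1 : Matrix (Fin (n + 1)) (Fin (n + 1)) (ZMod 2)) 0 = 1 := by
  ext i j
  induction i using Fin.cases with
  | zero =>
    induction j using Fin.cases with
    | zero => simp
    | succ j =>
      induction j using Fin.cases with
      | zero => simp [Matrix.one_apply, zero_ne_ss, ss_ne_zero, one_ne_ss, ss_ne_one, one_ne_zero', zero_ne_one']
      | succ j => simp [Matrix.one_apply, zero_ne_ss, ss_ne_zero, one_ne_ss, ss_ne_one, one_ne_zero', zero_ne_one', (Fin.succ_ne_zero _).symm]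
  | succ i =>
    induction i using Fin.cases with
    | zero =>
      induction j using Fin.cases with
      | zero => simp [Matrix.one_apply, zero_ne_ss, ss_ne_zero, one_ne_ss, ss_ne_one, one_ne_zero', zero_ne_one']
      | succ j =>
        induction j using Fin.cases with
        | zero => simp
        | succ j => simp [Matrix.one_apply, zero_ne_ss, ss_ne_zero, one_ne_ss, ss_ne_one, one_ne_zero', zero_ne_one']
    | succ i =>
      induction j using Fin.cases with
      | zero => simp [Matrix.one_apply, zero_ne_ss, ss_ne_zero, one_ne_ss, ss_ne_one, one_ne_zero', zero_ne_one']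
      | succ j =>
        induction j using Fin.cases with
        | zero => simp [Matrix.one_apply, zero_ne_ss, ss_ne_zero, one_ne_ss, ss_ne_one, one_ne_zero', zero_ne_one']
        | succ j => simp [Matrix.one_apply, zero_ne_ss, ss_ne_zero, one_ne_ss, ss_ne_one, one_ne_zero', zero_ne_one']

/-- the embedding of the coordinates -/
def kap : Fin (n + 1) → Fin (n + 2) := Fin.cases 0 (fun k => k.succ.succ)

/-- the linear part -/
def linPart (M : Matrix (Fin (n + 2)) (Fin (n + 2)) (ZMod 2)) :
    Matrix (Fin (n + 1)) (Fin (n + 1)) (ZMod 2) := Matrix.of fun i j => M (kap i) (kap j)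

/-- the translation part -/
def trPart (M : Matrix (Fin (n + 2)) (Fin (n + 2)) (ZMod 2)) : Fin (n + 1) → ZMod 2 :=
  fun i => M (kap i) 1

theorem linPart_aff : linPart (aff L v) = L := by
  ext i j
  induction i using Fin.cases with
  | zero =>
    induction j using Fin.cases with
    | zero => rfl
    | succ j => rfl
  | succ i =>
    induction j using Fin.cases with
    | zero => rfl
    | succ j => rfl

theorem trPart_aff : trPart (aff L v) = v := by
  funext i
  induction i using Fin.cases with
  | zero => exact aff_01 L v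
  | succ i => exact aff_21 L v i

theorem aff_inj {L L' : Matrix (Fin (n + 1)) (Fin (n + 1)) (ZMod 2)} {v v' : Fin (n + 1) → ZMod 2}
    (h : aff L v = aff L' v') : L = L' ∧ v = v' := by
  refine ⟨?_, ?_⟩
  · have := congrArg linPart h
    rwa [linPart_aff, linPart_aff] at this
  · have := congrArg trPart h
    rwa [trPart_aff, trPart_aff] at this

/-- the matrix with rows `(1, a)`, `(0, A)` -/
def up (a : Fin n → ZMod 2) (A : Matrix (Fin n) (Fin n) (ZMod 2)) :
    Matrix (Fin (n + 1)) (Fin (n + 1)) (ZMod 2) :=
  Matrix.of fun i j =>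
    Fin.cases (motive := fun _ => ZMod 2)
      (Fin.cases (motive := fun _ => ZMod 2) 1 (fun j' => a j') j)
      (fun i' => Fin.cases (motive := fun _ => ZMod 2) 0 (fun j' => A i' j') j) i

theorem mk_eq_aff (c : ZMod 2) (a b : Fin n → ZMod 2) (A : Matrix (Fin n) (Fin n) (ZMod 2)) :
    mk c a b A = aff (up a A) (Fin.cons c b) := by
  ext i j
  induction i using Fin.cases with
  | zero =>
    induction j using Fin.cases with
    | zero => rfl
    | succ j =>
      induction j using Fin.cases with
      | zero => simp
      | succ j => rfl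
  | succ i =>
    induction i using Fin.cases with
    | zero =>
      induction j using Fin.cases with
      | zero => simp
      | succ j =>
        induction j using Fin.cases with
        | zero => simp
        | succ j => simp
    | succ i =>
      induction j using Fin.cases with
      | zero => rfl
      | succ j =>
        induction j using Fin.cases with
        | zero => simp
        | succ j => rfl

/-! ### the affine group inside `SL_{n+2}(2)` -/

/-- translations, as matrices -/
def transMat : Multiplicative (Fin (n + 1) → ZMod 2) →*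
    Matrix (Fin (n + 2)) (Fin (n + 2)) (ZMod 2) where
  toFun x := aff 1 x.toAdd
  map_one' := aff_one
  map_mul' x y := by
    rw [aff_mul]
    simp

/-- translations -/
def transHom : Multiplicative (Fin (n + 1) → ZMod 2) →*
    Matrix.SpecialLinearGroup (Fin (n + 2)) (ZMod 2) := toSL transMat

/-- linear parts, as matrices -/
def linMat : Matrix (Fin (n + 1)) (Fin (n + 1)) (ZMod 2) →*
    Matrix (Fin (n + 2)) (Fin (n + 2)) (ZMod 2) where
  toFun L := aff L 0
  map_one' := aff_one
  map_mul' L L' := by
    rw [aff_mul]
    simp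

/-- linear parts -/
def linHom : GL (Fin (n + 1)) (ZMod 2) →* Matrix.SpecialLinearGroup (Fin (n + 2)) (ZMod 2) :=
  toSL (linMat.comp (Units.coeHom _))

theorem trans_mul_lin_coe (x : Multiplicative (Fin (n + 1) → ZMod 2))
    (u : GL (Fin (n + 1)) (ZMod 2)) :
    ((transHom x * linHom u : Matrix.SpecialLinearGroup (Fin (n + 2)) (ZMod 2)) :
      Matrix (Fin (n + 2)) (Fin (n + 2)) (ZMod 2)) = aff u.1 x.toAdd := by
  show aff 1 x.toAdd * aff u.1 0 = _
  rw [aff_mul]
  simp

theorem lin_mul_trans (u : GL (Fin (n + 1)) (ZMod 2))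
    (x : Multiplicative (Fin (n + 1) → ZMod 2)) :
    linHom u * transHom x = transHom (Multiplicative.ofAdd (u.1 *ᵥ x.toAdd)) * linHom u := by
  apply Subtype.ext
  show aff u.1 0 * aff 1 x.toAdd = aff 1 (u.1 *ᵥ x.toAdd) * aff u.1 0
  rw [aff_mul, aff_mul]
  simp

theorem aff_single : aff (1 : Matrix (Fin (n + 1)) (Fin (n + 1)) (ZMod 2)) (Pi.single 0 1) =
    mk 1 0 0 1 := by
  ext i j
  induction i using Fin.cases with
  | zero =>
    induction j using Fin.cases with
    | zero => simp
    | succ j =>
      induction j using Fin.cases with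
      | zero => simp
      | succ j => simp [Matrix.one_apply, (Fin.succ_ne_zero _).symm]
  | succ i =>
    induction i using Fin.cases with
    | zero =>
      induction j using Fin.cases with
      | zero => simp
      | succ j =>
        induction j using Fin.cases with
        | zero => simp
        | succ j => simp
    | succ i =>
      induction j using Fin.cases with
      | zero => simp [Matrix.one_apply]
      | succ j =>
        induction j using Fin.cases with
        | zero => simp [Pi.single_apply]
        | succ j => simp [Matrix.one_apply]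

theorem transHom_single {z : Matrix.SpecialLinearGroup (Fin (n + 2)) (ZMod 2)}
    (hz : (z : Matrix (Fin (n + 2)) (Fin (n + 2)) (ZMod 2)) = Matrix.transvection 0 1 1) :
    transHom (Multiplicative.ofAdd (Pi.single 0 1 : Fin (n + 1) → ZMod 2)) = z := by
  apply Subtype.ext
  rw [hz, transvection_eq_mk, ← aff_single]
  rfl

/-- every element of the centraliser is affine, with invertible linear part -/
theorem cent_eq_aff {z : Matrix.SpecialLinearGroup (Fin (n + 2)) (ZMod 2)}
    (hz : (z : Matrix (Fin (n + 2)) (Fin (n + 2)) (ZMod 2)) = Matrix.transvection 0 1 1)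
    {g : Matrix.SpecialLinearGroup (Fin (n + 2)) (ZMod 2)}
    (hg : g ∈ Subgroup.centralizer ({z} : Set (Matrix.SpecialLinearGroup (Fin (n + 2)) (ZMod 2)))) :
    ∃ (u : GL (Fin (n + 1)) (ZMod 2)) (x : Multiplicative (Fin (n + 1) → ZMod 2)),
      g = transHom x * linHom u := by
  have key : ∀ g' ∈ Subgroup.centralizer
      ({z} : Set (Matrix.SpecialLinearGroup (Fin (n + 2)) (ZMod 2))),
      g'.1 = aff (linPart g'.1) (trPart g'.1) := by
    intro g' hg'
    have h1 := cent_eq_mk hz hg'
    rw [mk_eq_aff] at h1
    have h2 := congrArg linPart h1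
    have h3 := congrArg trPart h1
    rw [linPart_aff] at h2
    rw [trPart_aff] at h3
    rw [h2, h3]
    exact h1
  have e1 := key g hg
  have e2 := key g⁻¹ (Subgroup.inv_mem _ hg)
  have h1 : g.1 * g⁻¹.1 = 1 := congrArg Subtype.val (mul_inv_cancel g)
  have h2 : g⁻¹.1 * g.1 = 1 := congrArg Subtype.val (inv_mul_cancel g)
  rw [e1, e2, aff_mul, ← aff_one] at h1
  rw [e1, e2, aff_mul, ← aff_one] at h2
  refine ⟨⟨linPart g.1, linPart g⁻¹.1, (aff_inj h1).1, (aff_inj h2).1⟩,
    Multiplicative.ofAdd (trPart g.1), ?_⟩
  apply Subtype.ext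
  rw [trans_mul_lin_coe]
  exact e1

/-! ### automorphisms of `(ZMod 2)^k` and matrices -/

/-- the matrix of an automorphism -/
noncomputable def autMat {k : ℕ} : MulAut (Multiplicative (Fin k → ZMod 2)) →*
    Matrix (Fin k) (Fin k) (ZMod 2) where
  toFun α := LinearMap.toMatrix'
    (AddMonoidHom.toZModLinearMap 2 (AddMonoidHom.toMultiplicative.symm α.toMonoidHom))
  map_one' := by
    rw [← LinearMap.toMatrix'_one]
    rfl
  map_mul' α β := by
    rw [← LinearMap.toMatrix'_mul]
    rfl

theorem autMat_mulVec {k : ℕ} (α : MulAut (Multiplicative (Fin k → ZMod 2)))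
    (x : Fin k → ZMod 2) :
    autMat α *ᵥ x = (α (Multiplicative.ofAdd x)).toAdd := by
  show LinearMap.toMatrix' _ *ᵥ x = _
  rw [LinearMap.toMatrix'_mulVec]
  rfl

/-- the automorphism of a matrix -/
def ofGL {k : ℕ} (u : GL (Fin k) (ZMod 2)) : MulAut (Multiplicative (Fin k → ZMod 2)) where
  toFun x := Multiplicative.ofAdd (u.1 *ᵥ x.toAdd)
  invFun x := Multiplicative.ofAdd ((u⁻¹ : GL (Fin k) (ZMod 2)).1 *ᵥ x.toAdd)
  left_inv x := by
    show Multiplicative.ofAdd ((u⁻¹ : GL (Fin k) (ZMod 2)).1 *ᵥ (u.1 *ᵥ x.toAdd)) = x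
    rw [Matrix.mulVec_mulVec, Units.inv_mul, Matrix.one_mulVec]
    rfl
  right_inv x := by
    show Multiplicative.ofAdd (u.1 *ᵥ ((u⁻¹ : GL (Fin k) (ZMod 2)).1 *ᵥ x.toAdd)) = x
    rw [Matrix.mulVec_mulVec, Units.mul_inv, Matrix.one_mulVec]
    rfl
  map_mul' x y := by
    show Multiplicative.ofAdd (u.1 *ᵥ (x.toAdd + y.toAdd)) = _
    rw [Matrix.mulVec_add]
    rfl

theorem autMat_ofGL {k : ℕ} (u : GL (Fin k) (ZMod 2)) : autMat (ofGL u) = u.1 := by
  rw [Matrix.ext_iff_mulVec]
  intro x
  rw [autMat_mulVec]
  rfl

end Cfsg.Agent.Lib.Helper93.TransvN
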