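import Mathlib
import Cfsg.Agent.Lib.Helper96.AltStmt

set_option autoImplicit false

/-! Piece DEC of S5165 (for helper96): a permutation `g` with `g ^ p ^ (k + 1) = 1`, `k ≥ 1`, is
a product `t * m` with `t ^ p = 1`, `m ^ p ^ k = 1`, `t` even, and `t`, `m` in a common
`p`-group.

Route: induction over the cycles of `g`.  For a cycle `c` of length `p ^ (k + 1)` through `x₀`,
`m` is the cycle of `c ^ p` through `c ^ (p - 1) x₀` and `t = c * m⁻¹`.  Both lie in the group
`wr p c` of the permutations commuting with `c ^ p` which move every point by a power of `c` of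
exponent in a fixed class mod `p`; this group has exponent dividing `p ^ (k + 1)`. -/

namespace Cfsg.Agent.Lib.Helper93.AltDEC

open Equiv Cfsg.Agent.Lib.Helper96.AltStmt

/-- the permutations commuting with `g ^ p` which move every point by a power of `g` whose
exponent lies in a fixed residue class mod `p` -/
def wr {α : Type} (p : ℕ) (g : Perm α) : Subgroup (Perm α) where
  carrier := {h | Commute h (g ^ p) ∧ ∃ e : ℤ, ∀ x, ∃ j : ℤ, h x = (g ^ (e + p * j)) x}
  one_mem' := ⟨Commute.one_left _, 0, fun x => ⟨0, by simp⟩⟩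
  mul_mem' := by
    rintro a b ⟨ha, e₁, h₁⟩ ⟨hb, e₂, h₂⟩
    refine ⟨ha.mul_left hb, e₁ + e₂, fun x => ?_⟩
    obtain ⟨j₂, hj₂⟩ := h₂ x
    obtain ⟨j₁, hj₁⟩ := h₁ (b x)
    refine ⟨j₁ + j₂, ?_⟩
    rw [Perm.mul_apply, hj₁, hj₂, ← Perm.mul_apply, ← zpow_add]
    congr 2; ring
  inv_mem' := by
    rintro a ⟨ha, e, h⟩
    refine ⟨ha.inv_left, -e, fun x => ?_⟩
    obtain ⟨j, hj⟩ := h (a⁻¹ x)
    refine ⟨-j, ?_⟩
    have hx : x = (g ^ (e + p * j)) (a⁻¹ x) := by rw [← hj]; simp
    have h2 : (g ^ (-e + p * -j)) x = a⁻¹ x := by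
      conv_lhs => rw [hx]
      rw [← Perm.mul_apply, ← zpow_add]
      have h3 : -e + (p : ℤ) * -j + (e + p * j) = 0 := by ring
      rw [h3, zpow_zero, Perm.one_apply]
    exact h2.symm

theorem wr_pow_eq_one {α : Type} (p k : ℕ) (g : Perm α) (hg : g ^ p ^ (k + 1) = 1)
    (h : Perm α) (hh : h ∈ wr p g) : h ^ p ^ (k + 1) = 1 := by
  obtain ⟨hc, e, he⟩ := hh
  have h1 : ∀ n : ℕ, ∀ x, ∃ j : ℤ, (h ^ n) x = (g ^ ((n : ℤ) * e + p * j)) x := by
    intro n
    induction n with
    | zero => intro x; exact ⟨0, by simp⟩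
    | succ n ih =>
      intro x
      obtain ⟨j₂, hj₂⟩ := ih x
      obtain ⟨j₁, hj₁⟩ := he ((h ^ n) x)
      refine ⟨j₁ + j₂, ?_⟩
      rw [pow_succ', Perm.mul_apply, hj₁, hj₂, ← Perm.mul_apply, ← zpow_add]
      congr 2; push_cast; ring
  have h2 : ∀ x, ∃ a : ℤ, (h ^ p) x = ((g ^ p) ^ a) x := by
    intro x
    obtain ⟨j, hj⟩ := h1 p x
    refine ⟨e + j, ?_⟩
    rw [hj, ← zpow_natCast g p, ← zpow_mul]
    congr 2; ring
  have h3 : Commute (h ^ p) (g ^ p) := hc.pow_left p
  have h4 : (h ^ p) ^ p ^ k = 1 := by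
    ext x
    obtain ⟨a, ha⟩ := h2 x
    have h5 : ∀ n : ℕ, ((h ^ p) ^ n) x = (((g ^ p) ^ a) ^ n) x := by
      intro n
      induction n with
      | zero => simp
      | succ n ih =>
        have hcomm : Commute ((h ^ p) ^ n) ((g ^ p) ^ a) := (h3.pow_left n).zpow_right a
        rw [pow_succ, Perm.mul_apply, ha, ← Perm.mul_apply, hcomm.eq, Perm.mul_apply, ih,
          ← Perm.mul_apply, ← pow_succ']
    have hv : ((g ^ p) ^ a) ^ p ^ k = 1 := by
      have e1 : ((g ^ p) ^ a) ^ p ^ k = ((g ^ p) ^ p ^ k) ^ a := by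
        rw [← zpow_natCast ((g ^ p) ^ a) (p ^ k), ← zpow_mul, mul_comm, zpow_mul, zpow_natCast]
      rw [e1, ← pow_mul, ← pow_succ', hg, one_zpow]
    rw [h5, hv]
  rw [pow_succ', pow_mul]; exact h4

theorem isPGroup_wr {α : Type} (p k : ℕ) (g : Perm α) (hg : g ^ p ^ (k + 1) = 1) :
    IsPGroup p ↥(wr p g) := by
  intro w
  exact ⟨k + 1, Subtype.ext (wr_pow_eq_one p k g hg w.1 w.2)⟩

theorem cycle_case {α : Type} [DecidableEq α] [Fintype α] (p : ℕ) [Fact p.Prime] (k : ℕ)
    (hk : 1 ≤ k) (c : Perm α) (hc : c.IsCycle) (hpow : c ^ p ^ (k + 1) = 1) :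
    ∃ t m : Perm α, c = t * m ∧ t ^ p = 1 ∧ m ^ p ^ k = 1 ∧ Perm.sign t = 1 ∧
      IsPGroup p ↥(Subgroup.closure {t, m}) ∧ (∀ x, c x = x → t x = x ∧ m x = x) := by
  have hp : p.Prime := Fact.out
  have hp0 : 0 < p := hp.pos
  have hW : IsPGroup p ↥(wr p c) := isPGroup_wr p k c hpow
  by_cases hA : c ^ p ^ k = 1
  · refine ⟨1, c, (one_mul c).symm, one_pow p, hA, Perm.sign_one, ?_, fun x hx => ⟨rfl, hx⟩⟩
    apply hW.to_le
    rw [Subgroup.closure_le]
    rintro z (rfl | rfl)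
    · exact (wr p c).one_mem
    · exact ⟨Commute.pow_right (Commute.refl _) p, 1, fun x => ⟨0, by simp⟩⟩
  · obtain ⟨x₀, hx₀, -⟩ := id hc
    have hord : orderOf c = p ^ (k + 1) := by
      have h1 : orderOf c ∣ p ^ (k + 1) := orderOf_dvd_of_pow_eq_one hpow
      obtain ⟨j, hj, hj'⟩ := (Nat.dvd_prime_pow hp).1 h1
      rcases Nat.lt_or_ge j (k + 1) with hlt | hge
      · exfalso; apply hA
        apply orderOf_dvd_iff_pow_eq_one.1
        rw [hj']; exact pow_dvd_pow p (by omega)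
      · have hjk : j = k + 1 := by omega
        rw [hj', hjk]
    have key : ∀ a b : ℕ, (c ^ a) x₀ = (c ^ b) x₀ → a ≡ b [MOD p ^ (k + 1)] := by
      intro a b hab
      have h1 : c ^ a = c ^ b := hc.pow_eq_pow_iff.2 ⟨x₀, hx₀, hab⟩
      rw [pow_eq_pow_iff_modEq, hord] at h1
      exact h1
    have keyp : ∀ a b : ℕ, (c ^ a) x₀ = (c ^ b) x₀ → a ≡ b [MOD p] := fun a b hab =>
      (key a b hab).of_dvd (dvd_pow_self p (Nat.succ_ne_zero k))
    set s : Perm α := c ^ p with hs
    set y : α := (c ^ (p - 1)) x₀ with hy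
    set d : Perm α := s.cycleOf y with hd
    have hds : Commute d s := by
      have h1 : d * s = s * d := by
        ext z
        by_cases hsc : s.SameCycle y z
        · have hsc' : s.SameCycle y (s z) := Perm.sameCycle_apply_right.2 hsc
          rw [Perm.mul_apply, Perm.mul_apply, hd, hsc.cycleOf_apply, hsc'.cycleOf_apply]
        · have hsc' : ¬ s.SameCycle y (s z) := fun h => hsc (Perm.sameCycle_apply_right.1 h)
          rw [Perm.mul_apply, Perm.mul_apply, hd, Perm.cycleOf_apply_of_not_sameCycle hsc,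
            Perm.cycleOf_apply_of_not_sameCycle hsc']
      exact h1
    have hd_same : ∀ z, s.SameCycle y z → d⁻¹ z = s⁻¹ z := by
      intro z hsc
      rw [hd, Perm.cycleOf_inv]
      exact (Perm.sameCycle_inv.2 hsc).cycleOf_apply
    have hd_not : ∀ z, ¬ s.SameCycle y z → d⁻¹ z = z := by
      intro z hsc
      rw [hd, Perm.cycleOf_inv]
      exact Perm.cycleOf_apply_of_not_sameCycle (fun h => hsc (Perm.sameCycle_inv.1 h))
    have hts : Commute (c * d⁻¹) s :=
      (Commute.pow_right (Commute.refl c) p).mul_left hds.inv_left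
    -- the orbit of `x₀` under `t`
    have hns : ∀ j : ℕ, j < p - 1 → ¬ s.SameCycle y ((c ^ j) x₀) := by
      intro j hj hsc
      obtain ⟨i, hi⟩ := hsc.exists_nat_pow_eq
      have h1 : (c ^ (p * i + (p - 1))) x₀ = (c ^ j) x₀ := by
        rw [pow_add, pow_mul, Perm.mul_apply]; exact hi
      have h3 : (p * i + (p - 1)) % p = j % p := keyp _ _ h1
      rw [Nat.mul_add_mod, Nat.mod_eq_of_lt (by omega), Nat.mod_eq_of_lt (by omega)] at h3
      omega
    have ht_lt : ∀ j : ℕ, j < p - 1 → (c * d⁻¹) ((c ^ j) x₀) = (c ^ (j + 1)) x₀ := by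
      intro j hj
      rw [Perm.mul_apply, hd_not _ (hns j hj), pow_succ', Perm.mul_apply]
    have hcp : c ^ p = c ^ (p - 1) * c := by
      rw [← pow_succ]; congr 1; omega
    have ht_y : (c * d⁻¹) y = x₀ := by
      rw [Perm.mul_apply, hd_same y (Perm.SameCycle.refl _ _), hy, ← Perm.mul_apply,
        ← Perm.mul_apply, hs, hcp]
      have h1 : c * (c ^ (p - 1) * c)⁻¹ * c ^ (p - 1) = 1 := by group
      rw [h1, Perm.one_apply]
    have ht_pow : ∀ j : ℕ, j ≤ p - 1 → ((c * d⁻¹) ^ j) x₀ = (c ^ j) x₀ := by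
      intro j
      induction j with
      | zero => intro _; simp
      | succ j ih =>
        intro hj
        rw [pow_succ', Perm.mul_apply, ih (by omega), ht_lt j (by omega)]
    have ht_p : ((c * d⁻¹) ^ p) x₀ = x₀ := by
      have h1 : p = (p - 1) + 1 := by omega
      rw [h1, pow_succ', Perm.mul_apply, ht_pow (p - 1) le_rfl]
      exact ht_y
    -- fixed points
    have hfix : ∀ z, c z = z → (c * d⁻¹) z = z ∧ d z = z := by
      intro z hz
      have hsz : s z = z := Perm.pow_apply_eq_self_of_apply_eq_self hz p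
      have hdz : d⁻¹ z = z := by
        by_cases hsc : s.SameCycle y z
        · rw [hd_same z hsc, Perm.inv_eq_iff_eq, hsz]
        · exact hd_not z hsc
      refine ⟨by rw [Perm.mul_apply, hdz, hz], ?_⟩
      rw [Perm.inv_eq_iff_eq] at hdz
      exact hdz.symm
    have htp : (c * d⁻¹) ^ p = 1 := by
      ext z
      rw [Perm.one_apply]
      by_cases hz : c z = z
      · exact Perm.pow_apply_eq_self_of_apply_eq_self (hfix z hz).1 p
      · obtain ⟨n, hn⟩ := hc.exists_pow_eq hx₀ hz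
        have hr : n % p ≤ p - 1 := by
          have := Nat.mod_lt n hp0
          omega
        have hz' : z = (s ^ (n / p) * (c * d⁻¹) ^ (n % p)) x₀ := by
          rw [Perm.mul_apply, ht_pow _ hr, hs, ← pow_mul, ← Perm.mul_apply, ← pow_add,
            Nat.div_add_mod]
          exact hn.symm
        have hcm : Commute ((c * d⁻¹) ^ p) (s ^ (n / p) * (c * d⁻¹) ^ (n % p)) :=
          (hts.pow_pow p (n / p)).mul_right ((Commute.refl (c * d⁻¹)).pow_pow p (n % p))
        rw [hz', ← Perm.mul_apply, hcm.eq, Perm.mul_apply, ht_p]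
    have hs_pow : s ^ p ^ k = 1 := by
      rw [hs, ← pow_mul, ← pow_succ']; exact hpow
    have hm : d ^ p ^ k = 1 :=
      orderOf_dvd_iff_pow_eq_one.1
        ((Perm.orderOf_cycleOf_dvd_orderOf s y).trans (orderOf_dvd_of_pow_eq_one hs_pow))
    -- sign
    have hsy : s y ≠ y := by
      intro h
      have h1 : (c ^ (p + (p - 1))) x₀ = (c ^ (p - 1)) x₀ := by
        rw [pow_add, Perm.mul_apply]; exact h
      have h2 := key _ _ h1
      have h3 : p ^ (k + 1) ∣ p := by
        have h4 := (Nat.modEq_iff_dvd' (by omega : p - 1 ≤ p + (p - 1))).1 h2.symm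
        simpa using h4
      have h4 : p ^ 2 ∣ p := (pow_dvd_pow p (by omega : 2 ≤ k + 1)).trans h3
      have h5 := Nat.le_of_dvd hp0 h4
      have h6 : p * 2 ≤ p * p := Nat.mul_le_mul_left p hp.two_le
      rw [sq] at h5
      omega
    have hdcyc : d.IsCycle := Perm.isCycle_cycleOf s hsy
    have hdord : ∃ j, 1 ≤ j ∧ d.support.card = p ^ j := by
      have h1 : orderOf d ∣ p ^ k := orderOf_dvd_of_pow_eq_one hm
      obtain ⟨j, -, hj⟩ := (Nat.dvd_prime_pow hp).1 h1
      refine ⟨j, ?_, by rw [← hdcyc.orderOf, hj]⟩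
      by_contra h0
      have hj0 : j = 0 := by omega
      rw [hj0, pow_zero, orderOf_eq_one_iff] at hj
      exact hdcyc.ne_one hj
    have hsign : Perm.sign (c * d⁻¹) = 1 := by
      obtain ⟨j, hj1, hj⟩ := hdord
      rw [Perm.sign_mul, Perm.sign_inv, hc.sign, hdcyc.sign, ← hc.orderOf, hord, hj]
      rcases hp.eq_two_or_odd' with h2 | hodd
      · have e1 : Even (p ^ (k + 1)) := by
          rw [h2]; exact Nat.even_pow.2 ⟨even_two, by omega⟩
        have e2 : Even (p ^ j) := by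
          rw [h2]; exact Nat.even_pow.2 ⟨even_two, by omega⟩
        rw [e1.neg_one_pow, e2.neg_one_pow]; simp
      · have e1 : Odd (p ^ (k + 1)) := hodd.pow
        have e2 : Odd (p ^ j) := hodd.pow
        rw [e1.neg_one_pow, e2.neg_one_pow]; simp
    refine ⟨c * d⁻¹, d, by group, htp, hm, hsign, ?_, hfix⟩
    apply hW.to_le
    rw [Subgroup.closure_le]
    rintro z (rfl | rfl)
    · refine ⟨hts, 1, fun x => ?_⟩
      by_cases hsc : s.SameCycle y x
      · refine ⟨-1, ?_⟩
        rw [Perm.mul_apply, hd_same x hsc, hs, zpow_add, zpow_one, mul_neg, mul_one, zpow_neg,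
          zpow_natCast, Perm.mul_apply]
      · refine ⟨0, ?_⟩
        rw [Perm.mul_apply, hd_not x hsc]; simp
    · refine ⟨hds, 0, fun x => ?_⟩
      by_cases hsc : s.SameCycle y x
      · refine ⟨1, ?_⟩
        rw [hd, hsc.cycleOf_apply, hs]; simp
      · refine ⟨0, ?_⟩
        rw [hd, Perm.cycleOf_apply_of_not_sameCycle hsc]; simp

theorem main : Cfsg.Agent.Lib.Helper96.AltStmt.Dec := by
  intro α _ _ p _ k g hk hg
  have hp : p.Prime := Fact.out
  suffices H : ∀ σ : Perm α, σ ^ p ^ (k + 1) = 1 → ∃ t m : Perm α, σ = t * m ∧ t ^ p = 1 ∧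
      m ^ p ^ k = 1 ∧ Perm.sign t = 1 ∧ IsPGroup p ↥(Subgroup.closure {t, m}) ∧
      (∀ x, σ x = x → t x = x ∧ m x = x) by
    obtain ⟨t, m, h1, h2, h3, h4, h5, -⟩ := H g hg
    exact ⟨t, m, h1, h2, h3, h4, h5⟩
  intro σ
  refine Perm.cycle_induction_on (fun σ : Perm α => σ ^ p ^ (k + 1) = 1 →
      ∃ t m : Perm α, σ = t * m ∧ t ^ p = 1 ∧
      m ^ p ^ k = 1 ∧ Perm.sign t = 1 ∧ IsPGroup p ↥(Subgroup.closure {t, m}) ∧
      (∀ x, σ x = x → t x = x ∧ m x = x)) σ ?_ ?_ ?_
  · intro _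
    refine ⟨1, 1, (one_mul 1).symm, one_pow p, one_pow _, Perm.sign_one, ?_, fun x _ => ⟨rfl, rfl⟩⟩
    apply (IsPGroup.of_bot : IsPGroup p ↥(⊥ : Subgroup (Perm α))).to_le
    rw [Subgroup.closure_le]
    rintro z (rfl | rfl) <;> exact Subgroup.one_mem _
  · intro σ hσ h
    exact cycle_case p k hk σ hσ h
  · intro σ τ hd hσ ihσ ihτ hpow
    have hcomm : Commute σ τ := hd.commute
    have h1 : σ ^ p ^ (k + 1) * τ ^ p ^ (k + 1) = 1 := by rw [← hcomm.mul_pow]; exact hpow
    obtain ⟨hσ1, hτ1⟩ := (hd.pow_disjoint_pow _ _).mul_eq_one_iff.1 h1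
    obtain ⟨t₁, m₁, e₁, ht₁, hm₁, hs₁, hP₁, hf₁⟩ := ihσ hσ1
    obtain ⟨t₂, m₂, e₂, ht₂, hm₂, hs₂, hP₂, hf₂⟩ := ihτ hτ1
    have dtt : Perm.Disjoint t₁ t₂ := fun x =>
      (hd x).imp (fun h => (hf₁ x h).1) (fun h => (hf₂ x h).1)
    have dtm : Perm.Disjoint t₁ m₂ := fun x =>
      (hd x).imp (fun h => (hf₁ x h).1) (fun h => (hf₂ x h).2)
    have dmt : Perm.Disjoint m₁ t₂ := fun x =>
      (hd x).imp (fun h => (hf₁ x h).2) (fun h => (hf₂ x h).1)
    have dmm : Perm.Disjoint m₁ m₂ := fun x =>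
      (hd x).imp (fun h => (hf₁ x h).2) (fun h => (hf₂ x h).2)
    refine ⟨t₁ * t₂, m₁ * m₂, ?_, ?_, ?_, ?_, ?_, ?_⟩
    · have h2 : t₁ * m₁ * (t₂ * m₂) = t₁ * t₂ * (m₁ * m₂) := by
        simp only [mul_assoc]
        rw [← mul_assoc m₁ t₂, dmt.commute.eq, mul_assoc]
      rw [← h2, ← e₁, ← e₂]
    · rw [dtt.commute.mul_pow, ht₁, ht₂, one_mul]
    · rw [dmm.commute.mul_pow, hm₁, hm₂, one_mul]
    · rw [Perm.sign_mul, hs₁, hs₂, one_mul]
    · have hBcent : Subgroup.closure ({t₂, m₂} : Set (Perm α)) ≤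
          Subgroup.centralizer ({t₁, m₁} : Set (Perm α)) := by
        rw [Subgroup.closure_le]
        rintro z (rfl | rfl)
        · rw [SetLike.mem_coe, Subgroup.mem_centralizer_iff]
          rintro h (rfl | rfl)
          · exact dtt.commute.eq
          · exact dmt.commute.eq
        · rw [SetLike.mem_coe, Subgroup.mem_centralizer_iff]
          rintro h (rfl | rfl)
          · exact dtm.commute.eq
          · exact dmm.commute.eq
      have hAcent : Subgroup.closure ({t₁, m₁} : Set (Perm α)) ≤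
          Subgroup.centralizer ((Subgroup.closure ({t₂, m₂} : Set (Perm α)) : Subgroup (Perm α)) :
            Set (Perm α)) := by
        rw [Subgroup.closure_le]
        intro z hz
        rw [SetLike.mem_coe, Subgroup.mem_centralizer_iff]
        intro h hh
        exact (Subgroup.mem_centralizer_iff.1 (hBcent hh) z hz).symm
      have hAB := IsPGroup.to_sup_of_normal_right' hP₁ hP₂
        (hAcent.trans (Subgroup.centralizer_le_normalizer _))
      apply hAB.to_le
      rw [Subgroup.closure_le]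
      rintro z (rfl | rfl)
      · exact Subgroup.mul_mem_sup (Subgroup.subset_closure (by simp))
          (Subgroup.subset_closure (by simp))
      · exact Subgroup.mul_mem_sup (Subgroup.subset_closure (by simp))
          (Subgroup.subset_closure (by simp))
    · intro x hx
      obtain ⟨h1, h2⟩ := hd.mul_apply_eq_iff.1 hx
      obtain ⟨a1, a2⟩ := hf₁ x h1
      obtain ⟨b1, b2⟩ := hf₂ x h2
      constructor
      · rw [Perm.mul_apply, b1, a1]
      · rw [Perm.mul_apply, b2, a2]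

end Cfsg.Agent.Lib.Helper93.AltDEC
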