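import Mathlib
import Cfsg.Agent.Lib.Helper96.AltStmt

set_option autoImplicit false

/-! Piece NE of S5165 (for helper96): the Sylow `p`-subgroups of `A_n` are non-trivial when
`p ^ 2 ≤ n`. -/

namespace Cfsg.Agent.Lib.Helper93.AltNE

open Equiv Cfsg.Agent.Lib.Helper96.AltStmt

theorem main : Cfsg.Agent.Lib.Helper96.AltStmt.SylNe := by
  intro n p _ hpn S
  have hp : p.Prime := Fact.out
  apply Sylow.ne_bot_of_dvd_card
  have hp2 : 2 ≤ p := hp.two_le
  have hn : 4 ≤ n := by nlinarith
  have : Nontrivial (Fin n) := Fin.nontrivial_iff_two_le.2 (by omega)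
  have h2 : 2 * Nat.card (alternatingGroup (Fin n)) = n.factorial := by
    rw [Nat.card_eq_fintype_card, two_mul_card_alternatingGroup, Fintype.card_perm,
      Fintype.card_fin]
  rcases hp.eq_two_or_odd' with rfl | hodd
  · have h4 : 4 ∣ n.factorial :=
      dvd_trans (by decide : 4 ∣ Nat.factorial 4) (Nat.factorial_dvd_factorial hn)
    rw [← h2] at h4
    omega
  · have hpn' : p ≤ n := by nlinarith
    have hd : p ∣ n.factorial := Nat.dvd_factorial hp.pos hpn'
    rw [← h2] at hd
    exact (Odd.coprime_two_right hodd).dvd_of_dvd_mul_left hd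

end Cfsg.Agent.Lib.Helper93.AltNE
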