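import Mathlib
import Cfsg.Agent.Lib.Helper96.AltStmt

set_option autoImplicit false

/-! Piece XT of S5165 (for helper96): the set of conjugates of the elements of a subgroup `T` of
a Sylow subgroup `S`, closed under conjugation inside `S`, is `PClosed` and meets `S` in `T`. -/

namespace Cfsg.Agent.Lib.Helper93.AltXT

open Equiv Cfsg.Agent.Lib.Helper96.AltStmt

theorem main : Cfsg.Agent.Lib.Helper96.AltStmt.XTrick := by
  intro G _ _ p _ S T hTS hT
  refine ⟨{x | ∃ t ∈ T, ∃ g : G, x = g * t * g⁻¹}, ⟨?_, ?_, ?_, ?_⟩, ?_, ?_⟩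
  · rintro x ⟨t, ht, g, rfl⟩ h
    exact ⟨t, ht, h * g, by group⟩
  · rintro x ⟨t, ht, g, rfl⟩
    obtain ⟨k, hk⟩ := S.isPGroup' ⟨t, hTS ht⟩
    refine ⟨k, ?_⟩
    have hk' : t ^ p ^ k = 1 := by
      have := congrArg Subtype.val hk
      simpa using this
    rw [conj_pow, hk']; group
  · rintro x ⟨t, ht, g, rfl⟩ y ⟨t', ht', g', rfl⟩ ⟨Q, hQ, hxQ, hyQ⟩
    obtain ⟨S', hS'⟩ := hQ.exists_le_sylow
    obtain ⟨h, hh⟩ := MulAction.exists_smul_eq G S S'
    have key : ∀ z ∈ Q, h⁻¹ * z * h ∈ (S : Subgroup G) := by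
      intro z hz
      have hz' : z ∈ ((h • S : Sylow p G) : Subgroup G) := by rw [hh]; exact hS' hz
      rw [Sylow.coe_subgroup_smul, Subgroup.mem_pointwise_smul_iff_inv_smul_mem] at hz'
      simpa [MulAut.smul_def] using hz'
    have h1 : h⁻¹ * (g * t * g⁻¹) * h ∈ T := by
      have e : h⁻¹ * (g * t * g⁻¹) * h = (h⁻¹ * g) * t * (h⁻¹ * g)⁻¹ := by group
      rw [e]
      apply hT t ht
      rw [← e]; exact key _ hxQ
    have h2 : h⁻¹ * (g' * t' * g'⁻¹) * h ∈ T := by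
      have e : h⁻¹ * (g' * t' * g'⁻¹) * h = (h⁻¹ * g') * t' * (h⁻¹ * g')⁻¹ := by group
      rw [e]
      apply hT t' ht'
      rw [← e]; exact key _ hyQ
    exact ⟨_, mul_mem h1 h2, h, by group⟩
  · rintro x ⟨t, ht, g, rfl⟩ k
    exact ⟨t ^ k, pow_mem ht k, g, conj_pow⟩
  · intro x hx
    exact ⟨x, hx, 1, by group⟩
  · rintro x ⟨t, ht, g, rfl⟩ hxS
    exact hT t ht g hxS

end Cfsg.Agent.Lib.Helper93.AltXT
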