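import Cfsg.Agent.Lib.Helper93.Classes
import Cfsg.Agent.Lib.Helper93.Trio
import Cfsg.Agent.Lib.Helper93.Sext
/-!
# Objects fixed by an element of the group of the length-24 code

Conjugate elements fix equally many octads, dodecads, trios, sextets; the numbers for an element
given by a table are counts over the enumerations.
-/
set_option autoImplicit false
open scoped Pointwise
open Cfsg

namespace Cfsg.Agent.Lib.Helper93.ClassCount

open Cfsg.Agent.Lib.Helper27.Bits Cfsg.Agent.Lib.Helper27.Golay Cfsg.Agent.Lib.Helper27.M24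
  Cfsg.Agent.Lib.Helper27.Cert Cfsg.Agent.Lib.Helper27.Trans Cfsg.Agent.Lib.Helper27.Fast
  Cfsg.Agent.Lib.Helper93.Fam Cfsg.Agent.Lib.Helper93.Sext Cfsg.Agent.Lib.Helper93.Trio
  Cfsg.Agent.Lib.Helper93.NForm

/-- conjugate elements fix equally many members of an invariant set -/
theorem ncard_fixed_conj {B : Type*} [MulAction (Equiv.Perm GolayPt) B] (Ω : Set B)
    (hΩ : ∀ g ∈ M24, ∀ ω ∈ Ω, g • ω ∈ Ω) {d t t0 : Equiv.Perm GolayPt} (hd : d ∈ M24)
    (h : d * t * d⁻¹ = t0) :
    {ω | ω ∈ Ω ∧ t • ω = ω}.ncard = {ω | ω ∈ Ω ∧ t0 • ω = ω}.ncard := by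
  have key : {ω | ω ∈ Ω ∧ t0 • ω = ω} = (fun ω => d • ω) '' {ω | ω ∈ Ω ∧ t • ω = ω} := by
    ext ω
    simp only [Set.mem_ofPred_eq, Set.mem_image]
    constructor
    · rintro ⟨hω, hf⟩
      refine ⟨d⁻¹ • ω, ⟨hΩ _ (M24.inv_mem hd) ω hω, ?_⟩, smul_inv_smul d ω⟩
      have e : t = d⁻¹ * t0 * d := by rw [← h]; group
      rw [e, mul_smul, mul_smul, smul_inv_smul, hf]
    · rintro ⟨ω', ⟨hω', hf'⟩, rfl⟩
      refine ⟨hΩ d hd ω' hω', ?_⟩
      rw [← h, mul_smul, mul_smul, inv_smul_smul, hf']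
  rw [key, Set.ncard_image_of_injective _ (MulAction.injective d)]

theorem gperm_fix_cw {C : ℕ} (hv : validT C = true) (c : ℕ) :
    gperm C • fsOf (cw c) = fsOf (cw c) ↔ Nat.beq (pullU C (cw c)) (cw c) = true := by
  rw [gperm_smul hv, pullU_eq]
  constructor
  · intro h
    rw [setOf_injOn (pull_lt _ _) (cw_lt c) h]
    exact Nat.beq_refl _
  · intro h
    rw [Nat.eq_of_beq_eq_true h]

/-- the number of octads fixed by a table -/
theorem ncard_fix_octads {C : ℕ} (hv : validT C = true) :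
    {o : Finset GolayPt | o ∈ octads ∧ gperm C • o = o}.ncard =
      countB 4096 (fun c => Nat.beq (pcF (cw c)) 8 && Nat.beq (pullU C (cw c)) (cw c)) :=
  ncard_octads_filter (fun o => gperm C • o = o) _ (fun c _ => gperm_fix_cw hv c)

/-- the number of dodecads fixed by a table -/
theorem ncard_fix_dodecads {C : ℕ} (hv : validT C = true) :
    {o : Finset GolayPt | o ∈ dodecads ∧ gperm C • o = o}.ncard =
      countB 4096 (fun c => Nat.beq (pcF (cw c)) 12 && Nat.beq (pullU C (cw c)) (cw c)) := by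
  have h1 : {s : Finset GolayPt | s ∈ dodecads ∧ gperm C • s = s} =
      {s | s ∈ supports (golayCode : Set (GolayPt → ZMod 2)) ∧
        (s.card = 12 ∧ gperm C • s = s)} := by
    ext s
    simp only [dodecads, wordsOfWeight, Set.mem_ofPred_eq, and_assoc]
  rw [h1]
  apply ncard_code_filter_cw
  intro c hc
  rw [card_setOf_F, gperm_fix_cw hv c, Bool.and_eq_true]
  exact and_congr ⟨fun h => by rw [h]; rfl, Nat.eq_of_beq_eq_true⟩ Iff.rfl

theorem sameL_of_fam_eq {l1 l2 : List ℕ} (h1 : ∀ a ∈ l1, a < 2 ^ 24) (h2 : ∀ a ∈ l2, a < 2 ^ 24)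
    (h : fam l1 = fam l2) : sameL l1 l2 = true := by
  have key : ∀ {l l' : List ℕ}, (∀ a ∈ l, a < 2 ^ 24) → (∀ a ∈ l', a < 2 ^ 24) →
      fam l = fam l' → subL l l' = true := by
    intro l l' hl hl' e
    rw [subL_iff]
    intro a ha
    have : fsOf a ∈ fam l' := by rw [← e]; exact fsOf_mem_fam ha
    obtain ⟨b, hb, hba⟩ := mem_fam.mp this
    rw [← setOf_injOn (hl' b hb) (hl a ha) hba]
    exact hb
  unfold sameL
  rw [key h1 h2 h, key h2 h1 h.symm]
  rfl

theorem gperm_fix_fam {C : ℕ} (hv : validT C = true) {l : List ℕ} (hl : ∀ a ∈ l, a < 2 ^ 24) :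
    gperm C • fam l = fam l ↔ sameL (l.map (pullU C)) l = true := by
  rw [smul_fam (gperm C) (pullU C) (fun m => by rw [pullU_eq]; exact gperm_smul hv m) l]
  constructor
  · intro h
    refine sameL_of_fam_eq ?_ hl h
    intro a ha
    obtain ⟨b, _, rfl⟩ := List.mem_map.mp ha
    rw [pullU_eq]
    exact pull_lt _ _
  · exact fam_eq_of_sameL

/-- the number of trios fixed by a table -/
theorem ncard_fix_trios {C : ℕ} (hv : validT C = true) :
    {T : Finset (Finset GolayPt) | T ∈ trios ∧ gperm C • T = T}.ncard =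
      countB 3795 (fun c => true && sameL ((trioRep c).map (pullU C)) (trioRep c)) :=
  trioEnum.ncard_filter (fun T => gperm C • T = T) _
    (fun _ _ _ => gperm_fix_fam hv (fun _ ha => trioRep_lt ha))

theorem sextRep_lt {c : ℕ} {a : ℕ} (ha : a ∈ sextRep c) : a < 2 ^ 24 := by
  simp only [sextRep, List.mem_cons, List.not_mem_nil, or_false] at ha
  rcases ha with rfl | rfl | rfl | rfl | rfl | rfl <;> exact tget_lt _ _ _

/-- the number of sextets fixed by a table -/
theorem ncard_fix_sextets {C : ℕ} (hv : validT C = true) :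
    {S : Finset (Finset GolayPt) | S ∈ sextets ∧ gperm C • S = S}.ncard =
      countB 1771 (fun c => true && sameL ((sextRep c).map (pullU C)) (sextRep c)) :=
  sextEnum.ncard_filter (fun S => gperm C • S = S) _
    (fun _ _ _ => gperm_fix_fam hv (fun _ ha => sextRep_lt ha))

/-- the numbers of octads, trios and sextets fixed by a conjugate of a table -/
theorem counts_conj {d t : Equiv.Perm GolayPt} (hd : d ∈ M24) {C : ℕ} (hv : validT C = true)
    (h : d * t * d⁻¹ = gperm C) :
    {o : Finset GolayPt | o ∈ octads ∧ t • o = o}.ncard =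
        countB 4096 (fun c => Nat.beq (pcF (cw c)) 8 && Nat.beq (pullU C (cw c)) (cw c)) ∧
      {T : Finset (Finset GolayPt) | T ∈ trios ∧ t • T = T}.ncard =
        countB 3795 (fun c => true && sameL ((trioRep c).map (pullU C)) (trioRep c)) ∧
      {S : Finset (Finset GolayPt) | S ∈ sextets ∧ t • S = S}.ncard =
        countB 1771 (fun c => true && sameL ((sextRep c).map (pullU C)) (sextRep c)) ∧
      {o : Finset GolayPt | o ∈ dodecads ∧ t • o = o}.ncard =
        countB 4096 (fun c => Nat.beq (pcF (cw c)) 12 && Nat.beq (pullU C (cw c)) (cw c)) := by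
  refine ⟨?_, ?_, ?_, ?_⟩
  · rw [ncard_fixed_conj octads (fun g hg ω hω => (octads_smul_iff hg ω).mpr hω) hd h]
    exact ncard_fix_octads hv
  · rw [ncard_fixed_conj trios (fun g hg ω hω => smul_mem_trios hg hω) hd h]
    exact ncard_fix_trios hv
  · rw [ncard_fixed_conj sextets (fun g hg ω hω => smul_mem_sextets hg hω) hd h]
    exact ncard_fix_sextets hv
  · rw [ncard_fixed_conj dodecads (fun g hg ω hω => (dodecads_smul_iff hg ω).mpr hω) hd h]
    exact ncard_fix_dodecads hv

end Cfsg.Agent.Lib.Helper93.ClassCount
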