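import Mathlib
import Cfsg.Agent.Lib.Helper80.Coherence

/-!
# Defect-one combinatorics (helper93; piece S4442/COMB for helper80)

Pure lattice combinatorics: integer columns `v ψ` (`ψ ≠ one`) with Gram matrix `e + [R ψ ψ']`,
orthogonal to a positive weight, supported on `B`, with `e + (p-1)/e ≤ |B|`, have the
shape of a block with cyclic defect group of order `p`.
-/

set_option autoImplicit false

namespace Cfsg.Agent.Lib.Helper93.DefOneComb

open Finset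

theorem comb {I Ψ : Type*} [Fintype I] [DecidableEq I] [Fintype Ψ] [DecidableEq Ψ] (one : Ψ)
    (p e : ℕ) (hp : 2 ≤ p) (hcard : Fintype.card Ψ = p) (B : Set I) (w : I → ℤ)
    (hw : ∀ i, 0 < w i) (v : Ψ → I → ℤ) (R : Ψ → Ψ → Prop)
    (hv0 : ∀ ψ i, i ∉ B → v ψ i = 0)
    (hG1 : ∀ ψ ψ', ψ ≠ one → ψ' ≠ one → R ψ ψ' → ∑ i, v ψ i * v ψ' i = (e : ℤ) + 1)
    (hG0 : ∀ ψ ψ', ψ ≠ one → ψ' ≠ one → ¬ R ψ ψ' → ∑ i, v ψ i * v ψ' i = (e : ℤ))
    (hRrefl : ∀ ψ, R ψ ψ)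
    (hRne : ∀ ψ ψ', ψ ≠ one → R ψ ψ' → ψ' ≠ one)
    (hclass : ∀ ψ, ψ ≠ one → Nat.card {ψ' : Ψ // R ψ ψ'} = e)
    (hwt : ∀ ψ, ψ ≠ one → ∑ i, w i * v ψ i = 0)
    (hnv : ∀ i ∈ B, ∃ ψ, ψ ≠ one ∧ v ψ i ≠ 0)
    (hlow : e + (p - 1) / e ≤ Nat.card B) :
    e ∣ p - 1 ∧ Nat.card B = e + (p - 1) / e ∧
    ∃ (X Y : Set I) (Γ : I → ℤ), B = X ∪ Y ∧ Disjoint X Y ∧ Nat.card X = e ∧
      Nat.card Y = (p - 1) / e ∧
      (∀ i ∈ X, (Γ i = 1 ∨ Γ i = -1) ∧ ∀ ψ, ψ ≠ one → v ψ i = Γ i) ∧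
      ((∃ (δ γ : ℤ) (ζ : Ψ → I), (δ = 1 ∨ δ = -1) ∧
          ((((p - 1) / e : ℕ) : ℤ) * γ + δ = 1 ∨ (((p - 1) / e : ℕ) : ℤ) * γ + δ = -1) ∧
          (∀ ψ, ψ ≠ one → ζ ψ ∈ Y) ∧ (∀ η ∈ Y, ∃ ψ, ψ ≠ one ∧ ζ ψ = η) ∧
          (∀ ψ, ψ ≠ one → ∀ i, v ψ i = Set.indicator X Γ i + Set.indicator Y (fun _ => γ) i +
            δ * (if i = ζ ψ then 1 else 0))) ∨
       (e = p - 1 ∧ ∃ η₀ : I, Y = {η₀} ∧ (Γ η₀ = 1 ∨ Γ η₀ = -1) ∧
          ∀ ψ, ψ ≠ one → v ψ η₀ = Γ η₀)) := by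
  classical
  have hnorm : ∀ ψ, ψ ≠ one → ∑ i, v ψ i * v ψ i = (e : ℤ) + 1 :=
    fun ψ hψ => hG1 ψ ψ hψ hψ (hRrefl ψ)
  have hReq : ∀ ψ ψ', ψ ≠ one → ψ' ≠ one → (R ψ ψ' ↔ v ψ = v ψ') := by
    intro ψ ψ' hψ hψ'
    constructor
    · intro hR
      have h1 := hG1 ψ ψ' hψ hψ' hR
      have h2 := hnorm ψ hψ
      have h3 := hnorm ψ' hψ'
      have h4 : ∑ i, (v ψ i - v ψ' i) ^ 2 = 0 := by
        have e' : ∀ i, (v ψ i - v ψ' i) ^ 2 =
            v ψ i * v ψ i - 2 * (v ψ i * v ψ' i) + v ψ' i * v ψ' i := fun i => by ring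
        simp_rw [e']
        rw [Finset.sum_add_distrib, Finset.sum_sub_distrib, ← Finset.mul_sum, h1, h2, h3]
        ring
      funext i
      have h5 := (Finset.sum_eq_zero_iff_of_nonneg
        (fun i _ => sq_nonneg (v ψ i - v ψ' i))).mp h4 i (Finset.mem_univ _)
      have h6 : v ψ i - v ψ' i = 0 := by simpa using h5
      linarith
    · intro heq
      by_contra hR
      have h1 := hG0 ψ ψ' hψ hψ' hR
      have h2 := hnorm ψ hψ
      rw [← heq] at h1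
      linarith
  have hcardne : (univ.filter (fun ψ : Ψ => ψ ≠ one)).card = p - 1 := by
    rw [Finset.filter_ne', Finset.card_erase_of_mem (mem_univ _), Finset.card_univ, hcard]
  have hclassF : ∀ ψ, ψ ≠ one → (univ.filter (fun ψ' : Ψ => R ψ ψ')).card = e := by
    intro ψ hψ
    rw [← hclass ψ hψ, Nat.card_eq_fintype_card, Fintype.card_subtype]
  obtain ⟨ψ₀, hψ₀⟩ : ∃ ψ₀ : Ψ, ψ₀ ≠ one := by
    by_contra hall
    have h0 : (univ.filter (fun ψ : Ψ => ψ ≠ one)) = ∅ := by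
      rw [Finset.filter_eq_empty_iff]
      intro ψ _ hψ
      exact hall ⟨ψ, hψ⟩
    rw [h0, Finset.card_empty] at hcardne
    omega
  have he1 : 1 ≤ e := by
    rw [← hclassF ψ₀ hψ₀]
    exact Finset.card_pos.mpr ⟨ψ₀, by simp [hRrefl]⟩
  set FB : Finset I := univ.filter (fun i : I => i ∈ B) with hFB
  have hBcoe : B = (↑FB : Set I) := by
    ext i
    simp [hFB]
  have hBcard : Nat.card B = FB.card := by
    rw [Nat.card_coe_set_eq, hBcoe, Set.ncard_coe_finset]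
  rw [hBcard] at hlow ⊢
  have hcoe : ∀ F : Finset I, Nat.card (↑F : Set I) = F.card := fun F => by
    rw [Nat.card_coe_set_eq, Set.ncard_coe_finset]
  by_cases hex : ∃ ψ₁, ψ₁ ≠ one ∧ ¬ R ψ₀ ψ₁
  · -- the main case: at least two classes
    obtain ⟨ψ₁, hψ₁, hR01⟩ := hex
    have hSnorm : ∀ x ∈ {x : I → ℤ | ∃ ψ : Ψ, ψ ≠ one ∧ v ψ = x}, ∑ i, x i ^ 2 = (e : ℤ) + 1 := by
      rintro x ⟨ψ, hψ, rfl⟩
      rw [← hnorm ψ hψ]
      exact Finset.sum_congr rfl fun i _ => sq (v ψ i)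
    have hSinner : ∀ x ∈ {x : I → ℤ | ∃ ψ : Ψ, ψ ≠ one ∧ v ψ = x},
        ∀ y ∈ {x : I → ℤ | ∃ ψ : Ψ, ψ ≠ one ∧ v ψ = x}, x ≠ y → ∑ i, x i * y i = (e : ℤ) := by
      rintro x ⟨ψ, hψ, rfl⟩ y ⟨ψ', hψ', rfl⟩ hne
      exact hG0 ψ ψ' hψ hψ' (fun hR => hne ((hReq ψ ψ' hψ hψ').mp hR))
    have hSwt : ∀ x ∈ {x : I → ℤ | ∃ ψ : Ψ, ψ ≠ one ∧ v ψ = x}, ∑ i, w i * x i = 0 := by
      rintro x ⟨ψ, hψ, rfl⟩
      exact hwt ψ hψ
    obtain ⟨δ, Γ, γ, ζ', hδ, hform, hΓζ, hΓsum⟩ :=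
      Cfsg.Agent.Lib.Helper80.Coherence.coherence (e : ℤ) w hw
        {x : I → ℤ | ∃ ψ : Ψ, ψ ≠ one ∧ v ψ = x}
        hSnorm hSinner hSwt (v ψ₀) (v ψ₁) ⟨ψ₀, hψ₀, rfl⟩ ⟨ψ₁, hψ₁, rfl⟩
        (fun h => hR01 ((hReq ψ₀ ψ₁ hψ₀ hψ₁).mpr h.symm))
    have hK1 : ∀ ψ : Ψ, ψ ≠ one → ∀ i, v ψ i = Γ i + δ * (if i = ζ' (v ψ) then 1 else 0) :=
      fun ψ hψ i => hform (v ψ) ⟨ψ, hψ, rfl⟩ i
    have hδ0 : δ ≠ 0 := by rcases hδ with h | h <;> rw [h] <;> norm_num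
    have hK2 : ∀ ψ ψ' : Ψ, ψ ≠ one → ψ' ≠ one → (ζ' (v ψ) = ζ' (v ψ') ↔ R ψ ψ') := by
      intro ψ ψ' hψ hψ'
      rw [hReq ψ ψ' hψ hψ']
      constructor
      · intro h
        funext i
        rw [hK1 ψ hψ i, hK1 ψ' hψ' i, h]
      · intro h
        rw [h]
    have hζ01 : ζ' (v ψ₀) ≠ ζ' (v ψ₁) := fun h => hR01 ((hK2 ψ₀ ψ₁ hψ₀ hψ₁).mp h)
    have hpick : ∀ i : I, ∃ ψ : Ψ, ψ ≠ one ∧ i ≠ ζ' (v ψ) := by
      intro i
      by_cases h : i = ζ' (v ψ₀)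
      · exact ⟨ψ₁, hψ₁, fun h' => hζ01 (h.symm.trans h')⟩
      · exact ⟨ψ₀, hψ₀, h⟩
    have hΓ0 : ∀ i, i ∉ B → Γ i = 0 := by
      intro i hi
      obtain ⟨ψ, hψ, hne⟩ := hpick i
      have := hK1 ψ hψ i
      rw [hv0 ψ i hi, if_neg hne] at this
      linarith
    have hζB : ∀ ψ : Ψ, ψ ≠ one → ζ' (v ψ) ∈ B := by
      intro ψ hψ
      by_contra h
      have := hK1 ψ hψ (ζ' (v ψ))
      rw [hv0 ψ _ h, hΓ0 _ h, if_pos rfl] at this
      apply hδ0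
      linarith
    -- the finsets
    set s : Finset Ψ := univ.filter (fun ψ : Ψ => ψ ≠ one) with hs
    set FY : Finset I := s.image (fun ψ => ζ' (v ψ)) with hFY
    set FX : Finset I := FB \ FY with hFX
    have hmems : ∀ ψ, ψ ∈ s ↔ ψ ≠ one := fun ψ => by simp [hs]
    have hFYB : FY ⊆ FB := by
      intro η hη
      obtain ⟨ψ, hψ, rfl⟩ := Finset.mem_image.mp hη
      rw [hFB, Finset.mem_filter]
      exact ⟨mem_univ _, hζB ψ ((hmems ψ).mp hψ)⟩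
    have hζY : ∀ ψ, ψ ≠ one → ζ' (v ψ) ∈ FY := fun ψ hψ =>
      Finset.mem_image.mpr ⟨ψ, (hmems ψ).mpr hψ, rfl⟩
    have hscard : s.card = FY.card * e := by
      rw [Finset.card_eq_sum_card_fiberwise (f := fun ψ => ζ' (v ψ)) (s := s) (t := FY)
        (fun ψ hψ => Finset.mem_image_of_mem _ hψ)]
      refine Finset.sum_const_nat ?_
      intro η hη
      obtain ⟨ψb, hψb, rfl⟩ := Finset.mem_image.mp hη
      have hψb' := (hmems ψb).mp hψb
      rw [← hclassF ψb hψb']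
      congr 1
      ext ψ
      simp only [Finset.mem_filter, hmems, mem_univ, true_and]
      constructor
      · rintro ⟨hψ, h⟩
        exact (hK2 ψb ψ hψb' hψ).mp h.symm
      · intro h
        have hψ := hRne ψb ψ hψb' h
        exact ⟨hψ, ((hK2 ψb ψ hψb' hψ).mpr h).symm⟩
    have hpe : p - 1 = FY.card * e := by rw [← hcardne, hscard]
    have ht : (p - 1) / e = FY.card := by
      rw [hpe]
      exact Nat.mul_div_cancel _ he1
    have hY2 : 2 ≤ FY.card :=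
      Finset.one_lt_card.mpr ⟨_, hζY ψ₀ hψ₀, _, hζY ψ₁ hψ₁, hζ01⟩
    have hΓY : ∀ η ∈ FY, Γ η = γ := by
      intro η hη
      obtain ⟨ψ, hψ, rfl⟩ := Finset.mem_image.mp hη
      exact hΓζ (v ψ) ⟨ψ, (hmems ψ).mp hψ, rfl⟩
    have hXv : ∀ i ∈ FX, ∀ ψ, ψ ≠ one → v ψ i = Γ i := by
      intro i hi ψ hψ
      have hiY : i ∉ FY := (Finset.mem_sdiff.mp hi).2
      have hne : i ≠ ζ' (v ψ) := fun h => hiY (h ▸ hζY ψ hψ)
      rw [hK1 ψ hψ i, if_neg hne]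
      ring
    have hXB : ∀ i ∈ FX, i ∈ B := by
      intro i hi
      have := (Finset.mem_sdiff.mp hi).1
      rw [hFB, Finset.mem_filter] at this
      exact this.2
    have hXne : ∀ i ∈ FX, 1 ≤ Γ i ^ 2 := by
      intro i hi
      obtain ⟨ψ, hψ, hne⟩ := hnv i (hXB i hi)
      rw [hXv i hi ψ hψ] at hne
      have : 0 < Γ i ^ 2 := by positivity
      omega
    -- the norm identity
    have hsq : ∑ i, Γ i ^ 2 = ∑ i ∈ FX, Γ i ^ 2 + (FY.card : ℤ) * γ ^ 2 := by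
      have h1 : ∑ i ∈ FB, Γ i ^ 2 = ∑ i, Γ i ^ 2 := by
        refine Finset.sum_subset (Finset.subset_univ _) ?_
        intro i _ hi
        have hiB : i ∉ B := by
          intro h
          exact hi (by rw [hFB, Finset.mem_filter]; exact ⟨mem_univ _, h⟩)
        rw [hΓ0 i hiB]
        ring
      have h2 : ∑ i ∈ FB \ FY, Γ i ^ 2 + ∑ i ∈ FY, Γ i ^ 2 = ∑ i ∈ FB, Γ i ^ 2 :=
        Finset.sum_sdiff hFYB
      have h3 : ∑ i ∈ FY, Γ i ^ 2 = (FY.card : ℤ) * γ ^ 2 := by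
        rw [Finset.sum_congr rfl (fun i hi => by rw [hΓY i hi] : ∀ i ∈ FY, Γ i ^ 2 = γ ^ 2),
          Finset.sum_const, nsmul_eq_mul]
      rw [← h1, ← h2, h3]
    have hXge : (FX.card : ℤ) ≤ ∑ i ∈ FX, Γ i ^ 2 := by
      have : (FX.card : ℤ) = ∑ i ∈ FX, (1 : ℤ) := by simp
      rw [this]
      exact Finset.sum_le_sum hXne
    have hFXcard : FX.card + FY.card = FB.card := Finset.card_sdiff_add_card_eq_card hFYB
    have hXe : (e : ℤ) ≤ (FX.card : ℤ) := by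
      rw [ht] at hlow
      have : e ≤ FX.card := by omega
      exact_mod_cast this
    have hcons : 0 ≤ γ * (γ + δ) := by
      rcases hδ with h | h <;> rw [h]
      · rcases le_or_gt 0 γ with h' | h'
        · nlinarith
        · have : γ + 1 ≤ 0 := by omega
          nlinarith
      · rcases le_or_gt γ 0 with h' | h'
        · nlinarith
        · have : 0 ≤ γ + -1 := by omega
          nlinarith
    have hδ2 : δ ^ 2 = 1 := by rcases hδ with h | h <;> rw [h] <;> norm_num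
    have hY2' : (2 : ℤ) ≤ (FY.card : ℤ) := by exact_mod_cast hY2
    have htail : 0 ≤ (FY.card : ℤ) * γ ^ 2 + 2 * δ * γ := by
      have h1 : 0 ≤ ((FY.card : ℤ) - 2) * γ ^ 2 := mul_nonneg (by linarith) (sq_nonneg γ)
      nlinarith
    have hsumX : ∑ i ∈ FX, Γ i ^ 2 = (e : ℤ) := by
      rw [hsq] at hΓsum
      linarith
    have htail0 : (FY.card : ℤ) * γ ^ 2 + 2 * δ * γ = 0 := by
      rw [hsq] at hΓsum
      linarith
    have hFXe : FX.card = e := by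
      have : (FX.card : ℤ) = (e : ℤ) := by linarith
      exact_mod_cast this
    have hΓX : ∀ i ∈ FX, Γ i ^ 2 = 1 := by
      have h0 : ∑ i ∈ FX, (Γ i ^ 2 - 1) = 0 := by
        rw [Finset.sum_sub_distrib, hsumX]
        simp [hFXe]
      intro i hi
      have := (Finset.sum_eq_zero_iff_of_nonneg
        (fun i hi => by have := hXne i hi; linarith)).mp h0 i hi
      linarith
    have hsign : ∀ z : ℤ, z ^ 2 = 1 → z = 1 ∨ z = -1 := by
      intro z hz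
      have h := mul_eq_zero.mp (show (z - 1) * (z + 1) = 0 by linear_combination hz)
      rcases h with h | h
      · left; omega
      · right; omega
    have htγ : (FY.card : ℤ) * γ + δ = 1 ∨ (FY.card : ℤ) * γ + δ = -1 := by
      have h := mul_eq_zero.mp (show γ * ((FY.card : ℤ) * γ + 2 * δ) = 0 by
        linear_combination htail0)
      rcases h with h | h
      · rw [h]
        rcases hδ with h' | h' <;> rw [h'] <;> simp
      · have h2 : (FY.card : ℤ) * γ + δ = -δ := by linarith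
        rw [h2]
        rcases hδ with h' | h' <;> rw [h'] <;> simp
    have c1 : e ∣ p - 1 := ⟨FY.card, by rw [hpe, Nat.mul_comm]⟩
    have c2 : FB.card = e + (p - 1) / e := by rw [ht]; omega
    have c3 : B = (↑FX : Set I) ∪ (↑FY : Set I) := by
      rw [hBcoe, ← Finset.coe_union, hFX, Finset.sdiff_union_of_subset hFYB]
    have c4 : Disjoint (↑FX : Set I) (↑FY : Set I) := by
      rw [Finset.disjoint_coe]
      exact Finset.sdiff_disjoint
    have c5 : Nat.card (↑FX : Set I) = e := by rw [hcoe, hFXe]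
    have c6 : Nat.card (↑FY : Set I) = (p - 1) / e := by rw [hcoe, ht]
    have c7 : ∀ i ∈ (↑FX : Set I), (Γ i = 1 ∨ Γ i = -1) ∧ ∀ ψ, ψ ≠ one → v ψ i = Γ i := by
      intro i hi
      have hi' : i ∈ FX := Finset.mem_coe.mp hi
      exact ⟨hsign _ (hΓX i hi'), hXv i hi'⟩
    have c8 : (((p - 1) / e : ℕ) : ℤ) * γ + δ = 1 ∨ (((p - 1) / e : ℕ) : ℤ) * γ + δ = -1 := by
      rw [ht]
      exact htγ
    have c9 : ∀ ψ, ψ ≠ one → ζ' (v ψ) ∈ (↑FY : Set I) := fun ψ hψ =>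
      Finset.mem_coe.mpr (hζY ψ hψ)
    have c10 : ∀ η ∈ (↑FY : Set I), ∃ ψ, ψ ≠ one ∧ ζ' (v ψ) = η := by
      intro η hη
      have hη' : η ∈ FY := Finset.mem_coe.mp hη
      obtain ⟨ψ, hψ, h⟩ := Finset.mem_image.mp hη'
      exact ⟨ψ, (hmems ψ).mp hψ, h⟩
    have c11 : ∀ ψ, ψ ≠ one → ∀ i, v ψ i = Set.indicator (↑FX : Set I) Γ i +
        Set.indicator (↑FY : Set I) (fun _ => γ) i +
        δ * (if i = ζ' (v ψ) then 1 else 0) := by
      intro ψ hψ i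
      rw [Set.indicator_apply, Set.indicator_apply]
      by_cases hiY : i ∈ FY
      · have hiX : i ∉ FX := fun h => (Finset.mem_sdiff.mp h).2 hiY
        rw [if_neg (fun h => hiX (Finset.mem_coe.mp h)), if_pos (Finset.mem_coe.mpr hiY),
          hK1 ψ hψ i, hΓY i hiY]
        ring
      · by_cases hiB : i ∈ B
        · have hiX : i ∈ FX := by
            rw [hFX, Finset.mem_sdiff]
            exact ⟨by rw [hFB, Finset.mem_filter]; exact ⟨mem_univ _, hiB⟩, hiY⟩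
          have hne : i ≠ ζ' (v ψ) := fun h => hiY (h ▸ hζY ψ hψ)
          rw [if_pos (Finset.mem_coe.mpr hiX), if_neg (fun h => hiY (Finset.mem_coe.mp h)),
            if_neg hne, hXv i hiX ψ hψ]
          ring
        · have hiX : i ∉ FX := fun h => hiB (hXB i h)
          have hne : i ≠ ζ' (v ψ) := fun h => hiB (h ▸ hζB ψ hψ)
          rw [if_neg (fun h => hiX (Finset.mem_coe.mp h)),
            if_neg (fun h => hiY (Finset.mem_coe.mp h)), if_neg hne, hv0 ψ i hiB]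
          ring
    exact ⟨c1, c2, (↑FX : Set I), (↑FY : Set I), Γ, c3, c4, c5, c6, c7,
      Or.inl ⟨δ, γ, fun ψ => ζ' (v ψ), hδ, c8, c9, c10, c11⟩⟩
  · -- one class only
    have hall : ∀ ψ, ψ ≠ one → R ψ₀ ψ := by
      intro ψ hψ
      by_contra h
      exact hex ⟨ψ, hψ, h⟩
    have heq : ∀ ψ, ψ ≠ one → v ψ = v ψ₀ := fun ψ hψ =>
      ((hReq ψ₀ ψ hψ₀ hψ).mp (hall ψ hψ)).symm
    have hep : e = p - 1 := by
      rw [← hclassF ψ₀ hψ₀, ← hcardne]
      congr 1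
      ext ψ
      simp only [Finset.mem_filter, mem_univ, true_and]
      exact ⟨hRne ψ₀ ψ hψ₀, hall ψ⟩
    have hdiv : (p - 1) / e = 1 := by
      rw [← hep]
      exact Nat.div_self he1
    have hxB : ∀ i ∈ FB, 1 ≤ v ψ₀ i ^ 2 := by
      intro i hi
      rw [hFB, Finset.mem_filter] at hi
      obtain ⟨ψ, hψ, hne⟩ := hnv i hi.2
      rw [heq ψ hψ] at hne
      have : 0 < v ψ₀ i ^ 2 := by positivity
      omega
    have hsumB : ∑ i ∈ FB, v ψ₀ i ^ 2 = (e : ℤ) + 1 := by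
      rw [← hnorm ψ₀ hψ₀]
      have h1 : ∑ i ∈ FB, v ψ₀ i ^ 2 = ∑ i, v ψ₀ i ^ 2 := by
        refine Finset.sum_subset (Finset.subset_univ _) ?_
        intro i _ hi
        have hiB : i ∉ B := by
          intro h
          exact hi (by rw [hFB, Finset.mem_filter]; exact ⟨mem_univ _, h⟩)
        rw [hv0 ψ₀ i hiB]
        ring
      rw [h1]
      exact Finset.sum_congr rfl fun i _ => sq (v ψ₀ i)
    have hBle : (FB.card : ℤ) ≤ (e : ℤ) + 1 := by
      rw [← hsumB]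
      have : (FB.card : ℤ) = ∑ i ∈ FB, (1 : ℤ) := by simp
      rw [this]
      exact Finset.sum_le_sum hxB
    have hBle' : FB.card ≤ e + 1 := by exact_mod_cast hBle
    have hFBe : FB.card = e + 1 := by
      rw [hdiv] at hlow
      omega
    have hx1 : ∀ i ∈ FB, v ψ₀ i ^ 2 = 1 := by
      have h0 : ∑ i ∈ FB, (v ψ₀ i ^ 2 - 1) = 0 := by
        rw [Finset.sum_sub_distrib, hsumB]
        simp [hFBe]
      intro i hi
      have := (Finset.sum_eq_zero_iff_of_nonneg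
        (fun i hi => by have := hxB i hi; linarith)).mp h0 i hi
      linarith
    have hsign : ∀ z : ℤ, z ^ 2 = 1 → z = 1 ∨ z = -1 := by
      intro z hz
      have h := mul_eq_zero.mp (show (z - 1) * (z + 1) = 0 by linear_combination hz)
      rcases h with h | h
      · left; omega
      · right; omega
    obtain ⟨η₀, hη₀⟩ : FB.Nonempty := by
      rw [← Finset.card_pos, hFBe]
      omega
    have d1 : e ∣ p - 1 := by rw [hep]
    have d2 : FB.card = e + (p - 1) / e := by rw [hdiv, hFBe]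
    have d3 : B = (↑(FB.erase η₀) : Set I) ∪ {η₀} := by
      rw [hBcoe]
      ext i
      simp only [Finset.coe_erase, Set.union_singleton, Set.mem_insert_iff, Set.mem_sdiff,
        Finset.mem_coe, Set.mem_singleton_iff]
      constructor
      · intro h
        by_cases hi : i = η₀
        · exact Or.inl hi
        · exact Or.inr ⟨h, hi⟩
      · rintro (h | h)
        · rw [h]; exact hη₀
        · exact h.1
    have d4 : Disjoint (↑(FB.erase η₀) : Set I) {η₀} := by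
      rw [Set.disjoint_singleton_right]
      simp
    have d5 : Nat.card (↑(FB.erase η₀) : Set I) = e := by
      rw [hcoe, Finset.card_erase_of_mem hη₀, hFBe]
      omega
    have d6 : Nat.card (({η₀} : Set I)) = (p - 1) / e := by
      rw [hdiv]
      simp
    have d7 : ∀ i ∈ (↑(FB.erase η₀) : Set I), (v ψ₀ i = 1 ∨ v ψ₀ i = -1) ∧
        ∀ ψ, ψ ≠ one → v ψ i = v ψ₀ i := by
      intro i hi
      have hi' : i ∈ FB.erase η₀ := Finset.mem_coe.mp hi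
      have hiB : i ∈ FB := Finset.mem_of_mem_erase hi'
      exact ⟨hsign _ (hx1 i hiB), fun ψ hψ => by rw [heq ψ hψ]⟩
    exact ⟨d1, d2, (↑(FB.erase η₀) : Set I), {η₀}, v ψ₀, d3, d4, d5, d6, d7,
      Or.inr ⟨hep, η₀, rfl, hsign _ (hx1 η₀ hη₀), fun ψ hψ => by rw [heq ψ hψ]⟩⟩

end Cfsg.Agent.Lib.Helper93.DefOneComb
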