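import Mathlib
import Cfsg.Agent.Lib.Helper93.HPB1H
import Cfsg.Agent.Lib.Helper78.HypIPOS
import Cfsg.Agent.Lib.Helper47.TPTOP
import Cfsg.Agent.Lib.Helper28.EPDIMOBSA
import Cfsg.Agent.Lib.Helper31.EPSPLITW
import Cfsg.Agent.Lib.Helper53.TPINVDIM
import Cfsg.Agent.Lib.Helper43.EPBLOCKSA
import Cfsg.Agent.Lib.Helper35.EPSUBTYPE
import Cfsg.Agent.Lib.Helper53.TPFIXND
import Cfsg.Agent.Lib.Helper70.TPFXTYPE
import Cfsg.Agent.Lib.Helper21.TPPERP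
import Cfsg.Agent.Lib.Helper11.TPCANCEL
import Cfsg.Agent.Lib.Helper90.TPTYPEEVEN
import Cfsg.Agent.Lib.Helper16.TPHALFODD
import Cfsg.Agent.Lib.Helper48.TPORTHSUM
import Cfsg.Agent.Lib.Helper51.HPB1PP
import Cfsg.Agent.Lib.Helper13.HPB1MM

/-!
# S5974 / B1H (helper93): `main : B1H` without hypotheses, from the landed pieces.
-/

set_option autoImplicit false

universe u

namespace Cfsg.Agent.Lib.Helper93.HPB1HMain

theorem main : Cfsg.Agent.Lib.Helper40.HPStmt.B1H.{u} :=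
  Cfsg.Agent.Lib.Helper93.HPB1H.main_of
    Cfsg.Agent.Lib.Helper78.HypIPOS.main
    Cfsg.Agent.Lib.Helper47.TPTOP.main
    (Cfsg.Agent.Lib.Helper28.EPDIMOBSA.main Cfsg.Agent.Lib.Helper31.EPSPLITW.main
      Cfsg.Agent.Lib.Helper53.TPINVDIM.main Cfsg.Agent.Lib.Helper16.TPHALFODD.main)
    Cfsg.Agent.Lib.Helper43.EPBLOCKSA.main
    Cfsg.Agent.Lib.Helper35.EPSUBTYPE.main
    (Cfsg.Agent.Lib.Helper53.TPFIXND.main Cfsg.Agent.Lib.Helper47.TPTOP.main)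
    (Cfsg.Agent.Lib.Helper70.TPFXTYPE.main Cfsg.Agent.Lib.Helper47.TPTOP.main
      (Cfsg.Agent.Lib.Helper53.TPFIXND.main Cfsg.Agent.Lib.Helper47.TPTOP.main)
      (Cfsg.Agent.Lib.Helper21.TPPERP.main Cfsg.Agent.Lib.Helper47.TPTOP.main)
      Cfsg.Agent.Lib.Helper16.TPHALFODD.main Cfsg.Agent.Lib.Helper90.TPTYPEEVEN.main
      Cfsg.Agent.Lib.Helper11.TPCANCEL.main)
    Cfsg.Agent.Lib.Helper90.TPTYPEEVEN.main
    Cfsg.Agent.Lib.Helper16.TPHALFODD.main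
    Cfsg.Agent.Lib.Helper48.TPORTHSUM.main
    Cfsg.Agent.Lib.Helper51.HPB1PP.main
    Cfsg.Agent.Lib.Helper13.HPB1MM.main

end Cfsg.Agent.Lib.Helper93.HPB1HMain
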