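import Mathlib
import Cfsg.Agent.Lib.Helper93.AffN
import Cfsg.Agent.Lib.Helper93.LargeExtra

set_option autoImplicit false
set_option linter.unusedSimpArgs false

namespace Cfsg.Agent.Lib.Helper93.TransvN

open Matrix

theorem exists_GL_mulVec_eq_single {k : ℕ} (v : Fin (k + 1) → ZMod 2) (hv : v ≠ 0) :
    ∃ u : GL (Fin (k + 1)) (ZMod 2), u.1 *ᵥ v = Pi.single 0 1 := by
  obtain ⟨f, hf1, hf2⟩ : ∃ f : Fin (k + 1) → ZMod 2, f ⬝ᵥ v = 1 ∧
      f ⬝ᵥ (Pi.single 0 1 : Fin (k + 1) → ZMod 2) = 1 := by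
    rcases zmod2_cases (v 0) with h0 | h1
    · obtain ⟨i, hi⟩ : ∃ i, v i ≠ 0 := by
        by_contra hcon
        push Not at hcon
        exact hv (funext hcon)
      have hi1 : v i = 1 := by
        rcases zmod2_cases (v i) with h | h
        · exact absurd h hi
        · exact h
      have hi0 : i ≠ 0 := by
        rintro rfl
        exact hi h0
      refine ⟨Pi.single 0 1 + Pi.single i 1, ?_, ?_⟩
      · rw [add_dotProduct, single_one_dotProduct, single_one_dotProduct, h0, hi1, zero_add]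
      · rw [add_dotProduct, single_one_dotProduct, single_one_dotProduct, Pi.single_eq_same,
          Pi.single_eq_of_ne hi0, add_zero]
    · refine ⟨Pi.single 0 1, ?_, ?_⟩
      · rw [single_one_dotProduct, h1]
      · rw [single_one_dotProduct, Pi.single_eq_same]
  have hfw : f ⬝ᵥ (v + Pi.single 0 1) = 0 := by
    rw [dotProduct_add, hf1, hf2]
    decide
  have hNN : (1 + vecMulVec (v + Pi.single 0 1) f) * (1 + vecMulVec (v + Pi.single 0 1) f) =
      (1 : Matrix (Fin (k + 1)) (Fin (k + 1)) (ZMod 2)) := by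
    rw [mul_add, mul_one, add_mul, one_mul, vecMulVec_mul_vecMulVec, hfw, zero_smul,
      vecMulVec_zero, add_zero, add_assoc, CharTwo.add_self_eq_zero, add_zero]
  refine ⟨⟨1 + vecMulVec (v + Pi.single 0 1) f, 1 + vecMulVec (v + Pi.single 0 1) f, hNN, hNN⟩, ?_⟩
  show (1 + vecMulVec (v + Pi.single 0 1) f) *ᵥ v = _
  rw [add_mulVec, one_mulVec, vecMulVec_mulVec, hf1, MulOpposite.op_one, one_smul, ← add_assoc]
  funext j
  show v j + v j + _ = _
  rw [CharTwo.add_self_eq_zero, zero_add]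

/-- over the field with two elements, `SL = GL` -/
noncomputable def slEquivGL (n : ℕ) :
    Matrix.SpecialLinearGroup (Fin n) (ZMod 2) ≃* GL (Fin n) (ZMod 2) :=
  MulEquiv.ofBijective Matrix.SpecialLinearGroup.toGL
    ⟨fun _ _ h => Subtype.ext (congrArg Units.val h),
      fun u => ⟨⟨u.1, det_eq_one_of_mul u.1 (u⁻¹ : GL (Fin n) (ZMod 2)).1 (Units.mul_inv u)⟩,
        Units.ext rfl⟩⟩

theorem exists_equiv_pi_aux {H : Type*} [CommGroup H] [Finite H]
    [Module (ZMod 2) (Additive H)] (k : ℕ) (hcard : Nat.card H = 2 ^ k) :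
    Nonempty (H ≃* Multiplicative (Fin k → ZMod 2)) := by
  have : Finite (Additive H) := inferInstanceAs (Finite H)
  have hfin : Module.finrank (ZMod 2) (Additive H) = k := by
    have h1 := Module.natCard_eq_pow_finrank (K := ZMod 2) (V := Additive H)
    have h2 : Nat.card (Additive H) = 2 ^ k := hcard
    rw [h2, Nat.card_eq_fintype_card, ZMod.card] at h1
    exact (Nat.pow_right_injective (le_refl 2) h1).symm
  let b := Module.finBasisOfFinrankEq (ZMod 2) (Additive H) hfin
  exact ⟨AddEquiv.toMultiplicativeRight b.equivFun.toAddEquiv⟩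

theorem exists_equiv_pi {H : Type*} [Group H] [Finite H]
    (hcomm : ∀ a b : H, a * b = b * a) (hexp : ∀ a : H, a ^ 2 = 1) (k : ℕ)
    (hcard : Nat.card H = 2 ^ k) : Nonempty (H ≃* Multiplicative (Fin k → ZMod 2)) := by
  let i1 : CommGroup H := { (inferInstance : Group H) with mul_comm := hcomm }
  let i2 : Module (ZMod 2) (Additive H) := AddCommGroup.zmodModule (n := 2) (fun x => by
    show Additive.ofMul ((Additive.toMul x) ^ 2) = 0
    rw [hexp]
    rfl)
  exact @exists_equiv_pi_aux H i1 _ i2 k hcard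

theorem exists_iota {H : Type*} [Group H] [Finite H]
    (hcomm : ∀ a b : H, a * b = b * a) (hexp : ∀ a : H, a ^ 2 = 1) (k : ℕ)
    (hcard : Nat.card H = 2 ^ (k + 1)) (z : H) (hz : z ≠ 1) :
    ∃ ι : H ≃* Multiplicative (Fin (k + 1) → ZMod 2),
      ι z = Multiplicative.ofAdd (Pi.single 0 1) := by
  obtain ⟨ι₀⟩ := exists_equiv_pi hcomm hexp (k + 1) hcard
  have hv : (ι₀ z).toAdd ≠ 0 := by
    intro h
    apply hz
    apply ι₀.injective
    rw [map_one]
    exact Multiplicative.toAdd.injective h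
  obtain ⟨u, hu⟩ := exists_GL_mulVec_eq_single _ hv
  refine ⟨ι₀.trans (ofGL u), ?_⟩
  show Multiplicative.ofAdd (u.1 *ᵥ (ι₀ z).toAdd) = _
  rw [hu]

end Cfsg.Agent.Lib.Helper93.TransvN
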