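import Mathlib
import Cfsg.Agent.Lib.Helper93.Holo
import Cfsg.Agent.S5420

set_option autoImplicit false
set_option linter.unusedSimpArgs false

namespace Cfsg.Agent.Lib.Helper93.TransvN

open Matrix

section holo

variable {G : Type*} [Group G] {n : ℕ} (U : Subgroup G) [U.Normal]
  (ι : ↥U ≃* Multiplicative (Fin (n + 1) → ZMod 2))

/-- the linear action of `G` on `U`, via `ι`, as matrices -/
noncomputable def rhoMat : G →* Matrix (Fin (n + 1)) (Fin (n + 1)) (ZMod 2) :=
  autMat.comp ((MulAut.congr ι).toMonoidHom.comp MulAut.conjNormal)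

/-- the linear action of `G` on `U`, via `ι` -/
noncomputable def rho : G →* GL (Fin (n + 1)) (ZMod 2) := (rhoMat U ι).toHomUnits

theorem rho_mulVec (g : G) (u : ↥U) :
    (rho U ι g).1 *ᵥ (ι u).toAdd = (ι (MulAut.conjNormal g u)).toAdd := by
  show autMat _ *ᵥ _ = _
  rw [autMat_mulVec]
  show (ι (MulAut.conjNormal g (ι.symm (ι u)))).toAdd = _
  rw [ι.symm_apply_apply]

/-- the standard transvection -/
noncomputable def tz (n : ℕ) : Matrix.SpecialLinearGroup (Fin (n + 2)) (ZMod 2) :=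
  ⟨Matrix.transvection 0 1 1, Matrix.det_transvection_of_ne _ _ zero_ne_one' _⟩

theorem tz_coe (n : ℕ) : ((tz n : Matrix.SpecialLinearGroup (Fin (n + 2)) (ZMod 2)) :
    Matrix (Fin (n + 2)) (Fin (n + 2)) (ZMod 2)) = Matrix.transvection 0 1 1 := rfl

theorem exists_embedding (M : Subgroup G) (hc : U.IsComplement' M) :
    ∃ Φ : G →* Matrix.SpecialLinearGroup (Fin (n + 2)) (ZMod 2),
      (∀ u : ↥U, Φ u = transHom (ι u)) ∧ (∀ m : ↥M, Φ m = linHom (rho U ι m)) := by
  let e := SemidirectProduct.mulEquivSubgroup hc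
  let f₁ : ↥U →* Matrix.SpecialLinearGroup (Fin (n + 2)) (ZMod 2) := transHom.comp ι.toMonoidHom
  let f₂ : ↥M →* Matrix.SpecialLinearGroup (Fin (n + 2)) (ZMod 2) :=
    linHom.comp ((rho U ι).comp M.subtype)
  have h : ∀ m : ↥M, f₁.comp ((((U.normalizerMonoidHom).comp
      (Subgroup.inclusion (U.normalizer_eq_top ▸ le_top))) m).toMonoidHom) =
      (MulAut.conj (f₂ m)).toMonoidHom.comp f₁ := by
    intro m
    ext u : 1
    show transHom (ι _) = linHom (rho U ι m) * transHom (ι u) * (linHom (rho U ι m))⁻¹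
    rw [lin_mul_trans, mul_inv_cancel_right, rho_mulVec]
    rfl
  refine ⟨(SemidirectProduct.lift f₁ f₂ h).comp e.symm.toMonoidHom, ?_, ?_⟩
  · intro u
    have e1 : e.symm (u : G) = SemidirectProduct.inl u := by
      rw [MulEquiv.symm_apply_eq]
      simp [e]
    show SemidirectProduct.lift f₁ f₂ h (e.symm (u : G)) = _
    rw [e1, SemidirectProduct.lift_inl]
    rfl
  · intro m
    have e1 : e.symm (m : G) = SemidirectProduct.inr m := by
      rw [MulEquiv.symm_apply_eq]
      simp [e]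
    show SemidirectProduct.lift f₁ f₂ h (e.symm (m : G)) = _
    rw [e1, SemidirectProduct.lift_inr]
    rfl

end holo

section transport

variable {G H : Type*} [Group G] [Group H] (Φ : G →* H)

theorem map_centralizer_singleton (hΦ : Function.Injective Φ) (z : G)
    (hC : Subgroup.centralizer ({Φ z} : Set H) ≤ Φ.range) :
    (Subgroup.centralizer ({z} : Set G)).map Φ = Subgroup.centralizer ({Φ z} : Set H) := by
  ext y
  constructor
  · rintro ⟨g, hg, rfl⟩
    have hg' : g ∈ Subgroup.centralizer ({z} : Set G) := hg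
    rw [Subgroup.mem_centralizer_singleton_iff] at hg' ⊢
    rw [← map_mul, hg', map_mul]
  · intro hy
    obtain ⟨g, rfl⟩ := hC hy
    refine ⟨g, ?_, rfl⟩
    show g ∈ Subgroup.centralizer ({z} : Set G)
    rw [Subgroup.mem_centralizer_singleton_iff] at hy ⊢
    apply hΦ
    rw [map_mul, hy, map_mul]

theorem map_O2C (hΦ : Function.Injective Φ) (z : G)
    (hC : Subgroup.centralizer ({Φ z} : Set H) ≤ Φ.range) :
    (LargeExtra.O2C z).map Φ = LargeExtra.O2C (Φ z) := by
  have hmap := map_centralizer_singleton Φ hΦ z hC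
  let e : ↥(Subgroup.centralizer ({z} : Set G)) ≃* ↥(Subgroup.centralizer ({Φ z} : Set H)) :=
    ((Subgroup.centralizer ({z} : Set G)).equivMapOfInjective Φ hΦ).trans
      (MulEquiv.subgroupCongr hmap)
  unfold LargeExtra.O2C
  rw [← LargeExtra.pCore_map_equiv 2 e, Subgroup.map_map, Subgroup.map_map]
  congr 1

end transport

section main

variable {G : Type*} [Group G] [Finite G]

theorem holo_embedding (n : ℕ) (U M : Subgroup G) [U.Normal]
    (hU : Cfsg.IsElementaryAbelian 2 U) (hUcard : Nat.card ↥U = 2 ^ (n + 1)) (hUM : U ⊓ M = ⊥)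
    (hUM' : U ⊔ M = ⊤) (hfaith : ∀ m ∈ M, (∀ u ∈ U, m * u * m⁻¹ = u) → m = 1)
    (hfull : ∀ φ : ↥U ≃* ↥U, ∃ m ∈ M, ∀ u : ↥U, ((φ u : ↥U) : G) = m * u * m⁻¹)
    (z : G) (hzU : z ∈ U) (hz1 : z ≠ 1) :
    ∃ Φ : G →* Matrix.SpecialLinearGroup (Fin (n + 2)) (ZMod 2), Function.Injective Φ ∧
      Φ z = tz n ∧ Subgroup.centralizer ({tz n} : Set _) ≤ Φ.range := by
  have hUc := hU.1
  obtain ⟨ι, hι⟩ := exists_iota (H := ↥U) (fun a b => hUc.is_comm.comm a b)
    (fun a => Subtype.ext (hU.2 a.1 a.2)) n hUcard ⟨z, hzU⟩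
    (by intro h; exact hz1 (congrArg Subtype.val h))
  have hc : U.IsComplement' M :=
    Subgroup.isComplement'_of_disjoint_and_mul_eq_univ (disjoint_iff.mpr hUM) (by
      rw [← Subgroup.normal_mul, hUM']
      rfl)
  obtain ⟨Φ, hΦU, hΦM⟩ := exists_embedding U ι M hc
  have hdecomp : ∀ g : G, ∃ (u : ↥U) (m : ↥M), g = u * m := by
    intro g
    have hg : g ∈ ((U ⊔ M : Subgroup G) : Set G) := by
      rw [hUM']
      exact Set.mem_univ g
    rw [Subgroup.normal_mul, Set.mem_mul] at hg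
    obtain ⟨u, hu, m, hm, rfl⟩ := hg
    exact ⟨⟨u, hu⟩, ⟨m, hm⟩, rfl⟩
  have hval : ∀ (u : ↥U) (m : ↥M), (Φ ((u : G) * m)).1 = aff (rho U ι m).1 (ι u).toAdd := by
    intro u m
    rw [map_mul, hΦU, hΦM]
    exact trans_mul_lin_coe _ _
  refine ⟨Φ, ?_, ?_, ?_⟩
  · rw [injective_iff_map_eq_one]
    intro g hg
    obtain ⟨u, m, rfl⟩ := hdecomp g
    have h1 := hval u m
    rw [hg] at h1
    have h2 : aff (1 : Matrix (Fin (n + 1)) (Fin (n + 1)) (ZMod 2)) 0 =
        aff (rho U ι m).1 (ι u).toAdd := by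
      rw [aff_one]
      exact h1
    obtain ⟨h3, h4⟩ := aff_inj h2
    have hu1 : u = 1 := by
      apply ι.injective
      rw [map_one]
      exact Multiplicative.toAdd.injective h4.symm
    have hm1 : (m : G) = 1 := by
      apply hfaith m m.2
      intro u' hu'
      have h5 := rho_mulVec U ι (m : G) ⟨u', hu'⟩
      rw [← h3, one_mulVec] at h5
      have h6 := ι.injective (Multiplicative.toAdd.injective h5)
      have h7 := congrArg Subtype.val h6
      rw [MulAut.conjNormal_apply] at h7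
      exact h7.symm
    rw [hu1, hm1]
    simp
  · have h1 := hΦU ⟨z, hzU⟩
    rw [hι] at h1
    rw [show Φ z = Φ ((⟨z, hzU⟩ : ↥U) : G) from rfl, h1]
    exact transHom_single (tz_coe n)
  · intro g' hg'
    obtain ⟨u₀, x, rfl⟩ := cent_eq_aff (tz_coe n) hg'
    obtain ⟨m, hm, hmφ⟩ := hfull (ι.trans ((ofGL u₀).trans ι.symm))
    have hρ : rho U ι m = u₀ := by
      apply Units.ext
      rw [Matrix.ext_iff_mulVec]
      intro y
      have h5 := rho_mulVec U ι m (ι.symm (Multiplicative.ofAdd y))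
      rw [ι.apply_symm_apply] at h5
      have h6 : MulAut.conjNormal m (ι.symm (Multiplicative.ofAdd y)) =
          (ι.trans ((ofGL u₀).trans ι.symm)) (ι.symm (Multiplicative.ofAdd y)) := by
        apply Subtype.ext
        rw [MulAut.conjNormal_apply, hmφ]
      rw [h6] at h5
      have h7 : ι ((ι.trans ((ofGL u₀).trans ι.symm)) (ι.symm (Multiplicative.ofAdd y))) =
          Multiplicative.ofAdd (u₀.1 *ᵥ y) := by
        show ι (ι.symm (ofGL u₀ (ι (ι.symm (Multiplicative.ofAdd y))))) = _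
        rw [ι.apply_symm_apply, ι.apply_symm_apply]
        rfl
      rw [h7] at h5
      exact h5
    refine ⟨(ι.symm x : G) * m, ?_⟩
    rw [map_mul, hΦU, ι.apply_symm_apply, hΦM ⟨m, hm⟩, hρ]

theorem holo_main (n : ℕ) (hn : 1 ≤ n) (U M : Subgroup G) [U.Normal]
    (hU : Cfsg.IsElementaryAbelian 2 U) (hUcard : Nat.card ↥U = 2 ^ (n + 1)) (hUM : U ⊓ M = ⊥)
    (hUM' : U ⊔ M = ⊤) (hfaith : ∀ m ∈ M, (∀ u ∈ U, m * u * m⁻¹ = u) → m = 1)
    (hfull : ∀ φ : ↥U ≃* ↥U, ∃ m ∈ M, ∀ u : ↥U, ((φ u : ↥U) : G) = m * u * m⁻¹)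
    (z : G) (hzU : z ∈ U) (hz1 : z ≠ 1) :
    Cfsg.IsExtraspecial 2 ↥(LargeExtra.O2C z) ∧ Nat.card ↥(LargeExtra.O2C z) = 2 ^ (2 * n + 1) ∧
      (∃ E : Subgroup G, E ≤ LargeExtra.O2C z ∧ Cfsg.IsElementaryAbelian 2 E ∧
        Nat.card ↥E = 2 ^ (n + 1)) ∧
      Cfsg.IsLargeExtraspecial (LargeExtra.O2C z) ∧
      ∃ K : Subgroup G, K ≤ Subgroup.centralizer ({z} : Set G) ∧ LargeExtra.O2C z ⊓ K = ⊥ ∧
        LargeExtra.O2C z ⊔ K = Subgroup.centralizer ({z} : Set G) ∧
        Nonempty (↥K ≃* Matrix.GeneralLinearGroup (Fin n) (ZMod 2)) := by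
  have : Fact (Nat.Prime 2) := ⟨Nat.prime_two⟩
  obtain ⟨Φ, hΦ, hΦz, hC'⟩ := holo_embedding n U M hU hUcard hUM hUM' hfaith hfull z hzU hz1
  have htz := tz_coe n
  have hC : Subgroup.centralizer ({Φ z} : Set _) ≤ Φ.range := by
    rw [hΦz]
    exact hC'
  have hQmap : (LargeExtra.O2C z).map Φ = (heis (n := n)).range := by
    rw [map_O2C Φ hΦ z hC, hΦz]
    exact pCore_eq htz
  have hCmap := map_centralizer_singleton Φ hΦ z hC
  rw [hΦz] at hCmap
  let eQ : ↥(LargeExtra.O2C z) ≃* ↥(heis (n := n)).range :=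
    ((LargeExtra.O2C z).equivMapOfInjective Φ hΦ).trans (MulEquiv.subgroupCongr hQmap)
  have hQmem : ∀ g : G, g ∈ LargeExtra.O2C z ↔ Φ g ∈ (heis (n := n)).range := by
    intro g
    rw [← hQmap]
    exact (Subgroup.mem_map_iff_mem hΦ).symm
  have hXS : Cfsg.IsExtraspecial 2 ↥(LargeExtra.O2C z) :=
    Cfsg.Agent.Lib.Helper90.FStarES.isExtraspecial_of_mulEquiv eQ.symm (extraspecial_range hn)
  have hcard : Nat.card ↥(LargeExtra.O2C z) = 2 ^ (2 * n + 1) := by
    rw [Nat.card_congr eQ.toEquiv, card_range]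
  have hQC : LargeExtra.O2C z ≤ Subgroup.centralizer ({z} : Set G) :=
    LargeExtra.O2C_le_centralizer z
  have hUc := hU.1
  have hUC : U ≤ Subgroup.centralizer ({z} : Set G) := by
    intro u hu
    rw [Subgroup.mem_centralizer_singleton_iff]
    exact congrArg Subtype.val (hUc.is_comm.comm (⟨u, hu⟩ : ↥U) ⟨z, hzU⟩)
  have hU2 : IsPGroup 2 ↥U := IsPGroup.of_card hUcard
  have hUQ : U ≤ LargeExtra.O2C z := by
    intro u hu
    have h1 : U.subgroupOf (Subgroup.centralizer ({z} : Set G)) ≤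
        Cfsg.pCore 2 ↥(Subgroup.centralizer ({z} : Set G)) :=
      Cfsg.Agent.Lib.Helper50.Cores.le_pCore 2 _ inferInstance hU2.comap_subtype
    exact ⟨⟨u, hUC hu⟩, h1 (Subgroup.mem_subgroupOf.mpr hu), rfl⟩
  have hzQ : z ∈ LargeExtra.O2C z := hUQ hzU
  have hcomm1 : ∀ x : G, (∀ q ∈ LargeExtra.O2C z, x * q = q * x) → x = 1 ∨ x = z := by
    intro x hx
    have h1 := cent_range htz (Φ x) (by
      intro q' hq'
      rw [← hQmap] at hq'
      obtain ⟨q, hq, rfl⟩ := hq'
      rw [← map_mul, hx q hq, map_mul])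
    rcases h1 with h | h
    · left
      apply hΦ
      rw [h, map_one]
    · right
      apply hΦ
      rw [h, hΦz]
  have hcen : ∀ x : G, x ∈ (Subgroup.center ↥(LargeExtra.O2C z)).map (LargeExtra.O2C z).subtype ↔
      x = 1 ∨ x = z := by
    intro x
    constructor
    · rintro ⟨⟨q, hq⟩, hc, rfl⟩
      apply hcomm1
      intro q' hq'
      have h1 := Subgroup.mem_center_iff.mp hc ⟨q', hq'⟩
      exact (congrArg Subtype.val h1).symm
    · rintro (h | h)
      · rw [h]
        exact Subgroup.one_mem _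
      · rw [h]
        refine ⟨⟨z, hzQ⟩, Subgroup.mem_center_iff.mpr ?_, rfl⟩
        rintro ⟨q, hq⟩
        apply Subtype.ext
        exact Subgroup.mem_centralizer_singleton_iff.mp (hQC hq)
  have hL2 : Subgroup.centralizer ((LargeExtra.O2C z : Subgroup G) : Set G) =
      (Subgroup.center ↥(LargeExtra.O2C z)).map (LargeExtra.O2C z).subtype := by
    ext x
    rw [hcen, Subgroup.mem_centralizer_iff]
    constructor
    · intro h
      apply hcomm1
      intro q hq
      exact (h q hq).symm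
    · rintro (h | h) q hq
      · rw [h]
        simp
      · rw [h]
        exact Subgroup.mem_centralizer_singleton_iff.mp (hQC hq)
  have hL3 : Subgroup.centralizer
      ((((Subgroup.center ↥(LargeExtra.O2C z)).map (LargeExtra.O2C z).subtype : Subgroup G)) :
        Set G) ≤ Subgroup.normalizer ((LargeExtra.O2C z : Subgroup G) : Set G) := by
    intro g hg
    have hgz : g ∈ Subgroup.centralizer ({z} : Set G) := by
      rw [Subgroup.mem_centralizer_singleton_iff]
      exact (Subgroup.mem_centralizer_iff.mp hg z ((hcen z).mpr (Or.inr rfl))).symm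
    have hΦg : Φ g ∈ Subgroup.centralizer ({tz n} : Set _) := by
      rw [← hCmap]
      exact ⟨g, hgz, rfl⟩
    have hN := cent_le_normalizer_range htz hΦg
    rw [Subgroup.mem_normalizer_iff] at hN ⊢
    intro q
    rw [hQmem, hQmem, map_mul, map_mul, map_inv]
    exact hN (Φ q)
  have hZ : (Subgroup.center ↥(LargeExtra.O2C z)).map (LargeExtra.O2C z).subtype ≤
      Cfsg.pCore 2 G := by
    intro x hx
    have hUp : U ≤ Cfsg.pCore 2 G :=
      Cfsg.Agent.Lib.Helper50.Cores.le_pCore 2 U inferInstance hU2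
    rcases (hcen x).mp hx with h | h
    · rw [h]
      exact Subgroup.one_mem _
    · rw [h]
      exact hUp hzU
  have hLarge := Cfsg.Agent.S5420.result (LargeExtra.O2C z) hXS hL2 hL3 hZ
  have hr1 : (heis (n := n)).range ≤ Φ.range := (range_le_cent htz).trans hC'
  have hr2 : (diagSL (n := n)).range ≤ Φ.range := (diag_le_cent htz).trans hC'
  refine ⟨hXS, hcard, ⟨U, hUQ, hU, hUcard⟩, hLarge, (diagSL (n := n)).range.comap Φ,
    ?_, ?_, ?_, ?_⟩
  · intro g hg
    have h1 : Φ g ∈ Subgroup.centralizer ({tz n} : Set _) := diag_le_cent htz hg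
    rw [← hCmap] at h1
    exact (Subgroup.mem_map_iff_mem hΦ).mp h1
  · rw [eq_bot_iff]
    intro g hg
    have h1 : Φ g ∈ (heis (n := n)).range ⊓ (diagSL (n := n)).range :=
      ⟨(hQmem g).mp hg.1, hg.2⟩
    rw [range_inf_diag, Subgroup.mem_bot] at h1
    rw [Subgroup.mem_bot]
    apply hΦ
    rw [h1, map_one]
  · have h1 : LargeExtra.O2C z = (heis (n := n)).range.comap Φ := by
      ext g
      exact hQmem g
    have h2 : Subgroup.centralizer ({z} : Set G) =
        (Subgroup.centralizer ({tz n} : Set _)).comap Φ := by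
      rw [← hCmap, Subgroup.comap_map_eq_self_of_injective hΦ]
    rw [h1, h2, Subgroup.comap_sup_eq_of_le_range Φ hr1 hr2, range_sup_diag htz]
  · have hKmap : ((diagSL (n := n)).range.comap Φ).map Φ = (diagSL (n := n)).range :=
      Subgroup.map_comap_eq_self hr2
    exact ⟨(((diagSL (n := n)).range.comap Φ).equivMapOfInjective Φ hΦ).trans
      ((MulEquiv.subgroupCongr hKmap).trans
        ((MonoidHom.ofInjective diagSL_injective).symm.trans (slEquivGL n)))⟩

end main

end Cfsg.Agent.Lib.Helper93.TransvN
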