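import Mathlib
import Cfsg.Agent.Lib.Helper27.JzStmt
import Cfsg.Agent.Lib.Helper23.OzFSTAR

/-!
S5403/CK: in the situation `Ctx`, an element of the centraliser of `t` commuting with all of `K`
lies in the kernel of `φ`.
-/

set_option autoImplicit false

namespace Cfsg.Agent.Lib.Helper93.JzCK

open Cfsg Cfsg.Agent.Lib.Helper27.OzStmt Cfsg.Agent.Lib.Helper27.JzStmt
  Cfsg.Agent.Lib.Helper23.OzFSTAR
open scoped commutatorElement

theorem main : OFacts → Cfsg.Agent.Lib.Helper27.JzStmt.CK := by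
  intro hOF A _ _ t n K φ hctx hw c hc
  obtain ⟨_, _, hsimp, hnc⟩ := hOF
  obtain ⟨g, hgt, k, hk, k', hk', hne⟩ := hw
  -- the centraliser of `K` inside the centraliser of `t`
  have hDn : ((Subgroup.centralizer (K : Set A)).subgroupOf
      (Subgroup.centralizer ({t} : Set A))).Normal := by
    constructor
    intro d hd h
    rw [Subgroup.mem_subgroupOf, Subgroup.mem_centralizer_iff] at hd ⊢
    intro y hy
    have hh : t * (h : A) = (h : A) * t :=
      Subgroup.mem_centralizer_iff.mp h.2 t (Set.mem_singleton t)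
    have hinv : (h : A)⁻¹ * t = t * (h : A)⁻¹ := by
      calc (h : A)⁻¹ * t = (h : A)⁻¹ * (t * (h : A)) * (h : A)⁻¹ := by group
        _ = (h : A)⁻¹ * ((h : A) * t) * (h : A)⁻¹ := by rw [hh]
        _ = t * (h : A)⁻¹ := by group
    have hy' : (h : A)⁻¹ * y * ((h : A)⁻¹)⁻¹ ∈ K := hctx.K_normal _ hinv y hy
    have hd' := hd _ hy'
    show y * ((h : A) * (d : A) * (h : A)⁻¹) = (h : A) * (d : A) * (h : A)⁻¹ * y
    calc y * ((h : A) * (d : A) * (h : A)⁻¹)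
        = (h : A) * (((h : A)⁻¹ * y * ((h : A)⁻¹)⁻¹) * (d : A)) * (h : A)⁻¹ := by group
      _ = (h : A) * ((d : A) * ((h : A)⁻¹ * y * ((h : A)⁻¹)⁻¹)) * (h : A)⁻¹ := by rw [hd']
      _ = (h : A) * (d : A) * (h : A)⁻¹ * y := by group
  have hsimpQ : IsSimpleGroup (↥(Subgroup.centralizer ({t} : Set A)) ⧸ φ.ker) := by
    have h1 : IsSimpleGroup ↥φ.range := by
      rw [hctx.range]
      exact hsimp
    exact (QuotientGroup.quotientKerEquivRange φ).isSimpleGroup_congr.2 h1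
  have hcD : c ∈ (Subgroup.centralizer (K : Set A)).subgroupOf
      (Subgroup.centralizer ({t} : Set A)) := by
    rw [Subgroup.mem_subgroupOf, Subgroup.mem_centralizer_iff]
    intro y hy
    exact (hc y hy).symm
  rcases normal_le_or_cover φ.ker _ hDn with h | h
  · exact MonoidHom.mem_ker.mp (h hcD)
  · exfalso
    have hgT : g ∈ Subgroup.centralizer ({t} : Set A) := by
      rw [Subgroup.mem_centralizer_iff]
      intro y hy
      rw [Set.mem_singleton_iff.mp hy]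
      exact hgt.symm
    obtain ⟨z, hz, hzg⟩ := h ⟨g, hgT⟩
    rw [Subgroup.mem_subgroupOf, Subgroup.mem_centralizer_iff] at hz
    have hker := (hctx.ker (z⁻¹ * ⟨g, hgT⟩)).mp (MonoidHom.mem_ker.mp hzg)
    have hcoe : ((z⁻¹ * ⟨g, hgT⟩ : ↥(Subgroup.centralizer ({t} : Set A))) : A) =
        (z : A)⁻¹ * g := rfl
    rw [hcoe] at hker
    have hwt : ((z : A)⁻¹ * g) * t = t * ((z : A)⁻¹ * g) := by
      have h1 := Subgroup.mem_centralizer_iff.mp (z⁻¹ * ⟨g, hgT⟩).2 t (Set.mem_singleton t)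
      rw [hcoe] at h1
      exact h1.symm
    apply hne
    have hcomm : g * k * g⁻¹ * k⁻¹ = ((z : A)⁻¹ * g) * k * ((z : A)⁻¹ * g)⁻¹ * k⁻¹ := by
      have h1 := hz (((z : A)⁻¹ * g) * k * ((z : A)⁻¹ * g)⁻¹) (hctx.K_normal _ hwt k hk)
      calc g * k * g⁻¹ * k⁻¹
          = (z : A) * (((z : A)⁻¹ * g) * k * ((z : A)⁻¹ * g)⁻¹) * (z : A)⁻¹ * k⁻¹ := by group
        _ = (((z : A)⁻¹ * g) * k * ((z : A)⁻¹ * g)⁻¹) * (z : A) * (z : A)⁻¹ * k⁻¹ := by rw [h1]
        _ = ((z : A)⁻¹ * g) * k * ((z : A)⁻¹ * g)⁻¹ * k⁻¹ := by group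
    -- an element `w'` of `K` with the same commutator
    obtain ⟨w', hw'K, hw'⟩ : ∃ w' ∈ K, w' * k * w'⁻¹ * k⁻¹ =
        ((z : A)⁻¹ * g) * k * ((z : A)⁻¹ * g)⁻¹ * k⁻¹ := by
      rcases hker with h1 | h1
      · exact ⟨_, h1, rfl⟩
      · refine ⟨_, h1, ?_⟩
        have hn : ∀ y : A, y * n = n * y := by
          have hnc : n ∈ Subgroup.center A := (hctx.center n).mpr (Or.inr rfl)
          exact fun y => Subgroup.mem_center_iff.mp hnc y
        have h2 := hn (((z : A)⁻¹ * g) * k * ((z : A)⁻¹ * g)⁻¹)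
        calc (n * ((z : A)⁻¹ * g)) * k * (n * ((z : A)⁻¹ * g))⁻¹ * k⁻¹
            = n * (((z : A)⁻¹ * g) * k * ((z : A)⁻¹ * g)⁻¹) * n⁻¹ * k⁻¹ := by group
          _ = (((z : A)⁻¹ * g) * k * ((z : A)⁻¹ * g)⁻¹) * n * n⁻¹ * k⁻¹ := by rw [h2]
          _ = ((z : A)⁻¹ * g) * k * ((z : A)⁻¹ * g)⁻¹ * k⁻¹ := by group
    rw [hcomm, ← hw']
    have hmem : ⁅(⟨w', hw'K⟩ : K), ⟨k, hk⟩⁆ ∈ Subgroup.center K := by
      rw [← hctx.xs.1.2.2]
      exact Subgroup.commutator_mem_commutator (Subgroup.mem_top _) (Subgroup.mem_top _)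
    have h3 := Subgroup.mem_center_iff.1 hmem ⟨k', hk'⟩
    have h4 := congrArg Subtype.val h3
    simp only [Subgroup.coe_mul, commutatorElement_def, Subgroup.coe_inv] at h4
    exact h4.symm

end Cfsg.Agent.Lib.Helper93.JzCK
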