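import Mathlib
import Cfsg.Agent.Lib.Helper27.JzStmt
import Cfsg.Agent.Lib.Helper23.OzFSTAR

/-!
S5403/FSTAR2: a finite group with a normal extraspecial 2-subgroup `Q`, with quotient the
alternating group of degree five, in which some commutator of an element of the group with an
element of `Q` is not central in `Q`, has generalized Fitting subgroup `Q`, and `Q` contains
its centraliser.
-/

set_option autoImplicit false

namespace Cfsg.Agent.Lib.Helper93.JzFSTAR2

open Cfsg Cfsg.Agent.Lib.Helper27.OzStmt Cfsg.Agent.Lib.Helper27.JzStmt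
  Cfsg.Agent.Lib.Helper23.OzFSTAR
open scoped commutatorElement

/-- the alternating group of degree five is not commutative -/
theorem a5_not_comm : ¬ ∀ a b : A5, a * b = b * a := by
  intro h
  have hσ : (Equiv.swap (0 : Fin 5) 1 * Equiv.swap 1 2) ∈ alternatingGroup (Fin 5) := by
    rw [Equiv.Perm.mem_alternatingGroup, Equiv.Perm.sign_mul, Equiv.Perm.sign_swap (by decide),
      Equiv.Perm.sign_swap (by decide)]
    rfl
  have hτ : (Equiv.swap (0 : Fin 5) 1 * Equiv.swap 1 3) ∈ alternatingGroup (Fin 5) := by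
    rw [Equiv.Perm.mem_alternatingGroup, Equiv.Perm.sign_mul, Equiv.Perm.sign_swap (by decide),
      Equiv.Perm.sign_swap (by decide)]
    rfl
  have h1 := h ⟨_, hσ⟩ ⟨_, hτ⟩
  have h2 : ((Equiv.swap (0 : Fin 5) 1 * Equiv.swap 1 2) *
      (Equiv.swap (0 : Fin 5) 1 * Equiv.swap 1 3) : Equiv.Perm (Fin 5)) 0 =
      ((Equiv.swap (0 : Fin 5) 1 * Equiv.swap 1 3) *
      (Equiv.swap (0 : Fin 5) 1 * Equiv.swap 1 2) : Equiv.Perm (Fin 5)) 0 :=
    congrArg (fun f : A5 => (f : Equiv.Perm (Fin 5)) 0) h1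
  revert h2
  decide

/-- the general statement, for a simple non-commutative quotient -/
theorem fstar_general {X : Type} [Group X] (hsimp : IsSimpleGroup X)
    (hnc : ¬ ∀ a b : X, a * b = b * a) (C : Type) [Group C] [Finite C] (Q : Subgroup C)
    [Q.Normal] (hQ : IsExtraspecial 2 ↥Q) (e : C ⧸ Q ≃* X)
    (hw : ∃ g : C, ∃ k ∈ Q, ∃ k' ∈ Q, (g * k * g⁻¹ * k⁻¹) * k' ≠ k' * (g * k * g⁻¹ * k⁻¹)) :
    Cfsg.generalizedFittingSubgroup C = Q ∧ Subgroup.centralizer (Q : Set C) ≤ Q := by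
  obtain ⟨g, k, hk, k', hk', hne⟩ := hw
  have : Fact (Nat.Prime 2) := ⟨Nat.prime_two⟩
  have hsimpQ : IsSimpleGroup (C ⧸ Q) := e.isSimpleGroup_congr.2 hsimp
  have hncQ : ¬ ∀ a b : C ⧸ Q, a * b = b * a := by
    intro h
    apply hnc
    intro a b
    have h1 := h (e.symm a) (e.symm b)
    have h2 := congrArg e h1
    simpa using h2
  have hQp : IsPGroup 2 Q := hQ.1.1
  have hQle : Q ≤ Cfsg.pCore 2 C := Cfsg.Agent.Lib.Helper78.Fitting.le_pCore inferInstance hQp
  have hPn : (Cfsg.pCore 2 C).Normal := Cfsg.Agent.Lib.Helper78.Fitting.pCore_normal 2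
  have hPp : IsPGroup 2 (Cfsg.pCore 2 C) := Cfsg.Agent.Lib.Helper78.Fitting.pCore_isPGroup 2
  have hPQ : Cfsg.pCore 2 C ≤ Q := by
    rcases normal_le_or_cover Q (Cfsg.pCore 2 C) hPn with h | h
    · exact h
    · exfalso
      apply not_isPGroup_of_simple hncQ 2
      intro x
      obtain ⟨y, rfl⟩ := QuotientGroup.mk_surjective x
      obtain ⟨z, hz, hzy⟩ := h y
      obtain ⟨n, hn⟩ := hPp ⟨z, hz⟩
      refine ⟨n, ?_⟩
      have e1 : (QuotientGroup.mk y : C ⧸ Q) = QuotientGroup.mk z := (QuotientGroup.eq.2 hzy).symm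
      rw [e1, ← QuotientGroup.mk_pow]
      have h1 : z ^ 2 ^ n = 1 := by
        have h2 := congrArg Subtype.val hn
        simpa using h2
      rw [h1]
      rfl
  have hPeq : Cfsg.pCore 2 C = Q := le_antisymm hPQ hQle
  have hZQ : Subgroup.centralizer (Q : Set C) ≤ Q := by
    rcases normal_le_or_cover Q (Subgroup.centralizer (Q : Set C)) inferInstance with h | h
    · exact h
    · exfalso
      obtain ⟨z, hz, hzg⟩ := h g
      apply hne
      have hzc : ∀ w ∈ Q, w * z = z * w := fun w hw => Subgroup.mem_centralizer_iff.1 hz w hw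
      have hcomm : g * k * g⁻¹ * k⁻¹ = (z⁻¹ * g) * k * (z⁻¹ * g)⁻¹ * k⁻¹ := by
        have h1 := hzc ((z⁻¹ * g) * k * (z⁻¹ * g)⁻¹) (Q.mul_mem (Q.mul_mem hzg hk) (Q.inv_mem hzg))
        calc g * k * g⁻¹ * k⁻¹ = z * ((z⁻¹ * g) * k * (z⁻¹ * g)⁻¹) * z⁻¹ * k⁻¹ := by group
          _ = ((z⁻¹ * g) * k * (z⁻¹ * g)⁻¹) * z * z⁻¹ * k⁻¹ := by rw [← h1]
          _ = (z⁻¹ * g) * k * (z⁻¹ * g)⁻¹ * k⁻¹ := by group
      rw [hcomm]
      have hmem : ⁅(⟨z⁻¹ * g, hzg⟩ : Q), ⟨k, hk⟩⁆ ∈ Subgroup.center Q := by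
        rw [← hQ.1.2.2]
        exact Subgroup.commutator_mem_commutator (Subgroup.mem_top _) (Subgroup.mem_top _)
      have h3 := Subgroup.mem_center_iff.1 hmem ⟨k', hk'⟩
      have h4 := congrArg Subtype.val h3
      simp only [Subgroup.coe_mul, commutatorElement_def, Subgroup.coe_inv] at h4
      exact h4.symm
  refine ⟨(Cfsg.Agent.Lib.Helper48.CharPGfs.gfs_eq_pCore_of_centralizer_le 2 ?_).trans hPeq, hZQ⟩
  rw [hPeq]
  exact hZQ

theorem main : Cfsg.Agent.Lib.Helper27.JzStmt.FStar2 := by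
  intro C _ _ Q _ hQ ⟨e⟩ hw
  exact fstar_general alternatingGroup.isSimpleGroup_five a5_not_comm C Q hQ e hw

end Cfsg.Agent.Lib.Helper93.JzFSTAR2
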