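import Mathlib
import Cfsg.Agent.Lib.Helper27.JzStmt

/-!
S5403 piece GLOC2: the centraliser of `t` in the centraliser of `a` maps onto the alternating
group of degree five with kernel the product of the centraliser of `a` in `K` and the subgroup
generated by `a` and the centre.
-/

set_option autoImplicit false

namespace Cfsg.Agent.Lib.Helper93.JzGLOC2

open Cfsg Cfsg.Agent.Lib.Helper27.OzStmt Cfsg.Agent.Lib.Helper27.JzStmt
open scoped Pointwise

section

variable {G : Type} [Group G]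

lemma mem_cent_single {a g : G} : g ∈ Subgroup.centralizer ({a} : Set G) ↔ g * a = a * g := by
  rw [Subgroup.mem_centralizer_iff]
  constructor
  · intro h
    exact (h a (Set.mem_singleton a)).symm
  · intro h y hy
    rw [Set.mem_singleton_iff.mp hy]
    exact h.symm

/-- the centraliser of `t` -/
abbrev Tt (t : G) : Subgroup G := Subgroup.centralizer ({t} : Set G)

/-- the centraliser of `t` in the centraliser of `a` -/
abbrev Dd (a t : G) (ha : t * a = a * t) : Subgroup ↥(MA a) :=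
  Subgroup.centralizer ({toMA a t ha} : Set ↥(MA a))

/-- the image of the centraliser of `a` in the centraliser of `t` -/
abbrev Yy (a t : G) (φ : ↥(Tt t) →* O8) : Subgroup O8 :=
  ((Subgroup.centralizer ({a} : Set G)).subgroupOf (Tt t)).map φ

variable (a t : G) (ha : t * a = a * t)

lemma coe_comm_a (h : ↥(MA a)) : (h : G) * a = a * (h : G) :=
  (Subgroup.mem_centralizer_iff.mp h.2 a (Subgroup.mem_zpowers a)).symm

lemma coe_mem_T (h : ↥(Dd a t ha)) : ((h : ↥(MA a)) : G) ∈ Tt t := by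
  rw [mem_cent_single]
  have h1 := mem_cent_single.mp h.2
  exact congrArg Subtype.val h1

/-- the inclusion -/
def iota : ↥(Dd a t ha) →* ↥(Tt t) :=
  ((MA a).subtype.comp (Dd a t ha).subtype).codRestrict (Tt t) (coe_mem_T a t ha)

lemma iota_coe (h : ↥(Dd a t ha)) : ((iota a t ha h : ↥(Tt t)) : G) = ((h : ↥(MA a)) : G) :=
  rfl

lemma mem_Yy_of (φ : ↥(Tt t) →* O8) (x : ↥(Tt t)) (hx : (x : G) * a = a * (x : G)) :
    φ x ∈ Yy a t φ :=
  Subgroup.mem_map_of_mem φ (by rw [Subgroup.mem_subgroupOf]; exact mem_cent_single.mpr hx)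

lemma exists_of_mem_Yy (φ : ↥(Tt t) →* O8) {g : O8} (hg : g ∈ Yy a t φ) :
    ∃ x : ↥(Tt t), (x : G) * a = a * (x : G) ∧ φ x = g := by
  obtain ⟨x, hx, rfl⟩ := Subgroup.mem_map.mp hg
  exact ⟨x, mem_cent_single.mp (Subgroup.mem_subgroupOf.mp hx), rfl⟩

/-- the restriction of `φ` -/
def phiD (φ : ↥(Tt t) →* O8) : ↥(Dd a t ha) →* ↥(Yy a t φ) :=
  (φ.comp (iota a t ha)).codRestrict (Yy a t φ)
    (fun h => mem_Yy_of a t φ _ (coe_comm_a a h.1))

lemma phiD_coe (φ : ↥(Tt t) →* O8) (h : ↥(Dd a t ha)) :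
    ((phiD a t ha φ h : ↥(Yy a t φ)) : O8) = φ (iota a t ha h) := rfl

lemma phiD_surj (φ : ↥(Tt t) →* O8) : Function.Surjective (phiD a t ha φ) := by
  intro y
  obtain ⟨x, hxa, hxy⟩ := exists_of_mem_Yy a t φ y.2
  have hxt : (x : G) * t = t * (x : G) := mem_cent_single.mp x.2
  refine ⟨⟨⟨(x : G), mem_MA hxa⟩, ?_⟩, ?_⟩
  · rw [mem_cent_single]
    exact Subtype.ext hxt
  · apply Subtype.ext
    rw [phiD_coe, ← hxy]
    rfl

end

/-- the kernel condition -/
theorem ker_iff {G : Type} [Group G] (t n a : G) (K : Subgroup G)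
    (φ : ↥(Subgroup.centralizer ({t} : Set G)) →* O8) (ha : t * a = a * t)
    (hctx : Ctx G t n K φ) (aT : ↥(Tt t)) (haT : (aT : G) = a) (h : ↥(Dd a t ha)) :
    φ (iota a t ha h) ∈ Subgroup.zpowers (φ aT) ↔
      ∃ q ∈ QA a K, ∃ z ∈ ZA a, (h : ↥(MA a)) = q * z := by
  have hnc : n ∈ Subgroup.center G := (hctx.center n).mpr (Or.inr rfl)
  have hn : ∀ y : G, y * n = n * y := fun y => Subgroup.mem_center_iff.mp hnc y
  have hnn : n * n = 1 := by
    rcases (hctx.center (n * n)).mp (Subgroup.mul_mem _ hnc hnc) with h1 | h1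
    · exact h1
    · exfalso
      apply hctx.n_ne
      have h2 := congrArg (fun x => n⁻¹ * x) h1
      simpa using h2
  have hha : ((h : ↥(MA a)) : G) * a = a * ((h : ↥(MA a)) : G) := coe_comm_a a h.1
  have hcoe : ∀ k : ℤ, ((iota a t ha h * aT ^ (-k) : ↥(Tt t)) : G) =
      ((h : ↥(MA a)) : G) * a ^ (-k) := by
    intro k
    rw [Subgroup.coe_mul, Subgroup.coe_zpow, haT]
    rfl
  have hzc : ∀ k : ℤ, a ^ k * a = a * a ^ k := fun k =>
    ((Commute.refl a).zpow_left k).eq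
  constructor
  · intro hmem
    obtain ⟨k, hk⟩ := Subgroup.mem_zpowers_iff.mp hmem
    have hone : φ (iota a t ha h * aT ^ (-k)) = 1 := by
      rw [map_mul, map_zpow, ← hk, zpow_neg, mul_inv_cancel]
    have hker := (hctx.ker _).mp hone
    rw [hcoe] at hker
    have hwa : (((h : ↥(MA a)) : G) * a ^ (-k)) * a = a * (((h : ↥(MA a)) : G) * a ^ (-k)) := by
      rw [mul_assoc, hzc, ← mul_assoc, hha, mul_assoc]
    rcases hker with h1 | h1
    · refine ⟨⟨_, mem_MA hwa⟩, ?_, ⟨a ^ k, mem_MA (hzc k)⟩, ?_, ?_⟩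
      · rw [Subgroup.mem_subgroupOf]
        exact ⟨h1, mem_cent_single.mpr hwa⟩
      · rw [Subgroup.mem_subgroupOf]
        exact (le_sup_left : Subgroup.zpowers a ≤ _) (Subgroup.zpow_mem_zpowers a k)
      · apply Subtype.ext
        show ((h : ↥(MA a)) : G) = ((h : ↥(MA a)) : G) * a ^ (-k) * a ^ k
        rw [zpow_neg, inv_mul_cancel_right]
    · have hwa' : (n * (((h : ↥(MA a)) : G) * a ^ (-k))) * a =
          a * (n * (((h : ↥(MA a)) : G) * a ^ (-k))) := by
        rw [mul_assoc, hwa, ← mul_assoc, ← hn a, mul_assoc]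
      have hza : (n⁻¹ * a ^ k) * a = a * (n⁻¹ * a ^ k) := by
        have hn' : a * n⁻¹ = n⁻¹ * a := by
          have := hn a
          calc a * n⁻¹ = n⁻¹ * (n * a) * n⁻¹ := by group
            _ = n⁻¹ * (a * n) * n⁻¹ := by rw [this]
            _ = n⁻¹ * a := by group
        rw [mul_assoc, hzc, ← mul_assoc, ← hn', mul_assoc]
      refine ⟨⟨_, mem_MA hwa'⟩, ?_, ⟨n⁻¹ * a ^ k, mem_MA hza⟩, ?_, ?_⟩
      · rw [Subgroup.mem_subgroupOf]
        exact ⟨h1, mem_cent_single.mpr hwa'⟩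
      · rw [Subgroup.mem_subgroupOf]
        exact Subgroup.mul_mem _
          ((le_sup_right : Subgroup.center G ≤ _) (Subgroup.inv_mem _ hnc))
          ((le_sup_left : Subgroup.zpowers a ≤ _) (Subgroup.zpow_mem_zpowers a k))
      · apply Subtype.ext
        show ((h : ↥(MA a)) : G) =
          n * (((h : ↥(MA a)) : G) * a ^ (-k)) * (n⁻¹ * a ^ k)
        have e1 := hn (((h : ↥(MA a)) : G) * a ^ (-k))
        rw [← e1, zpow_neg]
        group
  · rintro ⟨q, hq, z, hz, hqz⟩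
    rw [Subgroup.mem_subgroupOf] at hq hz
    obtain ⟨hqK, -⟩ := hq
    have hz' : (z : G) ∈ ((Subgroup.zpowers a : Subgroup G) : Set G) *
        ((Subgroup.center G : Subgroup G) : Set G) := by
      rw [← Subgroup.mul_normal]
      exact hz
    obtain ⟨y, hy, c, hc, hyc⟩ := Set.mem_mul.mp hz'
    obtain ⟨k, rfl⟩ := Subgroup.mem_zpowers_iff.mp hy
    have hc' : c ∈ Subgroup.center G := hc
    have hcc : ∀ x : G, x * c = c * x := fun x => Subgroup.mem_center_iff.mp hc' x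
    have hG : ((h : ↥(MA a)) : G) = (q : G) * (a ^ k * c) := by
      have := congrArg Subtype.val hqz
      rw [hyc]
      exact this
    have hw : ((h : ↥(MA a)) : G) * a ^ (-k) = (q : G) * c := by
      rw [hG, hcc (a ^ k), zpow_neg]
      group
    have hone : φ (iota a t ha h * aT ^ (-k)) = 1 := by
      apply (hctx.ker _).mpr
      rw [hcoe, hw]
      rcases (hctx.center c).mp hc' with h1 | h1
      · left
        rw [h1, mul_one]
        exact hqK
      · right
        rw [h1, hn (q : G), ← mul_assoc, hnn, one_mul]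
        exact hqK
    rw [map_mul, map_zpow, zpow_neg] at hone
    rw [Subgroup.mem_zpowers_iff]
    exact ⟨k, (mul_inv_eq_one.mp hone).symm⟩

theorem main : A5M → GLoc2 := by
  intro hA5M G _ _ t n a K φ ha hJ
  obtain ⟨aT, haT, ham⟩ := hJ.am
  obtain ⟨xT, hxa, hxm⟩ := hJ.xm
  obtain ⟨yT, hya, hym⟩ := hJ.ym
  have hmY : φ aT ∈ Yy a t φ := mem_Yy_of a t φ aT (by rw [haT])
  have hxY : φ xT ∈ Yy a t φ := mem_Yy_of a t φ xT hxa
  have hyY : φ yT ∈ Yy a t φ := mem_Yy_of a t φ yT hya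
  have hcomm : ∀ g ∈ Yy a t φ, g * φ aT = φ aT * g := by
    intro g hg
    obtain ⟨x, hxa', rfl⟩ := exists_of_mem_Yy a t φ hg
    rw [← map_mul, ← map_mul]
    congr 1
    apply Subtype.ext
    rw [Subgroup.coe_mul, Subgroup.coe_mul, haT]
    exact hxa'
  obtain ⟨N, hNn, hN, ⟨e⟩⟩ := hA5M (Yy a t φ) (φ aT) (φ xT) (φ yT) ham hxm hym hmY hxY hyY hcomm
  refine ⟨e.toMonoidHom.comp ((QuotientGroup.mk' N).comp (phiD a t ha φ)), ?_, ?_⟩
  · intro y
    obtain ⟨u, hu⟩ := QuotientGroup.mk'_surjective N (e.symm y)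
    obtain ⟨h, hh⟩ := phiD_surj a t ha φ u
    refine ⟨h, ?_⟩
    show e (QuotientGroup.mk' N (phiD a t ha φ h)) = y
    rw [hh, hu, MulEquiv.apply_symm_apply]
  · intro h
    have h1 : (e.toMonoidHom.comp ((QuotientGroup.mk' N).comp (phiD a t ha φ))) h = 1 ↔
        phiD a t ha φ h ∈ N := by
      show e (QuotientGroup.mk' N (phiD a t ha φ h)) = 1 ↔ _
      rw [MulEquiv.map_eq_one_iff, QuotientGroup.mk'_apply, QuotientGroup.eq_one_iff]
    rw [h1, hN, phiD_coe]
    exact ker_iff t n a K φ ha hJ.ctx aT haT h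

end Cfsg.Agent.Lib.Helper93.JzGLOC2
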