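import Mathlib
import Cfsg.Agent.Lib.Helper27.JzStmt
import Cfsg.Agent.Lib.Helper90.FStarES

/-!
S5403 piece SQ: the image of the involution in the quotient by the central subgroup `Z0` has
order two; the image of `Q` is a normal extraspecial subgroup of order `2 ^ 5` of its
centraliser.
-/

set_option autoImplicit false

namespace Cfsg.Agent.Lib.Helper93.JzSQ

open Cfsg Cfsg.Agent.Lib.Helper27.JzStmt

section

variable {M : Type} [Group M] {Z0 : Subgroup M} [Z0.Normal] {t : M} {Q : Subgroup M}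

theorem mem_Qb_iff (q : ↥(Cb M Z0 t)) :
    q ∈ Qb M Z0 t Q ↔ (q : M ⧸ Z0) ∈ Q.map (QuotientGroup.mk' Z0) := by
  unfold Qb
  rw [Subgroup.mem_subgroupOf]

theorem mem_Cb_iff (c : SCtx M Z0 t Q) (g : M) :
    QuotientGroup.mk' Z0 g ∈ Cb M Z0 t ↔ g * t = t * g := by
  rw [Subgroup.mem_centralizer_iff]
  constructor
  · intro h
    have h1 : QuotientGroup.mk' Z0 t * QuotientGroup.mk' Z0 g =
        QuotientGroup.mk' Z0 g * QuotientGroup.mk' Z0 t := h (zb M Z0 t) (Set.mem_singleton _)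
    apply c.nofus
    have h2 : QuotientGroup.mk' Z0 (g * t * g⁻¹ * t⁻¹) = 1 := by
      rw [map_mul, map_mul, map_mul, map_inv, map_inv, ← h1, mul_inv_cancel_right,
        mul_inv_cancel]
    exact (QuotientGroup.eq_one_iff _).mp h2
  · intro h y hy
    rw [Set.mem_singleton_iff.mp hy]
    show QuotientGroup.mk' Z0 t * QuotientGroup.mk' Z0 g =
      QuotientGroup.mk' Z0 g * QuotientGroup.mk' Z0 t
    rw [← map_mul, ← map_mul, h]

theorem eq_of_mk_eq_of_mem (c : SCtx M Z0 t Q) (k k' : M) (hk : k ∈ Q) (hk' : k' ∈ Q)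
    (h : QuotientGroup.mk' Z0 k = QuotientGroup.mk' Z0 k') : k = k' := by
  have h1 : k⁻¹ * k' ∈ Z0 := QuotientGroup.eq.mp h
  have h2 := c.Q_meet _ (Q.mul_mem (Q.inv_mem hk) hk') h1
  exact inv_mul_eq_one.mp h2

end

theorem main : SQ := by
  intro M _ _ Z0 _ t Q c
  have hf2 : Fact (Nat.Prime 2) := ⟨Nat.prime_two⟩
  refine ⟨?_, ?_, ?_⟩
  · -- order of the image of `t`
    apply orderOf_eq_prime
    · show (QuotientGroup.mk' Z0 t) ^ 2 = 1
      rw [← map_pow, pow_two, c.t_sq, map_one]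
    · intro h
      have h1 : QuotientGroup.mk' Z0 t = 1 := h
      exact c.t_nmem ((QuotientGroup.eq_one_iff t).mp h1)
  · -- normality
    constructor
    intro q hq g
    rw [mem_Qb_iff] at hq ⊢
    obtain ⟨k, hk, hkq⟩ := Subgroup.mem_map.mp hq
    obtain ⟨g₀, hg₀⟩ := QuotientGroup.mk'_surjective Z0 (g : M ⧸ Z0)
    have hg₀t : g₀ * t = t * g₀ := (mem_Cb_iff c g₀).mp (by rw [hg₀]; exact g.2)
    refine Subgroup.mem_map.mpr ⟨g₀ * k * g₀⁻¹, c.Q_norm g₀ hg₀t k hk, ?_⟩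
    rw [map_mul, map_mul, map_inv, hg₀, hkq]
    rfl
  · -- the isomorphism with `Q`
    have h1 : ∀ k : Q, (QuotientGroup.mk' Z0).comp Q.subtype k ∈ Cb M Z0 t :=
      fun k => (mem_Cb_iff c k).mpr (c.Q_comm k k.2)
    have h2 : ∀ k : Q, (((QuotientGroup.mk' Z0).comp Q.subtype).codRestrict
        (Cb M Z0 t) h1) k ∈ Qb M Z0 t Q := by
      intro k
      rw [mem_Qb_iff]
      exact Subgroup.mem_map_of_mem _ k.2
    obtain ⟨f, hf⟩ : ∃ f : Q →* ↥(Qb M Z0 t Q), ∀ k : Q,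
        (((f k : ↥(Qb M Z0 t Q)) : ↥(Cb M Z0 t)) : M ⧸ Z0) =
          QuotientGroup.mk' Z0 (k : M) :=
      ⟨(((QuotientGroup.mk' Z0).comp Q.subtype).codRestrict
        (Cb M Z0 t) h1).codRestrict (Qb M Z0 t Q) h2, fun k => rfl⟩
    have hinj : Function.Injective f := by
      intro k k' h
      have h3 : QuotientGroup.mk' Z0 (k : M) = QuotientGroup.mk' Z0 (k' : M) := by
        rw [← hf, ← hf, h]
      exact Subtype.ext (eq_of_mk_eq_of_mem c _ _ k.2 k'.2 h3)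
    have hsurj : Function.Surjective f := by
      intro q
      have hq : ((q : ↥(Cb M Z0 t)) : M ⧸ Z0) ∈ Q.map (QuotientGroup.mk' Z0) :=
        (mem_Qb_iff _).mp q.2
      obtain ⟨k, hk, hkq⟩ := Subgroup.mem_map.mp hq
      refine ⟨⟨k, hk⟩, ?_⟩
      apply Subtype.ext
      apply Subtype.ext
      rw [hf]
      exact hkq
    have e : Q ≃* ↥(Qb M Z0 t Q) := MulEquiv.ofBijective f ⟨hinj, hsurj⟩
    refine ⟨Cfsg.Agent.Lib.Helper90.FStarES.isExtraspecial_of_mulEquiv e c.xs, ?_⟩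
    rw [← Nat.card_congr e.toEquiv, c.card_Q]

end Cfsg.Agent.Lib.Helper93.JzSQ
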