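import Mathlib
import Cfsg.Agent.Lib.Helper21.Comp
import Cfsg.Agent.Lib.Helper21.Layer
import Cfsg.Agent.Lib.Helper21.MinNormal
import Cfsg.Agent.Lib.Helper90.FStarES
import Cfsg.Agent.Lib.Helper63.PFrattini
import Cfsg.Agent.Lib.Helper47.Frat
import Cfsg.Agent.Lib.Helper48.CharPSub
import Cfsg.Agent.Lib.Helper48.CharPGfs
import Cfsg.Agent.Lib.Helper30.NoComp
import Cfsg.Agent.Lib.Helper78.Fitting
import Cfsg.Agent.Lib.Helper71.Fitting
import Cfsg.Agent.Lib.Helper29.Basic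
import Cfsg.Agent.Lib.Helper90.Basic

set_option autoImplicit false
set_option linter.unusedSectionVars false

namespace Cfsg.Agent.Lib.Helper93.LEClosure

open Subgroup
open scoped commutatorElement
open Cfsg.Agent.Lib.Helper90.FStarES

universe u

variable {G : Type u} [Group G] [Finite G] {Q : Subgroup G} {z : G}

/-- conjugate subgroup -/
abbrev cj (g : G) (L : Subgroup G) : Subgroup G := L.map (MulAut.conj g).toMonoidHom

theorem conj_mem_cj {g x : G} {L : Subgroup G} (h : x ∈ L) : g * x * g⁻¹ ∈ cj g L := ⟨x, h, rfl⟩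

theorem inv_comm' {x y : G} (h : x * y = y * x) : x⁻¹ * y = y * x⁻¹ :=
  (Commute.inv_left (show Commute x y from h)).eq

theorem setup_of_large (hQ : Cfsg.IsLargeExtraspecial Q)
    (hz : (Subgroup.center ↥Q).map Q.subtype = Subgroup.zpowers z) : Setup z Q := by
  obtain ⟨hes, hcent, hnorm, -⟩ := hQ
  have hzc : z ∈ (Subgroup.center ↥Q).map Q.subtype := by
    rw [hz]
    exact Subgroup.mem_zpowers z
  have hzQ : z ∈ Q := by
    obtain ⟨y, -, rfl⟩ := hzc
    exact y.2
  have hcard : Nat.card (Subgroup.zpowers z) = 2 := by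
    rw [← hz, Subgroup.card_map_of_injective Q.subtype_injective]
    exact hes.2
  refine ⟨?_, hzQ, ?_, hes, ?_, ?_⟩
  · rw [← Nat.card_zpowers]
    exact hcard
  · intro q hq
    obtain ⟨y, hy, hyz⟩ := hzc
    have h1 := Subgroup.mem_center_iff.mp hy ⟨q, hq⟩
    have h2 := congrArg Subtype.val h1
    rw [← hyz]
    exact h2
  · intro h hhz q hq
    have hh : h ∈ Subgroup.normalizer (Q : Set G) := by
      apply hnorm
      rw [hz, Subgroup.mem_centralizer_iff]
      intro y hy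
      obtain ⟨k, rfl⟩ := Subgroup.mem_zpowers_iff.mp hy
      exact (Commute.zpow_left (show Commute z h from hhz.symm) k).eq
    exact (Subgroup.mem_normalizer_iff.mp hh q).mp hq
  · intro c _ hc
    have h1 : c ∈ Subgroup.centralizer (Q : Set G) := by
      rw [Subgroup.mem_centralizer_iff]
      intro q hq
      exact (hc q hq).symm
    rw [hcent] at h1
    obtain ⟨y, -, rfl⟩ := h1
    exact y.2

theorem sq_cases (hS : Setup z Q) {a : G} (ha : a ∈ Q) : a * a = 1 ∨ a * a = z := by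
  have : Fact (Nat.Prime 2) := ⟨Nat.prime_two⟩
  have h1 := Cfsg.Agent.Lib.Helper63.PFrattini.pow_mem_frattini (p := 2) hS.es.1.1 (⟨a, ha⟩ : ↥Q)
  rw [hS.es.1.2.1] at h1
  apply hS.center_cases
  refine ⟨(⟨a, ha⟩ : ↥Q) ^ 2, h1, ?_⟩
  simp [pow_two]

theorem comm_cases (hS : Setup z Q) {a b : G} (ha : a ∈ Q) (hb : b ∈ Q) :
    a * b * a⁻¹ * b⁻¹ = 1 ∨ a * b * a⁻¹ * b⁻¹ = z := by
  have : Fact (Nat.Prime 2) := ⟨Nat.prime_two⟩
  have h1 := Cfsg.Agent.Lib.Helper63.PFrattini.comm_mem_frattini (p := 2) hS.es.1.1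
    (⟨a, ha⟩ : ↥Q) ⟨b, hb⟩
  rw [hS.es.1.2.1] at h1
  apply hS.center_cases
  exact ⟨_, h1, rfl⟩

theorem pCore_odd_eq_bot (hQ : Cfsg.IsLargeExtraspecial Q) (q : ℕ) (hq : q.Prime) (hq2 : q ≠ 2) :
    Cfsg.pCore q G = ⊥ := by
  have : Fact q.Prime := ⟨hq⟩
  have hn : (Cfsg.pCore q G).Normal := Cfsg.Agent.Lib.Helper90.Basic.pCore_normal q
  apply hQ.2.2.2
  · obtain ⟨k, hk⟩ := IsPGroup.iff_card.mp (Cfsg.Agent.Lib.Helper90.Basic.pCore_isPGroup (G := G) q)
    rw [hk]
    exact (hq.odd_of_ne_two hq2).pow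
  · rw [Subgroup.normalizer_eq_top]
    exact le_top

theorem z_mem_of_normal (hS : Setup z Q) (hQ : Cfsg.IsLargeExtraspecial Q) (N : Subgroup G)
    [N.Normal] (hN : N ≠ ⊥) : z ∈ N := by
  by_contra h
  exact hN (hS.eq_bot_of_not_mem hQ N h)

theorem not_component_centralizes (hS : Setup z Q) {L : Subgroup G} (hL : Cfsg.IsComponent L)
    (hc : ∀ x ∈ L, x * z = z * x) : False := by
  have : Fact (Nat.Prime 2) := ⟨Nat.prime_two⟩
  have hQ2 : IsPGroup 2 ↥Q := hS.es.1.1
  have hnil : Group.IsNilpotent ↥Q := hQ2.isNilpotent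
  have hsolv : Group.IsSolvable ↥Q := inferInstance
  have hnorm : L ≤ normalizer (Q : Set G) := by
    intro x hx
    rw [mem_normalizer_iff]
    intro q
    constructor
    · intro hq
      exact hS.norm x (hc x hx) q hq
    · intro hq
      have h1 := hS.norm x⁻¹ (inv_comm' (hc x hx)) _ hq
      simpa [mul_assoc] using h1
  have h1 := Cfsg.Agent.Lib.Helper21.Comp.component_commutator_solvable L Q hL hsolv hnorm
  have hLQ : L ≤ Q := by
    intro x hx
    have hx2 : ∀ q ∈ Q, x * q = q * x := by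
      intro q hq
      have h2 : ⁅x, q⁆ ∈ ⁅L, Q⁆ := commutator_mem_commutator hx hq
      rw [h1, mem_bot] at h2
      exact commutatorElement_eq_one_iff_mul_comm.mp h2
    rcases hS.eq_of_centralizes hx2 with h | h
    · rw [h]
      exact Q.one_mem
    · rw [h]
      exact hS.zQ
  have hLs : Group.IsSolvable ↥L :=
    Group.isSolvable_of_isSolvable_injective (f := Subgroup.inclusion hLQ)
      (Subgroup.inclusion_injective hLQ)
  exact Cfsg.Agent.Lib.Helper21.Quasi.not_isSolvable hL.2 hLs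

theorem caseA (hS : Setup z Q) (hQ : Cfsg.IsLargeExtraspecial Q) (hO : Cfsg.pCore 2 G ≠ ⊥) :
    IsMulCommutative ↥(Subgroup.normalClosure ({z} : Set G)) ∧
      Cfsg.generalizedFittingSubgroup G = Cfsg.pCore 2 G := by
  have : Fact (Nat.Prime 2) := ⟨Nat.prime_two⟩
  have hRn : (Cfsg.pCore 2 G).Normal := Cfsg.Agent.Lib.Helper90.Basic.pCore_normal 2
  have hR2 : IsPGroup 2 ↥(Cfsg.pCore 2 G) := Cfsg.Agent.Lib.Helper90.Basic.pCore_isPGroup 2
  have hZn : (Cfsg.pCore 2 G ⊓ centralizer (Cfsg.pCore 2 G : Set G)).Normal := inferInstance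
  have hZne : Cfsg.pCore 2 G ⊓ centralizer (Cfsg.pCore 2 G : Set G) ≠ ⊥ :=
    Cfsg.Agent.Lib.Helper71.Fitting.inf_centralizer_ne_bot _ _ hR2.isNilpotent le_rfl hO
      le_normalizer
  have hzZ : z ∈ Cfsg.pCore 2 G ⊓ centralizer (Cfsg.pCore 2 G : Set G) :=
    z_mem_of_normal hS hQ _ hZne
  have hM : normalClosure ({z} : Set G) ≤
      Cfsg.pCore 2 G ⊓ centralizer (Cfsg.pCore 2 G : Set G) :=
    normalClosure_le_normal (Set.singleton_subset_iff.mpr hzZ)
  refine ⟨⟨⟨fun a b => ?_⟩⟩, ?_⟩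
  · apply Subtype.ext
    have ha := hM a.2
    have hb := hM b.2
    exact mem_centralizer_iff.mp hb.2 a ha.1
  · rw [Cfsg.Agent.Lib.Helper48.CharPGfs.gfs_eq_pCore_iff 2]
    apply Cfsg.Agent.Lib.Helper30.NoComp.centralizer_pCore_le 2
    · intro K hK
      have hsolv : Group.IsSolvable ↥(Cfsg.pCore 2 G) := by
        have := hR2.isNilpotent
        infer_instance
      have h1 := Cfsg.Agent.Lib.Helper21.Comp.component_commutator_solvable K (Cfsg.pCore 2 G) hK
        hsolv (by rw [Subgroup.normalizer_eq_top]; exact le_top)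
      apply not_component_centralizes hS hK
      intro x hx
      have h2 : ⁅x, z⁆ ∈ ⁅K, Cfsg.pCore 2 G⁆ := commutator_mem_commutator hx hzZ.1
      rw [h1, mem_bot] at h2
      exact commutatorElement_eq_one_iff_mul_comm.mp h2
    · intro q hq hq2
      exact pCore_odd_eq_bot hQ q hq hq2

end Cfsg.Agent.Lib.Helper93.LEClosure
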