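import Mathlib
import Cfsg.Agent.Lib.Helper93.LEClosure

set_option autoImplicit false
set_option linter.unusedSectionVars false

namespace Cfsg.Agent.Lib.Helper93.LEClosure

open Subgroup
open scoped commutatorElement
open Cfsg.Agent.Lib.Helper90.FStarES

universe u

variable {G : Type u} [Group G] [Finite G] {Q : Subgroup G} {z : G}

theorem cj_mul (g h : G) (L : Subgroup G) : cj (g * h) L = cj g (cj h L) := by
  ext x
  constructor
  · rintro ⟨y, hy, rfl⟩
    refine ⟨h * y * h⁻¹, ⟨y, hy, rfl⟩, ?_⟩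
    simp [mul_assoc]
  · rintro ⟨_, ⟨y, hy, rfl⟩, rfl⟩
    refine ⟨y, hy, ?_⟩
    simp [mul_assoc]

theorem split_unique {L : Subgroup G} (hLZ : L ⊓ centralizer (L : Set G) = ⊥) {a a' b b' : G}
    (ha : a ∈ L) (ha' : a' ∈ L) (hb : b ∈ centralizer (L : Set G))
    (hb' : b' ∈ centralizer (L : Set G)) (h : a * b = a' * b') : a = a' := by
  have h1 : a'⁻¹ * a = b' * b⁻¹ := by
    calc a'⁻¹ * a = a'⁻¹ * (a * b) * b⁻¹ := by group
      _ = a'⁻¹ * (a' * b') * b⁻¹ := by rw [h]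
      _ = b' * b⁻¹ := by group
  have h2 : a'⁻¹ * a ∈ L ⊓ centralizer (L : Set G) :=
    ⟨L.mul_mem (L.inv_mem ha') ha, h1 ▸ (centralizer _).mul_mem hb' ((centralizer _).inv_mem hb)⟩
  rw [hLZ, mem_bot] at h2
  exact (inv_mul_eq_one.mp h2).symm

theorem cj_le_centralizer {L : Subgroup G} (hL : Cfsg.IsComponent L) {g : G} (hg : cj g L ≠ L) :
    cj g L ≤ centralizer (L : Set G) := by
  have h1 := Cfsg.Agent.Lib.Helper21.Comp.components_commute (cj g L) L
    (Cfsg.Agent.Lib.Helper29.Basic.isComponent_map_conj hL g) hL hg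
  rwa [commutator_eq_bot_iff_le_centralizer] at h1

theorem component_le_closure (hS : Setup z Q) {K : Subgroup G} (hK : Cfsg.IsComponent K) :
    K ≤ normalClosure ({z} : Set G) := by
  rcases Cfsg.Agent.Lib.Helper21.Comp.component_normal_cases K (normalClosure ({z} : Set G)) hK
    normalClosure_normal with h | h
  · exact h
  · exfalso
    apply not_component_centralizes hS hK
    intro x hx
    have h2 : ⁅x, z⁆ ∈ ⁅K, normalClosure ({z} : Set G)⁆ :=
      commutator_mem_commutator hx (subset_normalClosure (Set.mem_singleton z))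
    rw [h, mem_bot] at h2
    exact commutatorElement_eq_one_iff_mul_comm.mp h2

theorem exists_split (hS : Setup z Q) (hQ : Cfsg.IsLargeExtraspecial Q) {L : Subgroup G}
    (hL : Cfsg.IsComponent L) : ∃ z₁ ∈ L, ∃ d ∈ centralizer (L : Set G), z = z₁ * d := by
  have hn := Cfsg.Agent.Lib.Helper21.Layer.layer_normal G
  have hne : Cfsg.layer G ≠ ⊥ := by
    intro h
    have h1 := Cfsg.Agent.Lib.Helper21.Layer.le_layer hL
    rw [h] at h1
    exact Cfsg.Agent.Lib.Helper21.Comp.ne_bot_of_quasisimple hL.2 (le_bot_iff.mp h1)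
  have hz := z_mem_of_normal hS hQ (Cfsg.layer G) hne
  have hle : Cfsg.layer G ≤ L ⊔ centralizer (L : Set G) := by
    apply sSup_le
    intro K hK
    by_cases hKL : K = L
    · rw [hKL]
      exact le_sup_left
    · have h1 := Cfsg.Agent.Lib.Helper21.Comp.components_commute K L hK hL hKL
      rw [commutator_eq_bot_iff_le_centralizer] at h1
      exact h1.trans le_sup_right
  exact Cfsg.Agent.Lib.Helper21.Layer.mem_sup_of_commute
    (fun a ha t ht => mem_centralizer_iff.mp ht a ha) (hle hz)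

/-- the data of a centre-free component and the decomposition of `z` -/
structure Dat (Q : Subgroup G) (z : G) (L : Subgroup G) (z₁ d : G) : Prop where
  hS : Setup z Q
  hQ : Cfsg.IsLargeExtraspecial Q
  hL : Cfsg.IsComponent L
  hLZ : L ⊓ centralizer (L : Set G) = ⊥
  hz₁ : z₁ ∈ L
  hd : d ∈ centralizer (L : Set G)
  hzd : z = z₁ * d

namespace Dat

variable {L : Subgroup G} {z₁ d : G} (D : Dat Q z L z₁ d)

include D

theorem comm_LC {a b : G} (ha : a ∈ L) (hb : b ∈ centralizer (L : Set G)) : a * b = b * a :=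
  mem_centralizer_iff.mp hb a ha

theorem z1_d : z₁ * d = d * z₁ := D.comm_LC D.hz₁ D.hd

theorem eq_one_of_mul {a b : G} (ha : a ∈ L) (hb : b ∈ centralizer (L : Set G))
    (h : a * b = 1) : a = 1 :=
  split_unique D.hLZ ha L.one_mem hb (centralizer _).one_mem (by rw [h, one_mul])

theorem eq_z1_of_mul {a b : G} (ha : a ∈ L) (hb : b ∈ centralizer (L : Set G))
    (h : a * b = z) : a = z₁ :=
  split_unique D.hLZ ha D.hz₁ hb D.hd (by rw [h, D.hzd])

theorem cases {a b : G} (ha : a ∈ L) (hb : b ∈ centralizer (L : Set G))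
    (h : a * b = 1 ∨ a * b = z) : a = 1 ∨ a = z₁ :=
  h.imp (D.eq_one_of_mul ha hb) (D.eq_z1_of_mul ha hb)

theorem z1_sq : z₁ * z₁ = 1 := by
  have h1 : (z₁ * z₁) * (d * d) = 1 := by
    have h2 : z * z = 1 := D.hS.zz
    rw [D.hzd] at h2
    calc (z₁ * z₁) * (d * d) = z₁ * (z₁ * d) * d := by group
      _ = z₁ * (d * z₁) * d := by rw [D.z1_d]
      _ = z₁ * d * (z₁ * d) := by group
      _ = 1 := h2
  exact D.eq_one_of_mul (L.mul_mem D.hz₁ D.hz₁) ((centralizer _).mul_mem D.hd D.hd) h1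

theorem z1_inv : z₁⁻¹ = z₁ := inv_eq_of_mul_eq_one_right D.z1_sq

theorem z1_ne : z₁ ≠ 1 := by
  intro h
  apply not_component_centralizes D.hS D.hL
  intro x hx
  rw [D.hzd, h, one_mul]
  exact D.comm_LC hx D.hd

theorem comm_iff {x : G} (hx : x ∈ L) : x * z = z * x ↔ x * z₁ = z₁ * x := by
  have hxd : x * d = d * x := D.comm_LC hx D.hd
  rw [D.hzd]
  constructor
  · intro h
    have h2 : x * z₁ * d = z₁ * x * d := by
      calc x * z₁ * d = x * (z₁ * d) := by group
        _ = z₁ * d * x := h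
        _ = z₁ * (d * x) := by group
        _ = z₁ * (x * d) := by rw [hxd]
        _ = z₁ * x * d := by group
    exact mul_right_cancel h2
  · intro h
    calc x * (z₁ * d) = x * z₁ * d := by group
      _ = z₁ * x * d := by rw [h]
      _ = z₁ * (x * d) := by group
      _ = z₁ * (d * x) := by rw [hxd]
      _ = z₁ * d * x := by group

theorem z1_comm_z : z₁ * z = z * z₁ := (D.comm_iff D.hz₁).mpr rfl

/-- the commutator-type element lies in `Q` -/
theorem c_mem {u : G} (hu : u ∈ Q) {x : G} (hxz : x * z = z * x) :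
    x⁻¹ * (u * x * u⁻¹) ∈ Q := by
  have h1 := D.hS.norm x⁻¹ (inv_comm' hxz) u hu
  rw [inv_inv] at h1
  have e : x⁻¹ * (u * x * u⁻¹) = x⁻¹ * u * x * u⁻¹ := by group
  rw [e]
  exact Q.mul_mem h1 (Q.inv_mem hu)

/-- `Q` moves a non-normal component -/
theorem exists_moving (hLn : ¬ L.Normal) : ∃ u ∈ Q, cj u L ≠ L := by
  have : Fact (Nat.Prime 2) := ⟨Nat.prime_two⟩
  by_contra hcon
  push Not at hcon
  obtain ⟨g, hg⟩ : ∃ g : G, cj g L ≠ L := by
    by_contra h
    push Not at h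
    apply hLn
    refine ⟨fun n hn g => ?_⟩
    have h1 := conj_mem_cj (g := g) hn
    rwa [h g] at h1
  have hzL : z ∉ L := by
    intro hz
    apply not_component_centralizes D.hS (Cfsg.Agent.Lib.Helper29.Basic.isComponent_map_conj D.hL g)
    intro x hx
    exact (mem_centralizer_iff.mp (cj_le_centralizer D.hL hg hx) z hz).symm
  have hconj : ∀ q ∈ Q, ∀ x ∈ L, q * x * q⁻¹ ∈ L := by
    intro q hq x hx
    have h1 := conj_mem_cj (g := q) hx
    rwa [hcon q hq] at h1
  have hQL : Q ⊓ L = ⊥ := by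
    by_contra hne
    have hnil : Group.IsNilpotent ↥Q := D.hS.es.1.1.isNilpotent
    have hnorm : Q ≤ normalizer ((Q ⊓ L : Subgroup G) : Set G) := by
      intro q hq
      rw [mem_normalizer_iff]
      intro x
      constructor
      · rintro ⟨hxQ, hxL⟩
        exact ⟨Q.mul_mem (Q.mul_mem hq hxQ) (Q.inv_mem hq), hconj q hq x hxL⟩
      · rintro ⟨hxQ, hxL⟩
        have e : x = q⁻¹ * (q * x * q⁻¹) * q⁻¹⁻¹ := by group
        rw [e]
        exact ⟨Q.mul_mem (Q.mul_mem (Q.inv_mem hq) hxQ) (Q.inv_mem (Q.inv_mem hq)),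
          hconj q⁻¹ (Q.inv_mem hq) _ hxL⟩
    have h2 := Cfsg.Agent.Lib.Helper71.Fitting.inf_centralizer_ne_bot Q (Q ⊓ L) hnil inf_le_left
      hne hnorm
    apply h2
    rw [eq_bot_iff]
    rintro x ⟨⟨-, hxL⟩, hxC⟩
    rw [mem_bot]
    rcases D.hS.eq_of_centralizes (fun q hq => (mem_centralizer_iff.mp hxC q hq).symm) with h | h
    · exact h
    · rw [h] at hxL
      exact absurd hxL hzL
  have hC : ∀ x ∈ L, x * z = z * x → x = 1 := by
    intro x hx hxz
    have hxQ : ∀ q ∈ Q, x * q = q * x := by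
      intro q hq
      have h3 : x * q * x⁻¹ * q⁻¹ ∈ Q ⊓ L := by
        refine ⟨Q.mul_mem (D.hS.norm x hxz q hq) (Q.inv_mem hq), ?_⟩
        have e : x * q * x⁻¹ * q⁻¹ = x * (q * x⁻¹ * q⁻¹) := by group
        rw [e]
        exact L.mul_mem hx (hconj q hq _ (L.inv_mem hx))
      rw [hQL, mem_bot] at h3
      have h4 := congrArg (fun t => t * q * x) h3
      simpa [mul_assoc] using h4
    rcases D.hS.eq_of_centralizes hxQ with h | h
    · exact h
    · rw [h] at hx
      exact absurd hx hzL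
  exact D.z1_ne (hC z₁ D.hz₁ D.z1_comm_z)


theorem conj_mem_cent {u : G} (hmv : cj u L ≠ L) {x : G} (hx : x ∈ L) :
    u * x * u⁻¹ ∈ centralizer (L : Set G) :=
  cj_le_centralizer D.hL hmv (conj_mem_cj hx)

theorem sq_cases' {u : G} (hu : u ∈ Q) (hmv : cj u L ≠ L) {x : G} (hx : x ∈ L)
    (hxz : x * z = z * x) : x * x = 1 ∨ x * x = z₁ := by
  have hc := D.c_mem hu hxz
  have hy := D.conj_mem_cent hmv hx
  have hcomm : x⁻¹ * (u * x * u⁻¹) = (u * x * u⁻¹) * x⁻¹ := D.comm_LC (L.inv_mem hx) hy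
  have e : (x⁻¹ * (u * x * u⁻¹)) * (x⁻¹ * (u * x * u⁻¹)) =
      (x⁻¹ * x⁻¹) * ((u * x * u⁻¹) * (u * x * u⁻¹)) := by
    calc (x⁻¹ * (u * x * u⁻¹)) * (x⁻¹ * (u * x * u⁻¹))
        = x⁻¹ * ((u * x * u⁻¹) * x⁻¹) * (u * x * u⁻¹) := by group
      _ = x⁻¹ * (x⁻¹ * (u * x * u⁻¹)) * (u * x * u⁻¹) := by rw [← hcomm]
      _ = (x⁻¹ * x⁻¹) * ((u * x * u⁻¹) * (u * x * u⁻¹)) := by group
  have h1 := sq_cases D.hS hc
  rw [e] at h1
  rcases D.cases (L.mul_mem (L.inv_mem hx) (L.inv_mem hx)) ((centralizer _).mul_mem hy hy) h1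
    with h | h
  · left
    have h2 : (x * x)⁻¹ = 1 := by
      rw [mul_inv_rev]
      exact h
    exact inv_eq_one.mp h2
  · right
    have h2 : (x * x)⁻¹ = z₁ := by
      rw [mul_inv_rev]
      exact h
    rw [← D.z1_inv, ← h2, inv_inv]

theorem pow_four {u : G} (hu : u ∈ Q) (hmv : cj u L ≠ L) {x : G} (hx : x ∈ L)
    (hxz : x * z = z * x) : x ^ 4 = 1 := by
  have e : x ^ 4 = (x * x) * (x * x) := by
    rw [show (4 : ℕ) = 2 + 2 from rfl, pow_add, pow_two]
  rw [e]
  rcases D.sq_cases' hu hmv hx hxz with h | h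
  · rw [h, one_mul]
  · rw [h, D.z1_sq]

theorem isPGroup_cent {u : G} (hu : u ∈ Q) (hmv : cj u L ≠ L) :
    IsPGroup 2 ↥(L ⊓ centralizer ({z₁} : Set G)) := by
  rintro ⟨x, hxL, hxC⟩
  refine ⟨2, Subtype.ext ?_⟩
  have hxz : x * z = z * x := (D.comm_iff hxL).mpr (mem_centralizer_singleton_iff.mp hxC)
  exact D.pow_four hu hmv hxL hxz

theorem isSylIn_cent {u : G} (hu : u ∈ Q) (hmv : cj u L ≠ L) :
    Cfsg.Agent.Lib.Helper33.Conj.IsSylIn 2 (L ⊓ centralizer ({z₁} : Set G)) L := by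
  have : Fact (Nat.Prime 2) := ⟨Nat.prime_two⟩
  have hQ2 : IsPGroup 2 ↥Q := D.hS.es.1.1
  obtain ⟨S, hQS⟩ := hQ2.exists_le_sylow
  have hSne : (S : Subgroup G) ≠ ⊥ := by
    intro h
    have h1 := hQS D.hS.zQ
    rw [h, mem_bot] at h1
    exact D.hS.z1 h1
  have hnil : Group.IsNilpotent ↥(S : Subgroup G) := S.isPGroup'.isNilpotent
  have h2 := Cfsg.Agent.Lib.Helper71.Fitting.inf_centralizer_ne_bot (S : Subgroup G)
    (S : Subgroup G) hnil le_rfl hSne le_normalizer
  have hzC : z ∈ centralizer ((S : Subgroup G) : Set G) := by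
    by_contra hz
    apply h2
    rw [eq_bot_iff]
    rintro x ⟨-, hxC⟩
    rw [mem_bot]
    rcases D.hS.eq_of_centralizes
      (fun q hq => (mem_centralizer_iff.mp hxC q (hQS hq)).symm) with h | h
    · exact h
    · rw [h] at hxC
      exact absurd hxC hz
  have h3 := Cfsg.Agent.Lib.Helper48.CharPSub.isSylIn_inf_of_subnormal S D.hL.1
  have hle : (S : Subgroup G) ⊓ L ≤ L ⊓ centralizer ({z₁} : Set G) := by
    rintro x ⟨hxS, hxL⟩
    refine ⟨hxL, ?_⟩
    show x ∈ centralizer ({z₁} : Set G)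
    rw [mem_centralizer_singleton_iff]
    exact (D.comm_iff hxL).mp (mem_centralizer_iff.mp hzC x hxS)
  have h4 := h3.eq_of_le hle inf_le_left (D.isPGroup_cent hu hmv)
  rw [h4]
  exact h3

theorem exists_sylow {u : G} (hu : u ∈ Q) (hmv : cj u L ≠ L) :
    ∃ R : Sylow 2 ↥L, (R : Subgroup ↥L) = (centralizer ({z₁} : Set G)).subgroupOf L := by
  have : Fact (Nat.Prime 2) := ⟨Nat.prime_two⟩
  have h := D.isSylIn_cent hu hmv
  have hp : IsPGroup 2 ↥((centralizer ({z₁} : Set G)).subgroupOf L) := by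
    rintro ⟨⟨x, hxL⟩, hxC⟩
    refine ⟨2, Subtype.ext (Subtype.ext ?_)⟩
    have hxz : x * z = z * x :=
      (D.comm_iff hxL).mpr (mem_centralizer_singleton_iff.mp (mem_subgroupOf.mp hxC))
    exact D.pow_four hu hmv hxL hxz
  have hi : ¬ 2 ∣ ((centralizer ({z₁} : Set G)).subgroupOf L).index := by
    have h1 := h.2.2
    rw [Subgroup.inf_relIndex_left] at h1
    exact h1
  exact ⟨hp.toSylow hi, rfl⟩

theorem false_of_cent {u : G} (hu : u ∈ Q) (hmv : cj u L ≠ L)
    (h : ∀ x ∈ L, x * z = z * x → x = 1 ∨ x = z₁) : False := by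
  have : Fact (Nat.Prime 2) := ⟨Nat.prime_two⟩
  obtain ⟨R, hR⟩ := D.exists_sylow hu hmv
  have hcard : Nat.card ↥(R : Subgroup ↥L) = 2 := by
    rw [Nat.card_eq_two_iff' (1 : ↥(R : Subgroup ↥L))]
    have hz1R : (⟨z₁, D.hz₁⟩ : ↥L) ∈ (R : Subgroup ↥L) := by
      rw [hR, mem_subgroupOf, mem_centralizer_singleton_iff]
    refine ⟨⟨⟨z₁, D.hz₁⟩, hz1R⟩, ?_, ?_⟩
    · intro h1
      exact D.z1_ne (congrArg (fun t : ↥(R : Subgroup ↥L) => ((t : ↥L) : G)) h1)
    · rintro ⟨⟨x, hxL⟩, hxR⟩ hx1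
      have hxC : x * z₁ = z₁ * x := by
        have h1 := hxR
        rw [hR, mem_subgroupOf, mem_centralizer_singleton_iff] at h1
        exact h1
      rcases h x hxL ((D.comm_iff hxL).mpr hxC) with h2 | h2
      · exfalso
        apply hx1
        exact Subtype.ext (Subtype.ext h2)
      · exact Subtype.ext (Subtype.ext h2)
  have hcyc : IsCyclic R := isCyclic_of_prime_card hcard
  have h2dvd : 2 ∣ Nat.card ↥L := by
    have h1 := Subgroup.card_subgroup_dvd_card (R : Subgroup ↥L)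
    rwa [hcard] at h1
  have hp : (Nat.card ↥L).minFac = 2 := (Nat.minFac_eq_two_iff _).mpr h2dvd
  have hNC := hcyc.normalizer_le_centralizer hp
  have hcomp := MonoidHom.ker_transferSylow_isComplement' R hNC
  have hidx : (MonoidHom.transferSylow R hNC).ker.index = 2 := by
    rw [hcomp.symm.index_eq_card]
    exact hcard
  rcases Cfsg.Agent.Lib.Helper21.Quasi.normal_eq_top_or_le_center D.hL.2
    (MonoidHom.transferSylow R hNC).ker with h3 | h3
  · rw [h3, Subgroup.index_top] at hidx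
    omega
  · have hcen : center ↥L = ⊥ := by
      have h4 := Cfsg.Agent.Lib.Helper21.Layer.map_center_subtype L
      rw [D.hLZ] at h4
      exact (Subgroup.map_eq_bot_iff_of_injective _ L.subtype_injective).mp h4
    rw [hcen, le_bot_iff] at h3
    rw [h3, Subgroup.index_bot] at hidx
    have hLp : IsPGroup 2 ↥L := IsPGroup.of_card (n := 1) (by rw [hidx, pow_one])
    have hnil := hLp.isNilpotent
    exact Cfsg.Agent.Lib.Helper21.Quasi.not_isSolvable D.hL.2 inferInstance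


theorem z_eq {u : G} (hu : u ∈ Q) (hmv : cj u L ≠ L) : z = z₁ * (u * z₁ * u⁻¹) := by
  have hwQ : z₁ * (u * z₁ * u⁻¹) ∈ Q := by
    have h1 := D.c_mem hu D.z1_comm_z
    rwa [D.z1_inv] at h1
  have hs : u * z₁ * u⁻¹ ∈ centralizer (L : Set G) := D.conj_mem_cent hmv D.hz₁
  have hw1 : z₁ * (u * z₁ * u⁻¹) ≠ 1 := fun h => D.z1_ne (D.eq_one_of_mul D.hz₁ hs h)
  have hz1i : z₁⁻¹ ∈ L := L.inv_mem D.hz₁
  have hcen : ∀ v ∈ Q, z₁ * (u * z₁ * u⁻¹) * v = v * (z₁ * (u * z₁ * u⁻¹)) := by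
    intro v hv
    rcases comm_cases D.hS hv hwQ with h | h
    · exact (commutatorElement_eq_one_iff_mul_comm.mp h).symm
    · exfalso
      have e0 : v * (z₁ * (u * z₁ * u⁻¹)) * v⁻¹ * (z₁ * (u * z₁ * u⁻¹))⁻¹ =
          (v * z₁ * v⁻¹) * ((v * u) * z₁ * (v * u)⁻¹) * (u * z₁ * u⁻¹)⁻¹ * z₁⁻¹ := by group
      rw [e0] at h
      have hsi : (u * z₁ * u⁻¹)⁻¹ ∈ centralizer (L : Set G) := (centralizer _).inv_mem hs
      by_cases hv1 : cj v L = L
      · have hp : v * z₁ * v⁻¹ ∈ L := by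
          have h1 := conj_mem_cj (g := v) D.hz₁
          rwa [hv1] at h1
        have hv2 : cj (v * u) L ≠ L := by
          intro h2
          apply hmv
          have h3 : cj v (cj u L) = cj v L := by
            rw [← cj_mul, h2, hv1]
          exact Subgroup.map_injective (MulAut.conj v).injective h3
        have hr : (v * u) * z₁ * (v * u)⁻¹ ∈ centralizer (L : Set G) :=
          cj_le_centralizer D.hL hv2 (conj_mem_cj D.hz₁)
        have hb : (v * u) * z₁ * (v * u)⁻¹ * (u * z₁ * u⁻¹)⁻¹ ∈ centralizer (L : Set G) :=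
          (centralizer _).mul_mem hr hsi
        have hc := D.comm_LC hz1i hb
        have e1 : (v * z₁ * v⁻¹) * ((v * u) * z₁ * (v * u)⁻¹) * (u * z₁ * u⁻¹)⁻¹ * z₁⁻¹ =
            (v * z₁ * v⁻¹ * z₁⁻¹) * ((v * u) * z₁ * (v * u)⁻¹ * (u * z₁ * u⁻¹)⁻¹) := by
          calc (v * z₁ * v⁻¹) * ((v * u) * z₁ * (v * u)⁻¹) * (u * z₁ * u⁻¹)⁻¹ * z₁⁻¹
              = (v * z₁ * v⁻¹) * (((v * u) * z₁ * (v * u)⁻¹ * (u * z₁ * u⁻¹)⁻¹) * z₁⁻¹) := by
                simp only [mul_assoc]
            _ = (v * z₁ * v⁻¹) * (z₁⁻¹ * ((v * u) * z₁ * (v * u)⁻¹ * (u * z₁ * u⁻¹)⁻¹)) := by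
                rw [← hc]
            _ = (v * z₁ * v⁻¹ * z₁⁻¹) * ((v * u) * z₁ * (v * u)⁻¹ * (u * z₁ * u⁻¹)⁻¹) := by
                simp only [mul_assoc]
        rw [e1] at h
        have h4 := D.eq_z1_of_mul (L.mul_mem hp hz1i) hb h
        have h5 : v * z₁ * v⁻¹ = 1 := by
          have h6 : v * z₁ * v⁻¹ = z₁ * z₁ := mul_inv_eq_iff_eq_mul.mp h4
          rw [h6, D.z1_sq]
        apply D.z1_ne
        have h7 : z₁ = v⁻¹ * (v * z₁ * v⁻¹) * v := by group
        rw [h7, h5]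
        group
      · have hp : v * z₁ * v⁻¹ ∈ centralizer (L : Set G) :=
          cj_le_centralizer D.hL hv1 (conj_mem_cj D.hz₁)
        by_cases hv2 : cj (v * u) L = L
        · have hr : (v * u) * z₁ * (v * u)⁻¹ ∈ L := by
            have h1 := conj_mem_cj (g := v * u) D.hz₁
            rwa [hv2] at h1
          have hb : v * z₁ * v⁻¹ * (u * z₁ * u⁻¹)⁻¹ ∈ centralizer (L : Set G) :=
            (centralizer _).mul_mem hp hsi
          have hc1 := D.comm_LC hr hp
          have hc2 := D.comm_LC hz1i hb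
          have e1 : (v * z₁ * v⁻¹) * ((v * u) * z₁ * (v * u)⁻¹) * (u * z₁ * u⁻¹)⁻¹ * z₁⁻¹ =
              ((v * u) * z₁ * (v * u)⁻¹ * z₁⁻¹) * (v * z₁ * v⁻¹ * (u * z₁ * u⁻¹)⁻¹) := by
            calc (v * z₁ * v⁻¹) * ((v * u) * z₁ * (v * u)⁻¹) * (u * z₁ * u⁻¹)⁻¹ * z₁⁻¹
                = ((v * u) * z₁ * (v * u)⁻¹) * (v * z₁ * v⁻¹) * (u * z₁ * u⁻¹)⁻¹ * z₁⁻¹ := by
                  rw [hc1]
              _ = ((v * u) * z₁ * (v * u)⁻¹) * ((v * z₁ * v⁻¹ * (u * z₁ * u⁻¹)⁻¹) * z₁⁻¹) := by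
                  simp only [mul_assoc]
              _ = ((v * u) * z₁ * (v * u)⁻¹) * (z₁⁻¹ * (v * z₁ * v⁻¹ * (u * z₁ * u⁻¹)⁻¹)) := by
                  rw [← hc2]
              _ = ((v * u) * z₁ * (v * u)⁻¹ * z₁⁻¹) * (v * z₁ * v⁻¹ * (u * z₁ * u⁻¹)⁻¹) := by
                  simp only [mul_assoc]
          rw [e1] at h
          have h4 := D.eq_z1_of_mul (L.mul_mem hr hz1i) hb h
          have h5 : (v * u) * z₁ * (v * u)⁻¹ = 1 := by
            have h6 : (v * u) * z₁ * (v * u)⁻¹ = z₁ * z₁ := mul_inv_eq_iff_eq_mul.mp h4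
            rw [h6, D.z1_sq]
          apply D.z1_ne
          have h7 : z₁ = (v * u)⁻¹ * ((v * u) * z₁ * (v * u)⁻¹) * (v * u) := by group
          rw [h7, h5]
          group
        · apply D.false_of_cent hu hmv
          intro x hx hxz
          have hc := D.c_mem hu hxz
          have h1 := comm_cases D.hS hv hc
          have e2 : v * (x⁻¹ * (u * x * u⁻¹)) * v⁻¹ * (x⁻¹ * (u * x * u⁻¹))⁻¹ =
              ((v * x⁻¹ * v⁻¹) * ((v * u) * x * (v * u)⁻¹) * (u * x * u⁻¹)⁻¹) * x := by group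
          rw [e2] at h1
          have hb : (v * x⁻¹ * v⁻¹) * ((v * u) * x * (v * u)⁻¹) * (u * x * u⁻¹)⁻¹ ∈
              centralizer (L : Set G) :=
            (centralizer _).mul_mem ((centralizer _).mul_mem
              (cj_le_centralizer D.hL hv1 (conj_mem_cj (L.inv_mem hx)))
              (cj_le_centralizer D.hL hv2 (conj_mem_cj hx)))
              ((centralizer _).inv_mem (D.conj_mem_cent hmv hx))
          rw [← D.comm_LC hx hb] at h1
          exact D.cases hx hb h1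
  rcases D.hS.eq_of_centralizes hcen with h | h
  · exact absurd h hw1
  · exact h.symm

theorem cj_cases {u : G} (hu : u ∈ Q) (hmv : cj u L ≠ L) (g : G) :
    cj g L = L ∨ cj g L = cj u L := by
  by_contra hcon
  push Not at hcon
  obtain ⟨h1, h2⟩ := hcon
  have hK := Cfsg.Agent.Lib.Helper29.Basic.isComponent_map_conj D.hL g
  have hKu := Cfsg.Agent.Lib.Helper29.Basic.isComponent_map_conj D.hL u
  have hc1 := cj_le_centralizer D.hL h1
  have hc2 := Cfsg.Agent.Lib.Helper21.Comp.components_commute (cj g L) (cj u L) hK hKu h2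
  rw [commutator_eq_bot_iff_le_centralizer] at hc2
  apply not_component_centralizes D.hS hK
  intro x hx
  rw [D.z_eq hu hmv]
  have e1 : x * z₁ = z₁ * x := (mem_centralizer_iff.mp (hc1 hx) z₁ D.hz₁).symm
  have e2 : x * (u * z₁ * u⁻¹) = (u * z₁ * u⁻¹) * x :=
    (mem_centralizer_iff.mp (hc2 hx) _ (conj_mem_cj D.hz₁)).symm
  calc x * (z₁ * (u * z₁ * u⁻¹)) = x * z₁ * (u * z₁ * u⁻¹) := (mul_assoc _ _ _).symm
    _ = z₁ * x * (u * z₁ * u⁻¹) := by rw [e1]
    _ = z₁ * (x * (u * z₁ * u⁻¹)) := mul_assoc _ _ _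
    _ = z₁ * ((u * z₁ * u⁻¹) * x) := by rw [e2]
    _ = z₁ * (u * z₁ * u⁻¹) * x := (mul_assoc _ _ _).symm

theorem sup_normal {u : G} (hu : u ∈ Q) (hmv : cj u L ≠ L) : (L ⊔ cj u L).Normal := by
  refine ⟨fun n hn g => ?_⟩
  have h1 : cj g (L ⊔ cj u L) ≤ L ⊔ cj u L := by
    have h0 : cj g (L ⊔ cj u L) = cj g L ⊔ cj (g * u) L := by
      rw [cj_mul]
      exact Subgroup.map_sup _ _ _
    rw [h0]
    apply sup_le
    · rcases D.cj_cases hu hmv g with h | h
      · rw [h]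
        exact le_sup_left
      · rw [h]
        exact le_sup_right
    · rcases D.cj_cases hu hmv (g * u) with h | h
      · rw [h]
        exact le_sup_left
      · rw [h]
        exact le_sup_right
  exact h1 (conj_mem_cj hn)

theorem closure_eq {u : G} (hu : u ∈ Q) (hmv : cj u L ≠ L) :
    L ⊔ cj u L = normalClosure ({z} : Set G) := by
  apply le_antisymm
  · exact sup_le (component_le_closure D.hS D.hL)
      (component_le_closure D.hS (Cfsg.Agent.Lib.Helper29.Basic.isComponent_map_conj D.hL u))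
  · have := D.sup_normal hu hmv
    apply normalClosure_le_normal
    rw [Set.singleton_subset_iff, SetLike.mem_coe, D.z_eq hu hmv]
    exact Subgroup.mul_mem_sup D.hz₁ (conj_mem_cj D.hz₁)

theorem ne_O2C {u : G} (hu : u ∈ Q) (hmv : cj u L ≠ L) :
    Q ≠ (Cfsg.pCore 2 ↥(centralizer ({z} : Set G))).map (centralizer ({z} : Set G)).subtype := by
  have : Fact (Nat.Prime 2) := ⟨Nat.prime_two⟩
  intro hEq
  apply D.false_of_cent hu hmv
  intro x hx hxz
  have hsub : (L.subgroupOf (centralizer ({z} : Set G))).IsSubnormal := D.hL.1.subgroupOf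
  have hp : IsPGroup 2 ↥(L.subgroupOf (centralizer ({z} : Set G))) := by
    rintro ⟨⟨y, hyC⟩, hyL⟩
    refine ⟨2, Subtype.ext (Subtype.ext ?_)⟩
    exact D.pow_four hu hmv (mem_subgroupOf.mp hyL) (mem_centralizer_singleton_iff.mp hyC)
  have hle := Cfsg.Agent.Lib.Helper30.NoComp.subnormal_le_pCore 2 _ hsub hp
  have hxQ : x ∈ Q := by
    rw [hEq]
    exact ⟨⟨x, mem_centralizer_singleton_iff.mpr hxz⟩, hle (mem_subgroupOf.mpr hx), rfl⟩
  have h1 := comm_cases D.hS hu hxQ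
  have hy := D.conj_mem_cent hmv hx
  have e : u * x * u⁻¹ * x⁻¹ = x⁻¹ * (u * x * u⁻¹) := (D.comm_LC (L.inv_mem hx) hy).symm
  rw [e] at h1
  rcases D.cases (L.inv_mem hx) hy h1 with h | h
  · left
    exact inv_eq_one.mp h
  · right
    rw [← D.z1_inv, ← h, inv_inv]

theorem frattini_le {u : G} (hu : u ∈ Q) (hmv : cj u L ≠ L) (R : Sylow 2 ↥L)
    (hR : (R : Subgroup ↥L) = (centralizer ({z₁} : Set G)).subgroupOf L) :
    (frattini ↥(R : Subgroup ↥L)).map ((L.subtype).comp (R : Subgroup ↥L).subtype) ≤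
      zpowers z₁ := by
  have : Fact (Nat.Prime 2) := ⟨Nat.prime_two⟩
  rw [map_le_iff_le_comap]
  have hsq : ∀ x : ↥(R : Subgroup ↥L),
      x * x ∈ (zpowers z₁).comap ((L.subtype).comp (R : Subgroup ↥L).subtype) := by
    rintro ⟨⟨x, hxL⟩, hxR⟩
    have hxC : x * z₁ = z₁ * x := by
      have h1 := hxR
      rw [hR, mem_subgroupOf, mem_centralizer_singleton_iff] at h1
      exact h1
    show x * x ∈ zpowers z₁
    rcases D.sq_cases' hu hmv hxL ((D.comm_iff hxL).mpr hxC) with h | h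
    · rw [h]
      exact one_mem _
    · rw [h]
      exact mem_zpowers z₁
  apply Cfsg.Agent.Lib.Helper47.Frat.frattini_le_of_pow_comm (p := 2)
  · intro x
    rw [pow_two]
    exact hsq x
  · rw [commutator_def, Subgroup.commutator_le]
    intro a _ b _
    have e : ⁅a, b⁆ = (a * a) * ((a⁻¹ * b) * (a⁻¹ * b)) * (b⁻¹ * b⁻¹) := by
      rw [commutatorElement_def]
      group
    rw [e]
    exact Subgroup.mul_mem _ (Subgroup.mul_mem _ (hsq a) (hsq (a⁻¹ * b))) (hsq b⁻¹)

end Dat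

theorem isSimple_of_center_bot {L : Subgroup G} (hL : Cfsg.IsQuasisimple ↥L)
    (hcen : center ↥L = ⊥) : IsSimpleGroup ↥L := by
  have := hL.2
  have hinj : Function.Injective (QuotientGroup.mk' (center ↥L)) := by
    rw [← MonoidHom.ker_eq_bot_iff, QuotientGroup.ker_mk', hcen]
  exact (MulEquiv.ofBijective (QuotientGroup.mk' (center ↥L))
    ⟨hinj, QuotientGroup.mk'_surjective _⟩).isSimpleGroup

theorem not_comm_of_quasi {L : Subgroup G} (hL : Cfsg.IsQuasisimple ↥L) :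
    ¬ IsMulCommutative ↥L := by
  intro h
  exact Cfsg.Agent.Lib.Helper21.Quasi.not_isSolvable hL
    (Group.isSolvable_of_comm (fun a b => h.is_comm.comm a b))

theorem caseB (hS : Setup z Q) (hQ : Cfsg.IsLargeExtraspecial Q) (hO : Cfsg.pCore 2 G = ⊥) :
    (normalClosure ({z} : Set G) = Cfsg.generalizedFittingSubgroup G ∧
      IsSimpleGroup ↥(normalClosure ({z} : Set G)) ∧
      ¬ IsMulCommutative ↥(normalClosure ({z} : Set G))) ∨
    (normalClosure ({z} : Set G) = Cfsg.generalizedFittingSubgroup G ∧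
      ∃ (L : Subgroup G) (u : G), u ∈ Q ∧ IsSimpleGroup ↥L ∧ ¬ IsMulCommutative ↥L ∧
        L ⊓ (L).map (MulAut.conj u).toMonoidHom = ⊥ ∧
        (∀ x ∈ L, ∀ y ∈ (L).map (MulAut.conj u).toMonoidHom, x * y = y * x) ∧
        L ⊔ (L).map (MulAut.conj u).toMonoidHom = normalClosure ({z} : Set G) ∧
        ∃ z₁ ∈ L, z = z₁ * (u * z₁ * u⁻¹) ∧
          (∃ R : Sylow 2 ↥L, (R : Subgroup ↥L) =
              (Subgroup.centralizer ({z₁} : Set G)).subgroupOf L ∧
            (frattini ↥(R : Subgroup ↥L)).map ((L.subtype).comp (R : Subgroup ↥L).subtype) ≤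
              Subgroup.zpowers z₁) ∧
          Q ≠ (Cfsg.pCore 2 ↥(Subgroup.centralizer ({z} : Set G))).map
            (Subgroup.centralizer ({z} : Set G)).subtype) := by
  have hF : Cfsg.fittingSubgroup G = ⊥ := by
    rw [Cfsg.Agent.Lib.Helper78.Fitting.fitting_eq_iSup_pCore, iSup_eq_bot]
    intro p
    by_cases hp : (p : ℕ) = 2
    · rw [hp]
      exact hO
    · exact pCore_odd_eq_bot hQ p p.2 hp
  obtain ⟨L, hL⟩ : ∃ L : Subgroup G, Cfsg.IsComponent L := by
    by_contra hcon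
    push Not at hcon
    have hlay : Cfsg.layer G = ⊥ := by
      unfold Cfsg.layer
      rw [eq_bot_iff]
      apply sSup_le
      intro K hK
      exact absurd hK (hcon K)
    have h1 := Cfsg.Agent.Lib.Helper21.MinNormal.eq_bot_of_inf_layer hF ⊤
      (by rw [hlay, inf_bot_eq])
    have h2 : z ∈ (⊤ : Subgroup G) := mem_top z
    rw [h1, mem_bot] at h2
    exact hS.z1 h2
  have hcen := Cfsg.Agent.Lib.Helper21.MinNormal.center_component_eq_bot hF L hL
  have hLZ : L ⊓ centralizer (L : Set G) = ⊥ := by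
    rw [← Cfsg.Agent.Lib.Helper21.Layer.map_center_subtype, hcen, Subgroup.map_bot]
  obtain ⟨z₁, hz₁, d, hd, hzd⟩ := exists_split hS hQ hL
  have D : Dat Q z L z₁ d := ⟨hS, hQ, hL, hLZ, hz₁, hd, hzd⟩
  have hsimple : IsSimpleGroup ↥L := isSimple_of_center_bot hL.2 hcen
  have hnc : ¬ IsMulCommutative ↥L := not_comm_of_quasi hL.2
  have hgfs : Cfsg.generalizedFittingSubgroup G = Cfsg.layer G := by
    unfold Cfsg.generalizedFittingSubgroup
    rw [hF, sup_bot_eq]
  have hlayle : Cfsg.layer G ≤ normalClosure ({z} : Set G) :=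
    sSup_le (fun K hK => component_le_closure hS hK)
  by_cases hLn : L.Normal
  · left
    have hML : normalClosure ({z} : Set G) = L := by
      apply le_antisymm
      · apply normalClosure_le_normal
        rw [Set.singleton_subset_iff]
        exact z_mem_of_normal hS hQ L (Cfsg.Agent.Lib.Helper21.Comp.ne_bot_of_quasisimple hL.2)
      · exact component_le_closure hS hL
    refine ⟨?_, ?_, ?_⟩
    · rw [hgfs]
      apply le_antisymm _ hlayle
      rw [hML]
      exact Cfsg.Agent.Lib.Helper21.Layer.le_layer hL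
    · rw [hML]
      exact hsimple
    · rw [hML]
      exact hnc
  · right
    obtain ⟨u, hu, hmv⟩ := D.exists_moving hLn
    have hcl := D.closure_eq hu hmv
    refine ⟨?_, L, u, hu, hsimple, hnc, ?_, ?_, hcl, z₁, hz₁, D.z_eq hu hmv, ?_, D.ne_O2C hu hmv⟩
    · rw [hgfs]
      apply le_antisymm _ hlayle
      rw [← hcl]
      exact sup_le (Cfsg.Agent.Lib.Helper21.Layer.le_layer hL)
        (Cfsg.Agent.Lib.Helper21.Layer.le_layer
          (Cfsg.Agent.Lib.Helper29.Basic.isComponent_map_conj hL u))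
    · rw [eq_bot_iff, ← hLZ]
      exact inf_le_inf_left L (cj_le_centralizer hL hmv)
    · intro x hx y hy
      exact D.comm_LC hx (cj_le_centralizer hL hmv hy)
    · obtain ⟨R, hR⟩ := D.exists_sylow hu hmv
      exact ⟨R, hR, D.frattini_le hu hmv R hR⟩

end Cfsg.Agent.Lib.Helper93.LEClosure
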