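import Mathlib
import Cfsg.Agent.Lib.Helper68.M11UStmt
import Cfsg.Agent.Lib.Helper93.MUINVCOSET
import Cfsg.Agent.Lib.Helper92.M11Asm4
import Cfsg.Agent.Lib.Helper92.M11EX
import Cfsg.Agent.Lib.Helper69.M11R11
import Cfsg.Agent.Lib.Helper69.M11R5
import Cfsg.Agent.Lib.Helper33.M11DIV
import Cfsg.Agent.Lib.Helper3.M11M4
import Cfsg.Agent.Lib.Helper59.M11I3

set_option autoImplicit false

/-! Piece UNIQ of S0420 (for helper68): `t` is the only involution of `Q`, and every element of
`Q` other than `1, t` squares to `t`.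

`count_lemma`: a group of order 8 with an automorphism `σ` of order dividing 3 whose fixed
points are among `1, t`: `σ t = t`, and the number of solutions of `q² = 1` is even and
`≡ 2 (mod 3)`, so it is 2 or 8.  `no_order8`: `σ` fixes every element of order 8.
The elementary abelian case is excluded inside `G`: an involution `e ≠ t` of `Q` centralizes a
subgroup `C` of order 3 of `P`, and `C_Q(C)` has order at least 4, but `4 ∤ |C(x)|` for `x` of
order 3. -/

namespace Cfsg.Agent.Lib.Helper93.MUUNIQ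

open Cfsg Cfsg.Agent.Lib.Helper68.M11UStmt Cfsg.Agent.Lib.Helper92.M11Stmt

universe u

theorem div9 : ∀ n ≤ 9, n ∣ 9 → n = 1 ∨ n = 3 ∨ n = 9 := by decide

theorem div8 : ∀ n ≤ 8, n ∣ 8 → 2 < n → 4 ∣ n := by decide

theorem cube8 : ∀ a : ZMod 8, a * (a * a) - 1 = 0 → a = 1 := by decide

theorem count_lemma {Q : Type u} [Group Q] [Finite Q] (hQ : Nat.card Q = 8) (σ : Q → Q)
    (hmul : ∀ a b, σ (a * b) = σ a * σ b) (hσ3 : ∀ q, σ (σ (σ q)) = q) (t : Q) (ht : t ≠ 1)
    (ht2 : t * t = 1) (hfix : ∀ q, σ q = q → q = 1 ∨ q = t) :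
    σ t = t ∧ ((∃ e : Q, e ≠ 1 ∧ e ≠ t ∧ e * e = 1) → ∀ q : Q, q * q = 1) := by
  classical
  have : Fintype Q := Fintype.ofFinite Q
  have : Fact (Nat.Prime 3) := ⟨by norm_num⟩
  have : Fact (Nat.Prime 2) := ⟨by norm_num⟩
  have hσ1 : σ 1 = 1 := by
    have h := hmul 1 1
    rw [mul_one] at h
    have h' : σ 1 * σ 1 = σ 1 * 1 := by rw [mul_one]; exact h.symm
    exact mul_left_cancel h'
  have hinj : Function.Injective σ := by
    intro a b hab
    have h := congrArg (fun z => σ (σ z)) hab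
    simpa [hσ3] using h
  have hσt : σ t = t := by
    by_contra hne
    let f : Function.End Q := σ
    have h3 : f ^ 3 ^ 1 = 1 := by
      rw [pow_one]
      funext q
      exact hσ3 q
    have hmod := Equiv.Perm.card_fixedPoints_modEq (p := 3) (n := 1) h3
    rw [Fintype.card_eq_nat_card, Fintype.card_eq_nat_card, hQ] at hmod
    have hsub : Nat.card (Function.fixedPoints f) ≤ 1 := by
      rw [Finite.card_le_one_iff_subsingleton]
      constructor
      rintro ⟨a, ha⟩ ⟨b, hb⟩
      have ha' : a = 1 := by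
        rcases hfix a ha with h | h
        · exact h
        · exfalso; apply hne; rw [← h]; exact ha
      have hb' : b = 1 := by
        rcases hfix b hb with h | h
        · exact h
        · exfalso; apply hne; rw [← h]; exact hb
      exact Subtype.ext (ha'.trans hb'.symm)
    have hmod' : 8 % 3 = Nat.card (Function.fixedPoints f) % 3 := hmod
    omega
  refine ⟨hσt, ?_⟩
  rintro ⟨e, he1, het, he2⟩
  have hp : ∀ q : Q, σ q * σ q = 1 ↔ q * q = 1 := by
    intro q
    rw [← hmul]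
    constructor
    · intro h; rw [← hσ1] at h; exact hinj h
    · intro h; rw [h, hσ1]
  -- parity of the number of solutions of `q * q = 1`
  let fi : Function.End Q := fun q => q⁻¹
  have hinv2 : fi ^ 2 ^ 1 = 1 := by
    rw [pow_one]; funext q; exact inv_inv q
  have hmod2 := Equiv.Perm.card_fixedPoints_modEq (p := 2) (n := 1) hinv2
  rw [Fintype.card_eq_nat_card, Fintype.card_eq_nat_card, hQ] at hmod2
  have hI2 : Nat.card {q : Q // q * q = 1} % 2 = 0 := by
    have e1 : Nat.card (Function.fixedPoints fi) =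
        Nat.card {q : Q // q * q = 1} := by
      apply Nat.card_congr
      apply Equiv.subtypeEquivRight
      intro q
      show q⁻¹ = q ↔ q * q = 1
      constructor
      · intro h
        calc q * q = q⁻¹ * q := by rw [h]
          _ = 1 := inv_mul_cancel q
      · intro h; exact inv_eq_of_mul_eq_one_left h
    rw [← e1]
    have hmod2' : 8 % 2 = Nat.card (Function.fixedPoints fi) % 2 := hmod2
    omega
  -- the number of solutions mod 3
  let g : Function.End {q : Q // q * q = 1} := fun i => ⟨σ i.1, (hp i.1).2 i.2⟩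
  have hg3 : g ^ 3 ^ 1 = 1 := by
    rw [pow_one]; funext i; exact Subtype.ext (hσ3 i.1)
  have hmod3 := Equiv.Perm.card_fixedPoints_modEq (p := 3) (n := 1) hg3
  rw [Fintype.card_eq_nat_card, Fintype.card_eq_nat_card] at hmod3
  have hB : Nat.card Bool = 2 := by rw [Nat.card_eq_fintype_card, Fintype.card_bool]
  have hfix2 : Nat.card (Function.fixedPoints g) = 2 := by
    apply le_antisymm
    · have hinjB : Function.Injective
          (fun a : Function.fixedPoints g => decide (a.1.1 = 1)) := by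
        rintro ⟨⟨a, ha2⟩, ha⟩ ⟨⟨b, hb2⟩, hb⟩ hab
        have ha' : σ a = a := congrArg Subtype.val ha
        have hb' : σ b = b := congrArg Subtype.val hb
        simp only [decide_eq_decide] at hab
        apply Subtype.ext; apply Subtype.ext
        show a = b
        by_cases h1 : a = 1
        · rw [h1, hab.1 h1]
        · have h2 : b ≠ 1 := fun h => h1 (hab.2 h)
          rcases hfix a ha' with h | h
          · exact absurd h h1
          · rcases hfix b hb' with h' | h'
            · exact absurd h' h2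
            · rw [h, h']
      have hle := Nat.card_le_card_of_injective _ hinjB
      rw [hB] at hle
      exact hle
    · have hnt : Nontrivial (Function.fixedPoints g) :=
        ⟨⟨⟨⟨1, by rw [mul_one]⟩, Subtype.ext hσ1⟩, ⟨⟨t, ht2⟩, Subtype.ext hσt⟩, by
          intro h
          apply ht
          exact (congrArg (fun a : Function.fixedPoints g => a.1.1) h).symm⟩⟩
      exact Finite.one_lt_card_iff_nontrivial.2 hnt
  rw [hfix2] at hmod3
  have hI3 : Nat.card {q : Q // q * q = 1} % 3 = 2 := by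
    have hmod3' : Nat.card {q : Q // q * q = 1} % 3 = 2 % 3 := hmod3
    omega
  have hIle : Nat.card {q : Q // q * q = 1} ≤ 8 := by
    rw [← hQ]; exact Nat.card_le_card_of_injective _ Subtype.val_injective
  have hI3' : 2 < Nat.card {q : Q // q * q = 1} := by
    rw [Nat.card_eq_fintype_card]
    exact Fintype.two_lt_card_iff.2 ⟨⟨1, by rw [mul_one]⟩, ⟨t, ht2⟩, ⟨e, he2⟩,
      fun h => ht (congrArg Subtype.val h).symm, fun h => he1 (congrArg Subtype.val h).symm,
      fun h => het (congrArg Subtype.val h).symm⟩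
  have hI8 : Nat.card {q : Q // q * q = 1} = 8 := by omega
  have hbij := Function.Injective.bijective_of_nat_card_le
    (f := (Subtype.val : {q : Q // q * q = 1} → Q)) Subtype.val_injective (by rw [hQ, hI8])
  intro q
  obtain ⟨⟨q', hq'⟩, rfl⟩ := hbij.2 q
  exact hq'

theorem no_order8 {Q : Type u} [Group Q] [Finite Q] (hQ : Nat.card Q = 8) (σ : Q → Q)
    (hmul : ∀ a b, σ (a * b) = σ a * σ b) (hσ3 : ∀ q, σ (σ (σ q)) = q) (q : Q)
    (hq : orderOf q = 8) : σ q = q := by
  have htop : Subgroup.zpowers q = ⊤ := by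
    apply (Subgroup.card_eq_iff_eq_top _).1
    rw [Nat.card_zpowers, hq, hQ]
  have hmem : σ q ∈ Subgroup.zpowers q := by rw [htop]; trivial
  obtain ⟨k, hk⟩ := Subgroup.mem_zpowers_iff.1 hmem
  have hf : ∀ (j : ℤ), σ (q ^ j) = (σ q) ^ j := fun j =>
    map_zpow (MonoidHom.mk' σ hmul) q j
  have h2 : σ (σ q) = q ^ (k * k) := by
    rw [← hk, hf, ← hk, ← zpow_mul]
  have h := hσ3 q
  rw [h2, hf, ← hk, ← zpow_mul] at h
  have h4 : q ^ (k * (k * k) - 1) = 1 := by rw [zpow_sub, zpow_one, h, mul_inv_cancel]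
  have h5 : ((8 : ℕ) : ℤ) ∣ k * (k * k) - 1 := by
    rw [← hq]; exact orderOf_dvd_iff_zpow_eq_one.2 h4
  have h6 : ((k * (k * k) - 1 : ℤ) : ZMod 8) = 0 := (ZMod.intCast_zmod_eq_zero_iff_dvd _ 8).2 h5
  push_cast at h6
  have h7 : ((k : ℤ) : ZMod 8) = 1 := cube8 _ h6
  have h8 : ((8 : ℕ) : ℤ) ∣ k - 1 := by
    rw [← ZMod.intCast_zmod_eq_zero_iff_dvd]; push_cast; rw [h7]; ring
  have h9 : q ^ (k - 1) = 1 := by rw [← hq] at h8; exact orderOf_dvd_iff_zpow_eq_one.1 h8
  rw [← hk]
  calc q ^ k = q ^ (k - 1) * q := by rw [← zpow_add_one, sub_add_cancel]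
    _ = q := by rw [h9, one_mul]

theorem main : CentSyl3.{u} → InvCoset.{u} → UniqInv.{u} := by
  intro hC hIC G _ _ _ hG t Q y P ht hQ8 htQ hinv hnorm hy hyQ hfix
  have hP9 : Nat.card (P : Subgroup G) = 9 := Cfsg.Agent.Lib.Helper93.MUINVCOSET.card_syl3 hG P
  have habG := Cfsg.Agent.Lib.Helper93.MUINVCOSET.comm_syl3 hG P
  have ht2 : t * t = 1 := by
    have h := pow_orderOf_eq_one t
    rw [ht, sq] at h; exact h
  have ht1 : t ≠ 1 := by
    intro h; rw [h, orderOf_one] at ht; omega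
  have htinv : t⁻¹ = t := inv_eq_of_mul_eq_one_left ht2
  have hy3 : y * y * y = 1 := by
    have h : y ^ 3 = 1 := by rw [← hy]; exact pow_orderOf_eq_one y
    rw [pow_succ, pow_succ, pow_one] at h
    exact h
  have hPQ : ∀ x, x ∈ (P : Subgroup G) → x ∈ Q → x = 1 := by
    intro x hxP hxQ
    have h1 : orderOf x ∣ 9 := by rw [← hP9]; exact Subgroup.orderOf_dvd_natCard _ hxP
    have h2 : orderOf x ∣ 8 := by rw [← hQ8]; exact Subgroup.orderOf_dvd_natCard _ hxQ
    have h3 : orderOf x ∣ Nat.gcd 9 8 := Nat.dvd_gcd h1 h2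
    have h4 : Nat.gcd 9 8 = 1 := by norm_num
    rw [h4] at h3
    exact orderOf_eq_one_iff.1 (Nat.dvd_one.1 h3)
  -- the automorphism `σ` of `Q`
  obtain ⟨σ, hσ⟩ : ∃ σ : ↥Q → ↥Q, ∀ q : ↥Q, ((σ q : ↥Q) : G) = y * (q : G) * y⁻¹ :=
    ⟨fun q => ⟨y * q * y⁻¹, hyQ q q.2⟩, fun q => rfl⟩
  have hmul : ∀ a b : ↥Q, σ (a * b) = σ a * σ b := by
    intro a b
    apply Subtype.ext
    rw [Subgroup.coe_mul, hσ, hσ, hσ, Subgroup.coe_mul]
    group
  have hσ3 : ∀ q : ↥Q, σ (σ (σ q)) = q := by
    intro q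
    apply Subtype.ext
    rw [hσ, hσ, hσ]
    calc y * (y * (y * (q : G) * y⁻¹) * y⁻¹) * y⁻¹
        = (y * y * y) * (q : G) * (y * y * y)⁻¹ := by group
      _ = (q : G) := by rw [hy3]; group
  have hfix' : ∀ q : ↥Q, σ q = q → q = 1 ∨ q = ⟨t, htQ⟩ := by
    intro q hq
    have hq' : y * (q : G) * y⁻¹ = (q : G) := by rw [← hσ, hq]
    rcases hfix q q.2 hq' with h | h
    · left; exact Subtype.ext h
    · right; exact Subtype.ext h
  obtain ⟨hσt, hall⟩ := count_lemma hQ8 σ hmul hσ3 ⟨t, htQ⟩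
    (fun h => ht1 (congrArg Subtype.val h)) (Subtype.ext ht2) hfix'
  have hyt : y * t * y⁻¹ = t := by
    have h := congrArg Subtype.val hσt
    rw [hσ] at h
    exact h
  -- no involution other than `t`
  have hA : ¬ ∃ e ∈ Q, e ≠ 1 ∧ e ≠ t ∧ e * e = 1 := by
    rintro ⟨e, heQ, he1, het, he2⟩
    have hall' : ∀ q ∈ Q, q * q = 1 := fun q hq =>
      congrArg Subtype.val (hall ⟨⟨e, heQ⟩, fun h => he1 (congrArg Subtype.val h),
        fun h => het (congrArg Subtype.val h), Subtype.ext he2⟩ ⟨q, hq⟩)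
    have hQab : ∀ a ∈ Q, ∀ b ∈ Q, a * b = b * a := by
      intro a ha b hb
      have haa := hall' a ha
      have hbb := hall' b hb
      have hab2 := hall' (a * b) (Q.mul_mem ha hb)
      symm
      calc b * a = (a * a) * (b * a) * (b * b) := by rw [haa, hbb]; group
        _ = a * ((a * b) * (a * b)) * b := by group
        _ = a * b := by rw [hab2]; group
    have heinv : e⁻¹ = e := inv_eq_of_mul_eq_one_left he2
    have heo : orderOf e = 2 := orderOf_eq_prime (by rw [sq]; exact he2) he1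
    have h1 : ¬ Inverts e (P : Subgroup G) := by
      intro hInv
      obtain ⟨x', hx', hx'eq⟩ := (hIC G hG P t ht hinv e).1 ⟨heo, hInv⟩
      have hx'Q : x' ∈ Q := by
        have hx'2 : x' = t⁻¹ * e := by rw [hx'eq]; group
        rw [hx'2]; exact Q.mul_mem (Q.inv_mem htQ) heQ
      have hx'1 := hPQ x' hx' hx'Q
      rw [hx'1, mul_one] at hx'eq
      exact het hx'eq
    have hmemC : ∀ x, x ∈ (P : Subgroup G) ⊓ Subgroup.centralizer ({e} : Set G) ↔
        x ∈ (P : Subgroup G) ∧ e * x = x * e := by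
      intro x
      rw [Subgroup.mem_inf, Subgroup.mem_centralizer_iff]
      constructor
      · rintro ⟨h1, h2⟩; exact ⟨h1, h2 e rfl⟩
      · rintro ⟨h1, h2⟩
        refine ⟨h1, fun h hh => ?_⟩
        rw [Set.mem_singleton_iff] at hh
        rw [hh]; exact h2
    have hCbot : (P : Subgroup G) ⊓ Subgroup.centralizer ({e} : Set G) ≠ ⊥ := by
      intro hbot
      apply h1
      intro x hx
      have hex : e * x * e⁻¹ ∈ (P : Subgroup G) := hnorm e heQ x hx
      have hz : x * (e * x * e⁻¹) ∈ (P : Subgroup G) ⊓ Subgroup.centralizer ({e} : Set G) := by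
        rw [hmemC]
        refine ⟨Subgroup.mul_mem _ hx hex, ?_⟩
        have hcomm := habG x hx (e * x * e⁻¹) hex
        calc e * (x * (e * x * e⁻¹))
            = (e * x * e⁻¹) * ((e * e) * x * (e⁻¹ * e⁻¹)) * e := by group
          _ = (e * x * e⁻¹) * x * e := by rw [he2, heinv, he2]; group
          _ = x * (e * x * e⁻¹) * e := by rw [← hcomm]
      rw [hbot, Subgroup.mem_bot] at hz
      exact eq_inv_of_mul_eq_one_right hz
    have hCP : (P : Subgroup G) ⊓ Subgroup.centralizer ({e} : Set G) ≠ (P : Subgroup G) := by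
      intro hCP
      have he : e ∈ (P : Subgroup G) := by
        apply hC G hG P e
        intro x hx
        have hx' : x ∈ (P : Subgroup G) ⊓ Subgroup.centralizer ({e} : Set G) := by
          rw [hCP]; exact hx
        exact ((hmemC x).1 hx').2
      exact he1 (hPQ e he heQ)
    have hCle : (P : Subgroup G) ⊓ Subgroup.centralizer ({e} : Set G) ≤ (P : Subgroup G) :=
      inf_le_left
    have hC3 : Nat.card ((P : Subgroup G) ⊓ Subgroup.centralizer ({e} : Set G) : Subgroup G)
        = 3 := by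
      have hd : Nat.card ((P : Subgroup G) ⊓ Subgroup.centralizer ({e} : Set G) : Subgroup G)
          ∣ 9 := by rw [← hP9]; exact Subgroup.card_dvd_of_le hCle
      have hle := Nat.le_of_dvd (by norm_num) hd
      rcases div9 _ hle hd with h | h | h
      · exact absurd (Subgroup.card_eq_one.1 h) hCbot
      · exact h
      · exfalso; apply hCP
        exact Subgroup.eq_of_le_of_card_ge hCle (by rw [h, hP9])
    obtain ⟨x₀, hx₀⟩ := exists_prime_orderOf_dvd_card'
      (G := ↥((P : Subgroup G) ⊓ Subgroup.centralizer ({e} : Set G) : Subgroup G)) 3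
      (by rw [hC3])
    obtain ⟨x₁, hx1C, hx1o⟩ : ∃ x₁ : G,
        x₁ ∈ (P : Subgroup G) ⊓ Subgroup.centralizer ({e} : Set G) ∧ orderOf x₁ = 3 :=
      ⟨(x₀ : G), x₀.2, by rw [Subgroup.orderOf_coe]; exact hx₀⟩
    obtain ⟨hx1P, hx1e⟩ := (hmemC _).1 hx1C
    have hx1ne : x₁ ≠ 1 := by
      intro h; rw [h, orderOf_one] at hx1o; omega
    have hx13 : x₁ * x₁ * x₁ = 1 := by
      have h : x₁ ^ 3 = 1 := by rw [← hx1o]; exact pow_orderOf_eq_one x₁
      rw [pow_succ, pow_succ, pow_one] at h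
      exact h
    have hzC : Subgroup.zpowers x₁ =
        (P : Subgroup G) ⊓ Subgroup.centralizer ({e} : Set G) := by
      apply Subgroup.eq_of_le_of_card_ge
      · rw [Subgroup.zpowers_le]; exact hx1C
      · rw [Nat.card_zpowers, hx1o, hC3]
    have hact : ∀ q ∈ Q, q * x₁ * q⁻¹ = x₁ ∨ q * x₁ * q⁻¹ = x₁⁻¹ := by
      intro q hq
      have hw : q * x₁ * q⁻¹ ∈ (P : Subgroup G) ⊓ Subgroup.centralizer ({e} : Set G) := by
        rw [hmemC]
        refine ⟨hnorm q hq x₁ hx1P, ?_⟩
        have hqe := hQab e heQ q hq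
        calc e * (q * x₁ * q⁻¹) = (e * q) * x₁ * q⁻¹ := by group
          _ = q * (e * x₁) * q⁻¹ := by rw [hqe]; group
          _ = q * (x₁ * e) * q⁻¹ := by rw [hx1e]
          _ = q * x₁ * q⁻¹ * (q * e) * q⁻¹ := by group
          _ = q * x₁ * q⁻¹ * (e * q) * q⁻¹ := by rw [hqe]
          _ = q * x₁ * q⁻¹ * e := by group
      rw [← hzC, Subgroup.mem_zpowers_iff] at hw
      obtain ⟨k, hk⟩ := hw
      have hk' : x₁ ^ (k % 3) = q * x₁ * q⁻¹ := by
        rw [← hk]
        have h := zpow_mod_orderOf x₁ k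
        rw [hx1o] at h
        have h3' : ((3 : ℕ) : ℤ) = 3 := by norm_num
        rw [h3'] at h
        exact h
      have hk3 : k % 3 = 0 ∨ k % 3 = 1 ∨ k % 3 = 2 := by omega
      rcases hk3 with h | h | h
      · rw [h, zpow_zero] at hk'
        exfalso; apply hx1ne
        calc x₁ = q⁻¹ * (q * x₁ * q⁻¹) * q := by group
          _ = 1 := by rw [← hk']; group
      · left; rw [h, zpow_one] at hk'; exact hk'.symm
      · right; rw [h] at hk'
        rw [← hk']
        have h2 : x₁ ^ (2 : ℤ) * x₁ = 1 := by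
          rw [zpow_two]; exact hx13
        exact eq_inv_of_mul_eq_one_left h2
    have htx : t * x₁ * t⁻¹ = x₁⁻¹ := hinv x₁ hx1P
    have haQ : y * e * y⁻¹ ∈ Q := hyQ e heQ
    have ha1 : y * e * y⁻¹ ≠ 1 := by
      intro h
      apply he1
      calc e = y⁻¹ * (y * e * y⁻¹) * y := by group
        _ = 1 := by rw [h]; group
    have hae : y * e * y⁻¹ ≠ e := by
      intro h
      rcases hfix e heQ h with h' | h'
      · exact he1 h'
      · exact het h'
    have hat : y * e * y⁻¹ ≠ t := by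
      intro h
      apply het
      calc e = y⁻¹ * (y * e * y⁻¹) * y := by group
        _ = y⁻¹ * (y * t * y⁻¹) * y := by rw [h, hyt]
        _ = t := by group
    have hate : y * e * y⁻¹ ≠ t * e := by
      intro h
      have h2 : y * (y * e * y⁻¹) * y⁻¹ = e := by
        rw [h]
        calc y * (t * e) * y⁻¹ = (y * t * y⁻¹) * (y * e * y⁻¹) := by group
          _ = t * (t * e) := by rw [hyt, h]
          _ = e := by rw [← mul_assoc, ht2, one_mul]
      apply hae
      calc y * e * y⁻¹ = y * (y * (y * e * y⁻¹) * y⁻¹) * y⁻¹ := by rw [h2]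
        _ = (y * y * y) * e * (y * y * y)⁻¹ := by group
        _ = e := by rw [hy3]; group
    obtain ⟨q₂, hq2Q, hq2x, hq21, hq2e⟩ :
        ∃ q₂ ∈ Q, q₂ * x₁ * q₂⁻¹ = x₁ ∧ q₂ ≠ 1 ∧ q₂ ≠ e := by
      rcases hact _ haQ with h | h
      · exact ⟨y * e * y⁻¹, haQ, h, ha1, hae⟩
      · refine ⟨t * (y * e * y⁻¹), Q.mul_mem htQ haQ, ?_, ?_, ?_⟩
        · calc t * (y * e * y⁻¹) * x₁ * (t * (y * e * y⁻¹))⁻¹
              = t * ((y * e * y⁻¹) * x₁ * (y * e * y⁻¹)⁻¹) * t⁻¹ := by group
            _ = t * x₁⁻¹ * t⁻¹ := by rw [h]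
            _ = (t * x₁ * t⁻¹)⁻¹ := by group
            _ = x₁ := by rw [htx, inv_inv]
        · intro h'
          apply hat
          calc y * e * y⁻¹ = t⁻¹ * (t * (y * e * y⁻¹)) := by group
            _ = t := by rw [h', mul_one, htinv]
        · intro h'
          apply hate
          calc y * e * y⁻¹ = t⁻¹ * (t * (y * e * y⁻¹)) := by group
            _ = t * e := by rw [h', htinv]
    have hmemQ1 : ∀ q, q ∈ Q → q * x₁ * q⁻¹ = x₁ →
        q ∈ Q ⊓ Subgroup.centralizer ({x₁} : Set G) := by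
      intro q hq hqx
      rw [Subgroup.mem_inf, Subgroup.mem_centralizer_iff]
      refine ⟨hq, fun h hh => ?_⟩
      rw [Set.mem_singleton_iff] at hh
      rw [hh]
      calc x₁ * q = (q * x₁ * q⁻¹) * q := by rw [hqx]
        _ = q * x₁ := by group
    have heQ1 : e ∈ Q ⊓ Subgroup.centralizer ({x₁} : Set G) :=
      hmemQ1 e heQ (by rw [hx1e]; group)
    have hq2Q1 : q₂ ∈ Q ⊓ Subgroup.centralizer ({x₁} : Set G) := hmemQ1 q₂ hq2Q hq2x
    have hcard3 : 2 < Nat.card (Q ⊓ Subgroup.centralizer ({x₁} : Set G) : Subgroup G) := by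
      have : Fintype ↥(Q ⊓ Subgroup.centralizer ({x₁} : Set G) : Subgroup G) :=
        Fintype.ofFinite _
      rw [Nat.card_eq_fintype_card]
      exact Fintype.two_lt_card_iff.2 ⟨⟨1, Subgroup.one_mem _⟩, ⟨e, heQ1⟩, ⟨q₂, hq2Q1⟩,
        fun h => he1 (congrArg Subtype.val h).symm,
        fun h => hq21 (congrArg Subtype.val h).symm,
        fun h => hq2e (congrArg Subtype.val h).symm⟩
    have hd8 : Nat.card (Q ⊓ Subgroup.centralizer ({x₁} : Set G) : Subgroup G) ∣ 8 := by
      rw [← hQ8]; exact Subgroup.card_dvd_of_le inf_le_left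
    have h4 : 4 ∣ Nat.card (Q ⊓ Subgroup.centralizer ({x₁} : Set G) : Subgroup G) :=
      div8 _ (Nat.le_of_dvd (by norm_num) hd8) hd8 hcard3
    have h4' : 4 ∣ Nat.card (Subgroup.centralizer ({x₁} : Set G)) :=
      h4.trans (Subgroup.card_dvd_of_le inf_le_right)
    exact Cfsg.Agent.Lib.Helper92.M11Asm4.cent_three Cfsg.Agent.Lib.Helper92.M11EX.main
      Cfsg.Agent.Lib.Helper69.M11R11.main Cfsg.Agent.Lib.Helper69.M11R5.main
      Cfsg.Agent.Lib.Helper33.M11DIV.main Cfsg.Agent.Lib.Helper3.M11M4.main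
      Cfsg.Agent.Lib.Helper59.M11I3.main hG x₁ hx1o h4'
  -- every other element squares to `t`
  intro q hqQ hq1 hqt
  by_contra hne
  have hr1 : q * q ≠ 1 := fun h => hA ⟨q, hqQ, hq1, hqt, h⟩
  have hrQ : q * q ∈ Q := Q.mul_mem hqQ hqQ
  have hr2 : (q * q) * (q * q) ≠ 1 := fun h => hA ⟨q * q, hrQ, hr1, hne, h⟩
  have ho : orderOf q = 8 := by
    have h1 : orderOf q ∣ 8 := by rw [← hQ8]; exact Subgroup.orderOf_dvd_natCard _ hqQ
    have h2 : ¬ orderOf q ∣ 4 := by
      intro h
      apply hr2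
      have h4 : q ^ 4 = 1 := orderOf_dvd_iff_pow_eq_one.1 h
      have h44 : q ^ 4 = (q * q) * (q * q) := by
        rw [show (4 : ℕ) = 2 + 2 from rfl, pow_add, pow_two]
      rw [← h44]; exact h4
    have h8 : (8 : ℕ) = 2 ^ 3 := by norm_num
    rw [h8] at h1
    obtain ⟨j, hj, hj'⟩ := (Nat.dvd_prime_pow Nat.prime_two).1 h1
    have hj3 : j = 3 := by
      by_contra hj3
      apply h2
      rw [hj']
      have hj2 : j ≤ 2 := by omega
      have h22 : (4 : ℕ) = 2 ^ 2 := by norm_num
      rw [h22]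
      exact pow_dvd_pow 2 hj2
    rw [hj', hj3]; norm_num
  have ho' : orderOf (⟨q, hqQ⟩ : ↥Q) = 8 := by rw [Subgroup.orderOf_mk]; exact ho
  have h := no_order8 hQ8 σ hmul hσ3 ⟨q, hqQ⟩ ho'
  rcases hfix' _ h with h | h
  · exact hq1 (congrArg Subtype.val h)
  · exact hqt (congrArg Subtype.val h)

end Cfsg.Agent.Lib.Helper93.MUUNIQ
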