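import Mathlib
import Cfsg.Agent.Lib.Helper44.OFldStmt

set_option autoImplicit false

/-! Piece [A2] of S2736: the standard field automorphisms `cσ` of `PΩ⁺` and their commutation
with the similarity action `Phi`. -/

namespace Cfsg.Agent.Lib.Helper93.OFldA2

open Matrix Module QuadraticMap
open Cfsg.Agent.Lib.Helper43.OPlAut Cfsg.Agent.Lib.Helper45.OmegaAut
  Cfsg.Agent.Lib.Helper43.H90Fin
open Cfsg.Agent.Lib.Helper44.OFld0 Cfsg.Agent.Lib.Helper44.OFld1 Cfsg.Agent.Lib.Helper44.MaxTS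
  Cfsg.Agent.Lib.Helper44.NegPairs Cfsg.Agent.Lib.Helper44.QSpace
  Cfsg.Agent.Lib.Helper44.QClass

universe u

theorem cσOne : Cfsg.Agent.Lib.Helper44.OFldStmt.CσOne.{u} := by
  intro F _ m
  apply MulEquiv.ext
  intro x
  induction x using QuotientGroup.induction_on with
  | H s =>
    rw [cσ_mk]
    rfl

theorem cσMul : Cfsg.Agent.Lib.Helper44.OFldStmt.CσMul.{u} := by
  intro F _ m σ τ
  apply MulEquiv.ext
  intro x
  induction x using QuotientGroup.induction_on with
  | H s =>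
    rw [cσ_mk]
    rfl

theorem cσMulPhi : Cfsg.Agent.Lib.Helper44.OFldStmt.CσMulPhi.{u} := by
  intro F _ m σ g
  apply MulEquiv.ext
  intro x
  induction x using QuotientGroup.induction_on with
  | H s =>
    show cσ σ (Phi (Cfsg.quadFormPlus m F) g (QuotientGroup.mk s)) =
      Phi (Cfsg.quadFormPlus m F) (mapGO σ g) (cσ σ (QuotientGroup.mk s))
    rw [Phi_mk, cσ_mk, cσ_mk, Phi_mk]
    congr 1
    apply Subtype.ext
    apply Subtype.ext
    rw [omAut_coe, cjΩ_coe, cjΩ_coe, omAut_coe, map_mul, map_mul, map_inv]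
    rfl

theorem powEq : Cfsg.Agent.Lib.Helper44.OFldStmt.PowEq.{u} := by
  intro F _ m σ g k
  induction k with
  | zero =>
    have h1 : (cσ (1 : RingAut F) : MulAut (Cfsg.POmega F (Cfsg.quadFormPlus m F))) = 1 :=
      cσOne F m
    rw [pow_zero, tw_zero, map_one, pow_zero, h1, mul_one]
  | succ k ih =>
    have h2 : (cσ (σ * σ ^ k) : MulAut (Cfsg.POmega F (Cfsg.quadFormPlus m F))) =
        cσ σ * cσ (σ ^ k) := cσMul F m σ (σ ^ k)
    have h3 : cσ σ * Phi (Cfsg.quadFormPlus m F) (tw σ g k) =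
        Phi (Cfsg.quadFormPlus m F) (mapGO σ (tw σ g k)) * cσ σ := cσMulPhi F m σ (tw σ g k)
    rw [pow_succ', ih, tw_succ, map_mul, pow_succ', h2]
    calc Phi (Cfsg.quadFormPlus m F) g * cσ σ *
          (Phi (Cfsg.quadFormPlus m F) (tw σ g k) * cσ (σ ^ k))
        = Phi (Cfsg.quadFormPlus m F) g * (cσ σ * Phi (Cfsg.quadFormPlus m F) (tw σ g k)) *
            cσ (σ ^ k) := by group
      _ = Phi (Cfsg.quadFormPlus m F) g * Phi (Cfsg.quadFormPlus m F) (mapGO σ (tw σ g k)) *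
          (cσ σ * cσ (σ ^ k)) := by rw [h3]; group

end Cfsg.Agent.Lib.Helper93.OFldA2
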