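import Mathlib
import Cfsg.Agent.Lib.Helper37.OrtStmt
import Cfsg.Agent.Lib.Helper37.TensorBasic
import Cfsg.Agent.Lib.Helper95.SpTGRAMND

/-!
# S5981, piece QFORM

The similarity group of a non-degenerate quadratic form `Q` (`2 ≠ 0`) in terms of the Gram
matrix `S` of the polar form: `g` is a similarity iff `gᵀ * S * g = c • S` for some `c ≠ 0`.
-/

set_option autoImplicit false

namespace Cfsg.Agent.Lib.Helper93.OrtQFORM

open scoped Matrix
open Cfsg.Agent.Lib.Helper37.OrtStmt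

universe u

variable {F : Type u} [Field F]

theorem dot_eq_sum {κ : Type} [Fintype κ] (G : Matrix κ κ F) (x y : κ → F) :
    x ⬝ᵥ G *ᵥ y = ∑ a, ∑ b, x a * G a b * y b := by
  simp only [dotProduct, Matrix.mulVec, Finset.mul_sum, mul_assoc]

theorem conj_dot {κ : Type} [Fintype κ] (M S : Matrix κ κ F) (u v : κ → F) :
    (M *ᵥ u) ⬝ᵥ S *ᵥ (M *ᵥ v) = u ⬝ᵥ (Mᵀ * S * M) *ᵥ v := by
  rw [Matrix.mul_assoc, ← Matrix.mulVec_mulVec, Matrix.dotProduct_mulVec u Mᵀ,
    Matrix.vecMul_transpose, Matrix.mulVec_mulVec]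

theorem single_dot {κ : Type} [Fintype κ] [DecidableEq κ] (A : Matrix κ κ F) (i j : κ) :
    (Pi.single i (1 : F)) ⬝ᵥ A *ᵥ (Pi.single j 1) = A i j := by
  rw [dot_eq_sum, Finset.sum_eq_single i, Finset.sum_eq_single j]
  · simp
  · intro b _ hb
    simp [hb]
  · intro h
    exact absurd (Finset.mem_univ _) h
  · intro a _ ha
    apply Finset.sum_eq_zero
    intro b _
    simp [ha]
  · intro h
    exact absurd (Finset.mem_univ _) h

theorem main : QForm.{u} := by
  intro F _ h2 n Q hQ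
  classical
  obtain ⟨S, hS⟩ : ∃ S : Matrix (Fin n) (Fin n) F,
      S = Cfsg.Geo.gramMatrix (QuadraticMap.polar Q) := ⟨_, rfl⟩
  have hpol : ∀ u v : Fin n → F, QuadraticMap.polar Q u v = u ⬝ᵥ S *ᵥ v := by
    intro u v
    rw [Cfsg.Agent.Lib.Helper37.TensorBasic.bilin_eq_gram hQ.polar_bilinear, dot_eq_sum, hS]
  have hQv : ∀ v : Fin n → F, 2 * Q v = v ⬝ᵥ S *ᵥ v := by
    intro v
    rw [← hpol]
    unfold QuadraticMap.polar
    have h := hQ.smul 2 v
    rw [two_smul] at h
    rw [h]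
    ring
  have hsymm : Sᵀ = S := by
    ext i j
    rw [Matrix.transpose_apply, hS]
    unfold Cfsg.Geo.gramMatrix
    exact QuadraticMap.polar_comm Q _ _
  refine ⟨S, hsymm, ?_, ?_⟩
  · rw [hS]
    exact Cfsg.Agent.Lib.Helper95.SpTGRAMND.main F n _ hQ.polar_bilinear hQ.nondegenerate
  · intro g
    constructor
    · rintro ⟨c, hc⟩
      refine ⟨(c : F), c.ne_zero, ?_⟩
      have hp : ∀ u v : Fin n → F,
          QuadraticMap.polar Q ((g : Matrix (Fin n) (Fin n) F) *ᵥ u)
            ((g : Matrix (Fin n) (Fin n) F) *ᵥ v) = (c : F) * QuadraticMap.polar Q u v := by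
        intro u v
        unfold QuadraticMap.polar
        rw [← Matrix.mulVec_add, hc, hc, hc]
        ring
      ext i j
      have h := hp (Pi.single i 1) (Pi.single j 1)
      rw [hpol, hpol, conj_dot, single_dot, single_dot] at h
      rw [h, Matrix.smul_apply, smul_eq_mul]
    · rintro ⟨c, hc0, hc⟩
      refine ⟨Units.mk0 c hc0, fun v => ?_⟩
      have h1 := hQv ((g : Matrix (Fin n) (Fin n) F) *ᵥ v)
      have h3 := hQv v
      rw [conj_dot, hc, Matrix.smul_mulVec, dotProduct_smul, smul_eq_mul, ← h3] at h1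
      rw [Units.val_mk0]
      apply mul_left_cancel₀ h2
      rw [h1]
      ring

end Cfsg.Agent.Lib.Helper93.OrtQFORM
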