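import Mathlib
import Cfsg.Agent.Lib.Helper90.Basic
import Cfsg.Agent.Lib.Helper90.Count
import Cfsg.Agent.Lib.Helper93.SympType

/-!
# Conjugates of the central involution in a 2-subgroup of symplectic type

`SYD Q z` records the properties of `Q = F*(C_G(z))` used below (all squares and commutators of
`Q` lie in `{1, z}`, `C_G(Q) ≤ Q`, `z` is the only central involution of `Q`, and `C_G(z)`
normalizes `Q`).  The main results: if a conjugate `g z g⁻¹ ≠ z` lies in `Q` then `z` lies in
`g Q g⁻¹` (`SYD.mem_conj_of_conj_mem`), and `⟨Q, g Q g⁻¹⟩` induces the full automorphism group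
of the four-group `⟨z, g z g⁻¹⟩` (`SYD.four_group`).  The first proof follows
`Cfsg.Agent.Lib.Helper90.ESData.ESD.mem_conj_of_conj_mem`, with the extra small case.
-/

set_option autoImplicit false

namespace Cfsg.Agent.Lib.Helper93.SympConj

open Cfsg.Agent.Lib.Helper90

variable {G : Type*} [Group G]

structure SYD (Q : Subgroup G) (z : G) : Prop where
  zQ : z ∈ Q
  z1 : z ≠ 1
  zz : z * z = 1
  zc : ∀ q ∈ Q, q * z = z * q
  comm : ∀ x ∈ Q, ∀ y ∈ Q, x * y * x⁻¹ * y⁻¹ = 1 ∨ x * y * x⁻¹ * y⁻¹ = z
  sq : ∀ x ∈ Q, x * x = 1 ∨ x * x = z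
  cent : ∀ c : G, (∀ q ∈ Q, c * q = q * c) → c ∈ Q
  cinv : ∀ c ∈ Q, (∀ q ∈ Q, c * q = q * c) → c * c = 1 → c = 1 ∨ c = z
  norm : ∀ n : G, n * z = z * n → ∀ q ∈ Q, n * q * n⁻¹ ∈ Q

/-- Transport of the data to a conjugate. -/
theorem SYD.conj {Q : Subgroup G} {z : G} (hE : SYD Q z) (g : G) :
    SYD (Q.map (MulAut.conj g).toMonoidHom) (g * z * g⁻¹) := by
  have hmem : ∀ x, x ∈ Q.map (MulAut.conj g).toMonoidHom ↔ g⁻¹ * x * g ∈ Q :=
    fun x => Basic.mem_map_conj_iff Q g x
  have hback : ∀ c : G, (∀ q ∈ Q.map (MulAut.conj g).toMonoidHom, c * q = q * c) →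
      ∀ q ∈ Q, (g⁻¹ * c * g) * q = q * (g⁻¹ * c * g) := by
    intro c hc q hq
    have hq' : g * q * g⁻¹ ∈ Q.map (MulAut.conj g).toMonoidHom := by
      rw [hmem]
      have : g⁻¹ * (g * q * g⁻¹) * g = q := by group
      rw [this]; exact hq
    have := congrArg (fun t => g⁻¹ * t * g) (hc _ hq')
    simpa [mul_assoc] using this
  refine ⟨?_, ?_, ?_, ?_, ?_, ?_, ?_, ?_, ?_⟩
  · rw [hmem]
    have : g⁻¹ * (g * z * g⁻¹) * g = z := by group
    rw [this]; exact hE.zQ
  · intro h
    apply hE.z1
    have := congrArg (fun t => g⁻¹ * t * g) h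
    simpa [mul_assoc] using this
  · have : g * z * g⁻¹ * (g * z * g⁻¹) = g * (z * z) * g⁻¹ := by group
    rw [this, hE.zz]; simp
  · intro q hq
    rw [hmem] at hq
    have h := hE.zc _ hq
    have := congrArg (fun t => g * t * g⁻¹) h
    simpa [mul_assoc] using this
  · intro x hx y hy
    rw [hmem] at hx hy
    have e : x * y * x⁻¹ * y⁻¹ =
        g * ((g⁻¹ * x * g) * (g⁻¹ * y * g) * (g⁻¹ * x * g)⁻¹ * (g⁻¹ * y * g)⁻¹) * g⁻¹ := by group
    rcases hE.comm _ hx _ hy with h | h
    · left; rw [e, h]; simp
    · right; rw [e, h]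
  · intro x hx
    rw [hmem] at hx
    have e : x * x = g * ((g⁻¹ * x * g) * (g⁻¹ * x * g)) * g⁻¹ := by group
    rcases hE.sq _ hx with h | h
    · left; rw [e, h]; simp
    · right; rw [e, h]
  · intro c hc
    rw [hmem]
    exact hE.cent _ (hback c hc)
  · intro c hcQ hc hcc
    rw [hmem] at hcQ
    have h2 : (g⁻¹ * c * g) * (g⁻¹ * c * g) = 1 := by
      calc g⁻¹ * c * g * (g⁻¹ * c * g) = g⁻¹ * (c * c) * g := by group
        _ = 1 := by rw [hcc]; group
    rcases hE.cinv _ hcQ (hback c hc) h2 with h | h
    · left
      have := congrArg (fun t => g * t * g⁻¹) h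
      simpa [mul_assoc] using this
    · right
      have := congrArg (fun t => g * t * g⁻¹) h
      simpa [mul_assoc] using this
  · intro n hn q hq
    rw [hmem] at hq ⊢
    have h1 : (g⁻¹ * n * g) * z = z * (g⁻¹ * n * g) := by
      have := congrArg (fun t => g⁻¹ * t * g) hn
      simpa [mul_assoc] using this
    have h2 := hE.norm _ h1 _ hq
    have e : g⁻¹ * (n * q * n⁻¹) * g = g⁻¹ * n * g * (g⁻¹ * q * g) * (g⁻¹ * n * g)⁻¹ := by group
    rw [e]; exact h2

/-- A non-central involution of `Q` is conjugate in `Q` to its product with `z`. -/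
theorem SYD.exists_conj {Q : Subgroup G} {z : G} (hE : SYD Q z) {b : G} (hb : b ∈ Q)
    (hb1 : b ≠ 1) (hbz : b ≠ z) (hbb : b * b = 1) : ∃ q ∈ Q, q * b * q⁻¹ = z * b := by
  by_contra hcon
  push Not at hcon
  have hall : ∀ q ∈ Q, b * q = q * b := by
    intro q hq
    rcases hE.comm q hq b hb with h | h
    · have := congrArg (fun t => t * b * q) h
      simpa [mul_assoc] using this.symm
    · exfalso
      apply hcon q hq
      have := congrArg (fun t => t * b) h
      simpa [mul_assoc] using this
  rcases hE.cinv b hb hall hbb with h | h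
  · exact hb1 h
  · exact hbz h

/-- `Q` is the union of the centralizer of `b` and one further coset. -/
theorem SYD.comm_or {Q : Subgroup G} {z : G} (hE : SYD Q z) {b q₀ : G} (hb : b ∈ Q)
    (h0 : q₀ * b * q₀⁻¹ = z * b) {x : G} (hx : x ∈ Q) :
    x * b = b * x ∨ (x * q₀) * b = b * (x * q₀) := by
  rcases hE.comm x hx b hb with h | h
  · left
    have := congrArg (fun t => t * b * x) h
    simpa [mul_assoc] using this
  · right
    have h1 : q₀ * b = z * b * q₀ := by
      have := congrArg (fun t => t * q₀) h0
      simpa [mul_assoc] using this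
    have h2 : x * b = z * b * x := by
      have := congrArg (fun t => t * b * x) h
      simpa [mul_assoc] using this
    have h3 : x * z = z * x := hE.zc x hx
    calc x * q₀ * b = x * (q₀ * b) := by group
      _ = x * (z * b * q₀) := by rw [h1]
      _ = (x * z) * b * q₀ := by group
      _ = z * (x * b) * q₀ := by rw [h3]; group
      _ = z * (z * b * x) * q₀ := by rw [h2]
      _ = (z * z) * b * x * q₀ := by group
      _ = b * (x * q₀) := by rw [hE.zz]; group

/-- An element commuting with `q₀` and with the centralizer of `b` in `Q` centralizes `Q`. -/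
theorem SYD.central_of {Q : Subgroup G} {z : G} (hE : SYD Q z) {b q₀ : G} (hb : b ∈ Q)
    (hq₀ : q₀ ∈ Q) (h0 : q₀ * b * q₀⁻¹ = z * b) {c : G} (hc0 : c * q₀ = q₀ * c)
    (hcc : ∀ p ∈ Q, p * b = b * p → c * p = p * c) : ∀ y ∈ Q, c * y = y * c := by
  intro y hy
  rcases hE.comm_or hb h0 hy with h | h
  · exact hcc y hy h
  · have h1 := hcc (y * q₀) (Q.mul_mem hy hq₀) h
    have : c * y * q₀ = y * c * q₀ := by
      calc c * y * q₀ = c * (y * q₀) := by group
        _ = y * q₀ * c := h1
        _ = y * (q₀ * c) := by group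
        _ = y * (c * q₀) := by rw [hc0]
        _ = y * c * q₀ := by group
    exact mul_right_cancel this

/-- The double centralizer of `b` in `Q`: an element of `Q` commuting with the centralizer of
`b` in `Q` is central, or becomes central after multiplication by `b`. -/
theorem SYD.double_cent {Q : Subgroup G} {z : G} (hE : SYD Q z) {b q₀ : G} (hb : b ∈ Q)
    (hq₀ : q₀ ∈ Q) (h0 : q₀ * b * q₀⁻¹ = z * b) {x : G} (hx : x ∈ Q)
    (hxc : ∀ p ∈ Q, p * b = b * p → x * p = p * x) :
    (∀ y ∈ Q, x * y = y * x) ∨ (∀ y ∈ Q, (b * x) * y = y * (b * x)) := by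
  rcases hE.comm x hx q₀ hq₀ with h | h
  · left
    have hc0 : x * q₀ = q₀ * x := by
      have := congrArg (fun t => t * q₀ * x) h
      simpa [mul_assoc] using this
    exact hE.central_of hb hq₀ h0 hc0 hxc
  · right
    have hxq : x * q₀ = z * q₀ * x := by
      have := congrArg (fun t => t * q₀ * x) h
      simpa [mul_assoc] using this
    have hq0b : q₀ * b = z * b * q₀ := by
      have := congrArg (fun t => t * q₀) h0
      simpa [mul_assoc] using this
    have hbz : b * z = z * b := hE.zc b hb
    have hbq : b * q₀ = z * q₀ * b := by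
      calc b * q₀ = (z * z) * b * q₀ := by rw [hE.zz]; group
        _ = z * (z * b * q₀) := by group
        _ = z * (q₀ * b) := by rw [hq0b]
        _ = z * q₀ * b := by group
    have hc0 : (b * x) * q₀ = q₀ * (b * x) := by
      calc b * x * q₀ = b * (x * q₀) := by group
        _ = b * (z * q₀ * x) := by rw [hxq]
        _ = (b * z) * q₀ * x := by group
        _ = z * (b * q₀) * x := by rw [hbz]; group
        _ = z * (z * q₀ * b) * x := by rw [hbq]
        _ = (z * z) * q₀ * b * x := by group
        _ = q₀ * (b * x) := by rw [hE.zz]; group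
    have hcc : ∀ p ∈ Q, p * b = b * p → (b * x) * p = p * (b * x) := by
      intro p hp hpb
      calc b * x * p = b * (x * p) := by group
        _ = b * (p * x) := by rw [hxc p hp hpb]
        _ = (b * p) * x := by group
        _ = (p * b) * x := by rw [hpb]
        _ = p * (b * x) := by group
    exact hE.central_of hb hq₀ h0 hc0 hcc

/-- If a conjugate `g z g⁻¹ ≠ z` of the central involution lies in `Q`, then `z` lies in the
conjugate `g Q g⁻¹`. -/
theorem SYD.mem_conj_of_conj_mem {Q : Subgroup G} {z : G} (hE : SYD Q z)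
    (g : G) (hsQ : g * z * g⁻¹ ∈ Q) (hsz : g * z * g⁻¹ ≠ z) :
    z ∈ Q.map (MulAut.conj g).toMonoidHom := by
  have hE' : SYD (Q.map (MulAut.conj g).toMonoidHom) (g * z * g⁻¹) := hE.conj g
  have hmem : ∀ x, x ∈ Q.map (MulAut.conj g).toMonoidHom ↔ g⁻¹ * x * g ∈ Q :=
    fun x => Basic.mem_map_conj_iff Q g x
  generalize hQ' : Q.map (MulAut.conj g).toMonoidHom = Q' at hE' hmem ⊢
  have hsdef : ∀ s, s = g * z * g⁻¹ → z ∈ Q' := by
    intro s hs
    rw [← hs] at hE' hsQ hsz
    have hs1 : s ≠ 1 := hE'.z1
    have hss : s * s = 1 := hE'.zz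
    have hzz : z * z = 1 := hE.zz
    have hsz' : s * z = z * s := hE.zc s hsQ
    have hsinv : s⁻¹ = s := inv_eq_of_mul_eq_one_right hss
    have hzinv : z⁻¹ = z := inv_eq_of_mul_eq_one_right hzz
    obtain ⟨t, ht, hts⟩ := hE.exists_conj hsQ hs1 hsz hss
    have htz : t * z = z * t := hE.zc t ht
    -- Lemma A
    have lemA : ∀ x ∈ Q', x * z * x⁻¹ = z * s → z ∈ Q' := by
      intro x hx hxz
      have hxs : x * s = s * x := hE'.zc x hx
      have hn : (t * x) * z * (t * x)⁻¹ = s := by
        calc t * x * z * (t * x)⁻¹ = t * (x * z * x⁻¹) * t⁻¹ := by group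
          _ = t * (z * s) * t⁻¹ := by rw [hxz]
          _ = (t * z) * t⁻¹ * (t * s * t⁻¹) := by group
          _ = z * t * t⁻¹ * (z * s) := by rw [htz, hts]
          _ = (z * z) * s := by group
          _ = s := by rw [hzz]; simp
      have hcomm : (g⁻¹ * (t * x)) * z = z * (g⁻¹ * (t * x)) := by
        have := congrArg (fun u => g⁻¹ * u * (t * x)) hn
        rw [hs] at this
        simpa [mul_assoc] using this
      have hxz' : x⁻¹ * z * x = z * s := by
        have h1 : x⁻¹ * s * x = s := by
          have := congrArg (fun u => x⁻¹ * u) hxs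
          simpa [mul_assoc] using this.symm
        have h2 : z = x⁻¹ * z * x * s := by
          calc z = x⁻¹ * (x * z * x⁻¹) * x := by group
            _ = x⁻¹ * (z * s) * x := by rw [hxz]
            _ = x⁻¹ * z * x * (x⁻¹ * s * x) := by group
            _ = x⁻¹ * z * x * s := by rw [h1]
        calc x⁻¹ * z * x = x⁻¹ * z * x * (s * s) := by rw [hss]; simp
          _ = (x⁻¹ * z * x * s) * s := by group
          _ = z * s := by rw [← h2]
      rw [hmem]
      have h3 := hE.norm _ hcomm (z * s) (Q.mul_mem hE.zQ hsQ)
      have e : g⁻¹ * (t * x) * (z * s) * (g⁻¹ * (t * x))⁻¹ = g⁻¹ * z * g := by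
        calc g⁻¹ * (t * x) * (z * s) * (g⁻¹ * (t * x))⁻¹
            = g⁻¹ * (t * x) * (x⁻¹ * z * x) * (g⁻¹ * (t * x))⁻¹ := by rw [hxz']
          _ = g⁻¹ * (t * z) * t⁻¹ * g := by group
          _ = g⁻¹ * (z * t) * t⁻¹ * g := by rw [htz]
          _ = g⁻¹ * z * g := by group
      rw [e] at h3
      exact h3
    by_contra hzQ'
    have step2 : ∀ u ∈ Q', (z * u * z⁻¹ * u⁻¹ = 1 ∨ z * u * z⁻¹ * u⁻¹ = s) → z * u = u * z := by
      intro u hu h
      rcases h with h | h
      · have := congrArg (fun t => t * u * z) h
        simpa [mul_assoc] using this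
      · exfalso
        apply hzQ'
        apply lemA u hu
        have h1 : u * z * u⁻¹ = s⁻¹ * z := by
          have := congrArg (fun t => t⁻¹ * z) h
          simpa [mul_assoc] using this
        rw [h1, hsinv, hsz']
    -- the intersection of `Q` and `Q'`
    have hD : ∀ d ∈ Q, d ∈ Q' → d = 1 ∨ d = s := by
      intro d hdQ hdQ'
      have hdP : ∀ p ∈ Q, p * s = s * p → d * p = p * d := by
        intro p hp hps
        have h1 : d * p * d⁻¹ * p⁻¹ ∈ Q' := by
          have h1 := hE'.norm p hps d⁻¹ (Q'.inv_mem hdQ')
          have h2 := Q'.mul_mem hdQ' h1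
          have e : d * (p * d⁻¹ * p⁻¹) = d * p * d⁻¹ * p⁻¹ := by group
          rwa [e] at h2
        rcases hE.comm d hdQ p hp with h | h
        · have := congrArg (fun t => t * p * d) h
          simpa [mul_assoc] using this
        · rw [h] at h1
          exact absurd h1 hzQ'
      have hdd : d * d = 1 := by
        rcases hE.sq d hdQ with h | h
        · exact h
        · exfalso
          have := Q'.mul_mem hdQ' hdQ'
          rw [h] at this
          exact hzQ' this
      have hds : d * s = s * d := hE'.zc d hdQ'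
      rcases hE.double_cent hsQ ht hts hdQ hdP with h | h
      · rcases hE.cinv d hdQ h hdd with h' | h'
        · exact Or.inl h'
        · rw [h'] at hdQ'; exact absurd hdQ' hzQ'
      · have hsd : (s * d) * (s * d) = 1 := by
          calc s * d * (s * d) = s * (d * s) * d := by group
            _ = s * (s * d) * d := by rw [hds]
            _ = (s * s) * (d * d) := by group
            _ = 1 := by rw [hss, hdd, one_mul]
        rcases hE.cinv (s * d) (Q.mul_mem hsQ hdQ) h hsd with h' | h'
        · right
          have : d = s⁻¹ := eq_inv_of_mul_eq_one_right h'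
          rw [this, hsinv]
        · exfalso
          apply hzQ'
          rw [← h']
          exact Q'.mul_mem hE'.zQ hdQ'
    have delta : ∀ r ∈ Q', r * z = z * r → ∀ p ∈ Q, p * s = s * p →
        (r * p * r⁻¹ * p⁻¹ = 1 ∨ r * p * r⁻¹ * p⁻¹ = s) := by
      intro r hr hrz p hp hps
      have hcQ : r * p * r⁻¹ * p⁻¹ ∈ Q := Q.mul_mem (hE.norm r hrz p hp) (Q.inv_mem hp)
      have hcQ' : r * p * r⁻¹ * p⁻¹ ∈ Q' := by
        have h1 := hE'.norm p hps r⁻¹ (Q'.inv_mem hr)
        have h2 := Q'.mul_mem hr h1
        have e : r * (p * r⁻¹ * p⁻¹) = r * p * r⁻¹ * p⁻¹ := by group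
        rwa [e] at h2
      exact hD _ hcQ hcQ'
    by_cases hpex : ∃ p ∈ Q, p * s = s * p ∧ p * p = z
    · -- the main case: a square root `p` of `z` in the centralizer of `s`
      obtain ⟨p, hp, hps, hpp⟩ := hpex
      have hcmem : ∀ u ∈ Q', p * u * p⁻¹ * u⁻¹ ∈ Q' :=
        fun u hu => Q'.mul_mem (hE'.norm p hps u hu) (Q'.inv_mem hu)
      have hd : ∀ u : G, z * u * z⁻¹ * u⁻¹ =
          (p * (p * u * p⁻¹ * u⁻¹) * p⁻¹ * (p * u * p⁻¹ * u⁻¹)⁻¹) *
            ((p * u * p⁻¹ * u⁻¹) * (p * u * p⁻¹ * u⁻¹)) := by
        intro u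
        rw [← hpp]
        group
      have star : ∀ u ∈ Q', (p * (p * u * p⁻¹ * u⁻¹) * p⁻¹ * (p * u * p⁻¹ * u⁻¹)⁻¹ = 1 ∨
          p * (p * u * p⁻¹ * u⁻¹) * p⁻¹ * (p * u * p⁻¹ * u⁻¹)⁻¹ = s) →
          (p * u * p⁻¹ * u⁻¹ = 1 ∨ p * u * p⁻¹ * u⁻¹ = s) := by
        intro u hu h
        have hv := hcmem u hu
        have hd' : z * u * z⁻¹ * u⁻¹ = 1 ∨ z * u * z⁻¹ * u⁻¹ = s := by
          rw [hd u]
          rcases h with h | h <;> rcases hE'.sq _ hv with h' | h' <;> rw [h, h'] <;> simp [hss]
        have hzu : z * u = u * z := step2 u hu hd'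
        have h2 := delta u hu hzu.symm p hp hps
        have e : p * u * p⁻¹ * u⁻¹ = (u * p * u⁻¹ * p⁻¹)⁻¹ := by group
        rw [e]
        rcases h2 with h | h
        · left; rw [h]; simp
        · right; rw [h]; exact hsinv
      have hall : ∀ u ∈ Q', p * u * p⁻¹ * u⁻¹ = 1 ∨ p * u * p⁻¹ * u⁻¹ = s := by
        intro u hu
        apply star u hu
        apply star _ (hcmem u hu)
        have hvQ : p * u * p⁻¹ * u⁻¹ ∈ Q' := hcmem u hu
        have hdu := hd u
        generalize p * u * p⁻¹ * u⁻¹ = v at hvQ hdu ⊢
        have hwQ : p * v * p⁻¹ * v⁻¹ ∈ Q' := hcmem v hvQ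
        generalize p * v * p⁻¹ * v⁻¹ = w at hwQ hdu ⊢
        have hduQ : z * u * z⁻¹ * u⁻¹ ∈ Q' := by
          rw [hdu]; exact Q'.mul_mem hwQ (Q'.mul_mem hvQ hvQ)
        have hw' : w = (z * u * z⁻¹ * u⁻¹) * (v * v)⁻¹ := by rw [hdu]; group
        have hdd : z * (z * u * z⁻¹ * u⁻¹) * z⁻¹ * (z * u * z⁻¹ * u⁻¹)⁻¹ =
            ((z * u * z⁻¹ * u⁻¹) * (z * u * z⁻¹ * u⁻¹))⁻¹ := by
          have : z * (z * u * z⁻¹ * u⁻¹) * z⁻¹ = (z * u * z⁻¹ * u⁻¹)⁻¹ := by
            calc z * (z * u * z⁻¹ * u⁻¹) * z⁻¹ = (z * z) * u * z⁻¹ * u⁻¹ * z⁻¹ := by group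
              _ = u * z⁻¹ * u⁻¹ * z⁻¹ := by rw [hzz]; group
              _ = u * z * u⁻¹ * z⁻¹ := by rw [hzinv]
              _ = (z * u * z⁻¹ * u⁻¹)⁻¹ := by group
          rw [this]; group
        have hd2 : z * (z * u * z⁻¹ * u⁻¹) = (z * u * z⁻¹ * u⁻¹) * z := by
          apply step2 _ hduQ
          rw [hdd]
          rcases hE'.sq _ hduQ with h | h
          · left; rw [h]; simp
          · right; rw [h]; exact hsinv
        have hwz : w * z = z * w := by
          have hvv : (v * v) * z = z * (v * v) := by
            rcases hE'.sq v hvQ with h | h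
            · rw [h]; simp
            · rw [h]; exact hsz'
          have c1 : Commute (z * u * z⁻¹ * u⁻¹) z := hd2.symm
          have c2 : Commute (v * v) z := hvv
          have c3 : Commute ((z * u * z⁻¹ * u⁻¹) * (v * v)⁻¹) z := c1.mul_left c2.inv_left
          rw [hw']; exact c3
        have h2 := delta w hwQ hwz p hp hps
        have e : p * w * p⁻¹ * w⁻¹ = (w * p * w⁻¹ * p⁻¹)⁻¹ := by group
        rw [e]
        rcases h2 with h | h
        · left; rw [h]; simp
        · right; rw [h]; exact hsinv
      have hzc : ∀ u ∈ Q', z * u = u * z := by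
        intro u hu
        apply step2 u hu
        rw [hd u]
        rcases hall u hu with h | h
        · left; rw [h]; simp
        · left; rw [h]
          have : p * s * p⁻¹ * s⁻¹ = 1 := by rw [hps]; group
          rw [this, hss]; simp
      exact hzQ' (hE'.cent z hzc)
    · -- the small case: the centralizer of `s` in `Q` is `{1, z, s, z s}`
      push Not at hpex
      have hsq1 : ∀ p ∈ Q, p * s = s * p → p * p = 1 := by
        intro p hp hps
        rcases hE.sq p hp with h | h
        · exact h
        · exact absurd h (hpex p hp hps)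
      have hab : ∀ p ∈ Q, p * s = s * p → ∀ p' ∈ Q, p' * s = s * p' → p * p' = p' * p := by
        intro p hp hps p' hp' hps'
        have h1 := hsq1 p hp hps
        have h2 := hsq1 p' hp' hps'
        have h3 : (p * p') * (p * p') = 1 := hsq1 (p * p') (Q.mul_mem hp hp') (by
          calc p * p' * s = p * (p' * s) := by group
            _ = p * (s * p') := by rw [hps']
            _ = (p * s) * p' := by group
            _ = (s * p) * p' := by rw [hps]
            _ = s * (p * p') := by group)
        calc p * p' = p * ((p * p') * (p * p')) * p' := by rw [h3]; group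
          _ = (p * p) * p' * p * (p' * p') := by group
          _ = p' * p := by rw [h1, h2]; group
      -- elements of the centralizer of `s` commuting with `t` are `1` or `z`
      have cenR : ∀ p ∈ Q, p * s = s * p → p * t = t * p → p = 1 ∨ p = z := by
        intro p hp hps hpt
        apply hE.cinv p hp _ (hsq1 p hp hps)
        exact hE.central_of hsQ ht hts hpt (fun p' hp' hps' => hab p hp hps p' hp' hps')
      have hR : ∀ p ∈ Q, p * s = s * p → p = 1 ∨ p = z ∨ p = s ∨ p = z * s := by
        intro p hp hps
        rcases hE.comm p hp t ht with h | h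
        · have hpt : p * t = t * p := by
            have := congrArg (fun u => u * t * p) h
            simpa [mul_assoc] using this
          rcases cenR p hp hps hpt with h' | h'
          · exact Or.inl h'
          · exact Or.inr (Or.inl h')
        · have hpt : p * t = z * t * p := by
            have := congrArg (fun u => u * t * p) h
            simpa [mul_assoc] using this
          have hst : s * t = z * t * s := by
            have h1 : t * s = z * s * t := by
              have := congrArg (fun u => u * t) hts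
              simpa [mul_assoc] using this
            calc s * t = (z * z) * s * t := by rw [hzz, one_mul]
              _ = z * (z * s * t) := by group
              _ = z * (t * s) := by rw [h1]
              _ = z * t * s := by group
          have hspt : (s * p) * t = t * (s * p) := by
            calc s * p * t = s * (p * t) := by group
              _ = s * (z * t * p) := by rw [hpt]
              _ = (s * z) * t * p := by group
              _ = (z * s) * t * p := by rw [hsz']
              _ = z * (s * t) * p := by group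
              _ = z * (z * t * s) * p := by rw [hst]
              _ = (z * z) * t * (s * p) := by group
              _ = t * (s * p) := by rw [hzz, one_mul]
          have hsps : (s * p) * s = s * (s * p) := by
            calc s * p * s = s * (p * s) := by group
              _ = s * (s * p) := by rw [hps]
          rcases cenR (s * p) (Q.mul_mem hsQ hp) hsps hspt with h' | h'
          · right; right; left
            have : p = s⁻¹ := eq_inv_of_mul_eq_one_right h'
            rw [this, hsinv]
          · right; right; right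
            have : p = s⁻¹ * z := eq_inv_mul_of_mul_eq h'
            rw [this, hsinv, hsz']
      -- an element of `Q'` commuting with `z`, other than `1` and `s`
      obtain ⟨x, hxQ', hxz, hx1, hxs⟩ : ∃ x ∈ Q', x * z = z * x ∧ x ≠ 1 ∧ x ≠ s := by
        by_contra hx
        push Not at hx
        apply hzQ'
        apply hE'.cent z
        intro y hy
        have hy' : z * y * z⁻¹ ∈ Q' := hE'.norm z hsz'.symm y hy
        have hwQ' : y * (z * y * z⁻¹) ∈ Q' := Q'.mul_mem hy hy'
        have hwz : z * (y * (z * y * z⁻¹)) = (y * (z * y * z⁻¹)) * z := by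
          apply step2 _ hwQ'
          have e : z * (y * (z * y * z⁻¹)) * z⁻¹ * (y * (z * y * z⁻¹))⁻¹ =
              (z * y * z⁻¹) * y * (z * y * z⁻¹)⁻¹ * y⁻¹ := by
            calc z * (y * (z * y * z⁻¹)) * z⁻¹ * (y * (z * y * z⁻¹))⁻¹
                = (z * y * z⁻¹) * ((z * z) * y * (z * z)⁻¹) * (z * y * z⁻¹)⁻¹ * y⁻¹ := by group
              _ = (z * y * z⁻¹) * y * (z * y * z⁻¹)⁻¹ * y⁻¹ := by rw [hzz]; group
          rw [e]
          exact hE'.comm _ hy' _ hy
        have hyy : y * y = 1 ∨ y * y = s := hE'.sq y hy
        have hys : y * s = s * y := hE'.zc y hy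
        apply step2 y hy
        by_cases hw1 : y * (z * y * z⁻¹) = 1
        · have e : z * y * z⁻¹ * y⁻¹ = (y * y)⁻¹ := by
            have h1 : z * y * z⁻¹ = y⁻¹ := eq_inv_of_mul_eq_one_right hw1
            rw [h1]; group
          rw [e]
          rcases hyy with h | h
          · left; rw [h]; simp
          · right; rw [h]; exact hsinv
        · have hws := hx _ hwQ' hwz.symm hw1
          have e : z * y * z⁻¹ * y⁻¹ = s * (y * y)⁻¹ := by
            have h1 : z * y * z⁻¹ = y⁻¹ * s := eq_inv_mul_of_mul_eq hws
            rw [h1]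
            calc y⁻¹ * s * y⁻¹ = y⁻¹ * (s * y) * y⁻¹ * y⁻¹ := by group
              _ = y⁻¹ * (y * s) * y⁻¹ * y⁻¹ := by rw [hys]
              _ = s * (y * y)⁻¹ := by group
          rw [e]
          rcases hyy with h | h
          · right; rw [h]; simp
          · left; rw [h, hsinv, hss]
      have hxs' : x * s = s * x := hE'.zc x hxQ'
      have hxQ : x ∉ Q := by
        intro h
        rcases hD x h hxQ' with h' | h'
        · exact hx1 h'
        · exact hxs h'
      -- `x` centralizes the centralizer of `s` in `Q`
      have hxR : ∀ p ∈ Q, p * s = s * p → x * p = p * x := by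
        intro p hp hps
        rcases hR p hp hps with h | h | h | h
        · rw [h]; simp
        · rw [h]; exact hxz
        · rw [h]; exact hxs'
        · rw [h]
          calc x * (z * s) = (x * z) * s := by group
            _ = (z * x) * s := by rw [hxz]
            _ = z * (x * s) := by group
            _ = z * (s * x) := by rw [hxs']
            _ = z * s * x := by group
      have hst : s * t = z * t * s := by
        have h1 : t * s = z * s * t := by
          have := congrArg (fun u => u * t) hts
          simpa [mul_assoc] using this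
        calc s * t = (z * z) * s * t := by rw [hzz, one_mul]
          _ = z * (z * s * t) := by group
          _ = z * (t * s) := by rw [h1]
          _ = z * t * s := by group
      have hcQ : x * t * x⁻¹ * t⁻¹ ∈ Q := Q.mul_mem (hE.norm x hxz t ht) (Q.inv_mem ht)
      have hxinv : x⁻¹ * s = s * x⁻¹ := by
        have := congrArg (fun u => x⁻¹ * u * x⁻¹) hxs'
        simpa [mul_assoc] using this.symm
      have htinv : s * t⁻¹ = z * t⁻¹ * s := by
        have e1 : t⁻¹ * (s * t) * t⁻¹ = t⁻¹ * (z * t * s) * t⁻¹ := by rw [hst]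
        have e2 : t⁻¹ * s = z * s * t⁻¹ := by
          calc t⁻¹ * s = t⁻¹ * (s * t) * t⁻¹ := by group
            _ = t⁻¹ * (z * t * s) * t⁻¹ := e1
            _ = t⁻¹ * (z * t) * s * t⁻¹ := by group
            _ = t⁻¹ * (t * z) * s * t⁻¹ := by rw [htz]
            _ = z * s * t⁻¹ := by group
        calc s * t⁻¹ = (z * z) * s * t⁻¹ := by rw [hzz, one_mul]
          _ = z * (z * s * t⁻¹) := by group
          _ = z * (t⁻¹ * s) := by rw [e2]
          _ = z * t⁻¹ * s := by group
      have hztinv : z * t⁻¹ = t⁻¹ * z := by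
        have := congrArg (fun u => t⁻¹ * u * t⁻¹) htz
        simpa [mul_assoc] using this
      have hzxinv : z * x⁻¹ = x⁻¹ * z := by
        have := congrArg (fun u => x⁻¹ * u * x⁻¹) hxz
        simpa [mul_assoc] using this
      have hcs : (x * t * x⁻¹ * t⁻¹) * s = s * (x * t * x⁻¹ * t⁻¹) := by
        symm
        calc s * (x * t * x⁻¹ * t⁻¹) = (s * x) * t * x⁻¹ * t⁻¹ := by group
          _ = (x * s) * t * x⁻¹ * t⁻¹ := by rw [hxs']
          _ = x * (s * t) * x⁻¹ * t⁻¹ := by group
          _ = x * (z * t * s) * x⁻¹ * t⁻¹ := by rw [hst]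
          _ = x * z * t * (s * x⁻¹) * t⁻¹ := by group
          _ = x * z * t * (x⁻¹ * s) * t⁻¹ := by rw [hxinv]
          _ = x * z * t * x⁻¹ * (s * t⁻¹) := by group
          _ = x * z * t * x⁻¹ * (z * t⁻¹ * s) := by rw [htinv]
          _ = x * (z * t) * x⁻¹ * (z * t⁻¹) * s := by group
          _ = x * (t * z) * x⁻¹ * (t⁻¹ * z) * s := by rw [htz, hztinv]
          _ = x * t * (z * x⁻¹) * t⁻¹ * z * s := by group
          _ = x * t * (x⁻¹ * z) * t⁻¹ * z * s := by rw [hzxinv]
          _ = x * t * x⁻¹ * (z * t⁻¹) * z * s := by group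
          _ = x * t * x⁻¹ * (t⁻¹ * z) * z * s := by rw [hztinv]
          _ = x * t * x⁻¹ * t⁻¹ * (z * z) * s := by group
          _ = (x * t * x⁻¹ * t⁻¹) * s := by rw [hzz, mul_one]
      have htt : x * (t * t) = (t * t) * x := by
        rcases hE.sq t ht with h | h
        · rw [h]; simp
        · rw [h]; exact hxz
      -- squares exclude the values `s`, `z s`
      have sq_contra : ∀ c : G, t * c * t⁻¹ = z * c → c * c = 1 → z * c = c * z →
          x * t * x⁻¹ * t⁻¹ = c → False := by
        intro c htc hcc hzc' hxc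
        have h1 : x * t * x⁻¹ = c * t := by
          rw [← hxc]; group
        have h2 : (x * t * x⁻¹) * (x * t * x⁻¹) = t * t := by
          calc (x * t * x⁻¹) * (x * t * x⁻¹) = x * (t * t) * x⁻¹ := by group
            _ = (t * t) * x * x⁻¹ := by rw [htt]
            _ = t * t := by group
        have h3 : t * c = z * c * t := by
          rw [← htc]; group
        have h4 : (c * t) * (c * t) = z * (t * t) := by
          calc (c * t) * (c * t) = c * (t * c) * t := by group
            _ = c * (z * c * t) * t := by rw [h3]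
            _ = c * (z * c) * (t * t) := by group
            _ = c * (c * z) * (t * t) := by rw [hzc']
            _ = (c * c) * z * (t * t) := by group
            _ = z * (t * t) := by rw [hcc, one_mul]
        rw [h1, h4] at h2
        apply hE.z1
        exact mul_right_cancel (h2.trans (one_mul _).symm)
      rcases hR _ hcQ hcs with h | h | h | h
      · -- `x` commutes with `t`
        apply hxQ
        apply hE.cent x
        have hxt : x * t = t * x := by
          have := congrArg (fun u => u * t * x) h
          simpa [mul_assoc] using this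
        exact hE.central_of hsQ ht hts hxt hxR
      · -- `s * x` commutes with `t`
        apply hxQ
        have hxt : x * t = z * t * x := by
          have := congrArg (fun u => u * t * x) h
          simpa [mul_assoc] using this
        have hsxt : (s * x) * t = t * (s * x) := by
          calc s * x * t = s * (x * t) := by group
            _ = s * (z * t * x) := by rw [hxt]
            _ = (s * z) * t * x := by group
            _ = (z * s) * t * x := by rw [hsz']
            _ = z * (s * t) * x := by group
            _ = z * (z * t * s) * x := by rw [hst]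
            _ = (z * z) * t * (s * x) := by group
            _ = t * (s * x) := by rw [hzz, one_mul]
        have hsxR : ∀ p ∈ Q, p * s = s * p → (s * x) * p = p * (s * x) := by
          intro p hp hps
          calc s * x * p = s * (x * p) := by group
            _ = s * (p * x) := by rw [hxR p hp hps]
            _ = (s * p) * x := by group
            _ = (p * s) * x := by rw [hps]
            _ = p * (s * x) := by group
        have h5 : s * x ∈ Q := hE.cent (s * x) (hE.central_of hsQ ht hts hsxt hsxR)
        have := Q.mul_mem (Q.inv_mem hsQ) h5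
        simpa using this
      · exact sq_contra s hts hss hsz'.symm h
      · refine sq_contra (z * s) ?_ ?_ ?_ h
        · calc t * (z * s) * t⁻¹ = (t * z) * s * t⁻¹ := by group
            _ = (z * t) * s * t⁻¹ := by rw [htz]
            _ = z * (t * s * t⁻¹) := by group
            _ = z * (z * s) := by rw [hts]
        · calc z * s * (z * s) = z * (s * z) * s := by group
            _ = z * (z * s) * s := by rw [hsz']
            _ = (z * z) * (s * s) := by group
            _ = 1 := by rw [hzz, hss, one_mul]
        · calc z * (z * s) = z * (s * z) := by rw [hsz']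
            _ = z * s * z := by group
  exact hsdef _ rfl

end Cfsg.Agent.Lib.Helper93.SympConj
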