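import Mathlib
import Cfsg.Agent.Lib.Helper21.FStar
import Cfsg.Agent.Lib.Helper29.Basic
import Cfsg.Agent.Lib.Helper93.SympConj

/-!
# The four-group `⟨z, g z g⁻¹⟩` and the data `SYD` for `F*(C_G(z))` of symplectic type

`SYD.four_group`: `⟨Q, g Q g⁻¹⟩` induces the full automorphism group of `⟨z, g z g⁻¹⟩`.
`syd_of_symp`: the data `SYD Q z` holds for the image `Q` of `F*(C_G(z))` when the latter is of
symplectic type and of exponent dividing four.
-/

set_option autoImplicit false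

namespace Cfsg.Agent.Lib.Helper93.SympConj

open Cfsg.Agent.Lib.Helper90
open Cfsg.Agent.Lib.Helper93

variable {G : Type*} [Group G]

/-- `⟨Q, g Q g⁻¹⟩` induces every automorphism of the four-group `⟨z, g z g⁻¹⟩`. -/
theorem SYD.four_group {Q : Subgroup G} {z : G} (hE : SYD Q z)
    (g : G) (hsQ : g * z * g⁻¹ ∈ Q) (hsz : g * z * g⁻¹ ≠ z) :
    ∀ u ∈ Subgroup.closure ({z, g * z * g⁻¹} : Set G),
      ∀ v ∈ Subgroup.closure ({z, g * z * g⁻¹} : Set G),
        u ≠ 1 → v ≠ 1 → u ≠ v →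
          ∃ x ∈ Q ⊔ Q.map (MulAut.conj g).toMonoidHom,
            x * z * x⁻¹ = u ∧ x * (g * z * g⁻¹) * x⁻¹ = v := by
  have hzQ' : z ∈ Q.map (MulAut.conj g).toMonoidHom := hE.mem_conj_of_conj_mem g hsQ hsz
  have hE' : SYD (Q.map (MulAut.conj g).toMonoidHom) (g * z * g⁻¹) := hE.conj g
  generalize Q.map (MulAut.conj g).toMonoidHom = Q' at hE' hzQ' ⊢
  generalize g * z * g⁻¹ = s at hE' hsQ hsz ⊢
  have hzz := hE.zz
  have hss := hE'.zz
  have hs1 := hE'.z1
  have hz1 := hE.z1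
  have hsz' : s * z = z * s := hE.zc s hsQ
  obtain ⟨x₁, hx₁, hx₁s⟩ := hE.exists_conj hsQ hs1 hsz hss
  obtain ⟨y₁, hy₁, hy₁z⟩ := hE'.exists_conj hzQ' hz1 (Ne.symm hsz) hzz
  have ha_z : x₁ * z * x₁⁻¹ = z := by
    rw [hE.zc x₁ hx₁]; group
  have hb_s : y₁ * s * y₁⁻¹ = s := by
    rw [hE'.zc y₁ hy₁]; group
  have hb_z : y₁ * z * y₁⁻¹ = z * s := by rw [hy₁z, hsz']
  -- elements of the four-group
  have hcl : ∀ u ∈ Subgroup.closure ({z, s} : Set G), u = 1 ∨ u = z ∨ u = s ∨ u = z * s := by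
    intro u hu
    have hle : Subgroup.closure ({z, s} : Set G) ≤ Subgroup.zpowers z ⊔ Subgroup.zpowers s := by
      rw [Subgroup.closure_le]
      intro t ht
      rcases Set.mem_insert_iff.mp ht with h | h
      · rw [h]; exact Subgroup.mem_sup_left (Subgroup.mem_zpowers _)
      · rw [Set.mem_singleton_iff] at h
        rw [h]; exact Subgroup.mem_sup_right (Subgroup.mem_zpowers _)
    have hu' := hle hu
    have hc : ∀ h ∈ Subgroup.zpowers z, ∀ k ∈ Subgroup.zpowers s, h * k = k * h := by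
      intro h hh k hk
      rw [SympType.mem_zpowers_two hzz] at hh
      rw [SympType.mem_zpowers_two hss] at hk
      rcases hh with rfl | rfl <;> rcases hk with rfl | rfl <;> simp [hsz']
    rw [Count.mem_sup_of_commute hc] at hu'
    obtain ⟨h, hh, k, hk, rfl⟩ := hu'
    rw [SympType.mem_zpowers_two hzz] at hh
    rw [SympType.mem_zpowers_two hss] at hk
    rcases hh with rfl | rfl <;> rcases hk with rfl | rfl <;> simp
  intro u hu v hv hu1 hv1 huv
  have hconj_mul : ∀ x a b : G, x * (a * b) * x⁻¹ = (x * a * x⁻¹) * (x * b * x⁻¹) := by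
    intro x a b; group
  have hconj_comp : ∀ x y a : G, (x * y) * a * (x * y)⁻¹ = x * (y * a * y⁻¹) * x⁻¹ := by
    intro x y a; group
  have hzzs : z * (z * s) = s := by rw [← mul_assoc, hzz, one_mul]
  have hzss : z * s * s = z := by rw [mul_assoc, hss, mul_one]
  have ha_s := hx₁s
  have ha_zs : x₁ * (z * s) * x₁⁻¹ = s := by rw [hconj_mul, ha_z, ha_s, hzzs]
  have hb_zs : y₁ * (z * s) * y₁⁻¹ = z := by rw [hconj_mul, hb_z, hb_s, hzss]
  have hx₁S : x₁ ∈ Q ⊔ Q' := Subgroup.mem_sup_left hx₁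
  have hy₁S : y₁ ∈ Q ⊔ Q' := Subgroup.mem_sup_right hy₁
  rcases hcl u hu with h | h | h | h
  · exact absurd h hu1
  · -- u = z
    rcases hcl v hv with h' | h' | h' | h'
    · exact absurd h' hv1
    · exact absurd (h.trans h'.symm) huv
    · exact ⟨1, Subgroup.one_mem _, by rw [h]; simp, by rw [h']; simp⟩
    · exact ⟨x₁, hx₁S, by rw [h]; exact ha_z, by rw [h']; exact ha_s⟩
  · -- u = s
    rcases hcl v hv with h' | h' | h' | h'
    · exact absurd h' hv1
    · -- (s, z): x = x₁ y₁ x₁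
      refine ⟨x₁ * y₁ * x₁, Subgroup.mul_mem _ (Subgroup.mul_mem _ hx₁S hy₁S) hx₁S, ?_, ?_⟩
      · rw [h, hconj_comp, ha_z, hconj_comp, hb_z, ha_zs]
      · rw [h', hconj_comp, ha_s, hconj_comp, hb_zs, ha_z]
    · exact absurd (h.trans h'.symm) huv
    · -- (s, zs): x = x₁ y₁
      refine ⟨x₁ * y₁, Subgroup.mul_mem _ hx₁S hy₁S, ?_, ?_⟩
      · rw [h, hconj_comp, hb_z, ha_zs]
      · rw [h', hconj_comp, hb_s, ha_s]
  · -- u = zs
    rcases hcl v hv with h' | h' | h' | h'
    · exact absurd h' hv1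
    · -- (zs, z): x = y₁ x₁
      refine ⟨y₁ * x₁, Subgroup.mul_mem _ hy₁S hx₁S, ?_, ?_⟩
      · rw [h, hconj_comp, ha_z, hb_z]
      · rw [h', hconj_comp, ha_s, hb_zs]
    · -- (zs, s): x = y₁
      exact ⟨y₁, hy₁S, by rw [h]; exact hb_z, by rw [h']; exact hb_s⟩
    · exact absurd (h.trans h'.symm) huv

/-- The data `SYD` for `Q = F*(C_G(z))` of symplectic type and exponent dividing four. -/
theorem syd_of_symp {G : Type*} [Group G] [Finite G] (z : G) (hz : orderOf z = 2)
    (C : Subgroup G) (hC : C = Subgroup.centralizer ({z} : Set G))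
    (Q₀ : Subgroup C) (hQdef : Q₀ = Cfsg.generalizedFittingSubgroup C)
    (hQ : Cfsg.IsOfSymplecticType Q₀)
    (h4 : ∀ q ∈ Q₀.map C.subtype, q ^ 4 = 1) : SYD (Q₀.map C.subtype) z := by
  classical
  have hQn : Q₀.Normal := hQdef ▸ Helper29.Basic.generalizedFittingSubgroup_normal C
  have hmemC : ∀ x : G, x ∈ C ↔ x * z = z * x := by
    intro x
    rw [hC, Subgroup.mem_centralizer_iff]
    constructor
    · intro h; exact (h z rfl).symm
    · intro h y hy
      rw [Set.mem_singleton_iff] at hy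
      rw [hy]; exact h.symm
  have hzC : z ∈ C := (hmemC z).2 rfl
  have hzc_center : (⟨z, hzC⟩ : C) ∈ Subgroup.center C := by
    rw [Subgroup.mem_center_iff]
    intro x
    apply Subtype.ext
    exact (hmemC x).1 x.2
  have hzQ : (⟨z, hzC⟩ : C) ∈ Q₀ :=
    hQdef ▸ Helper29.Basic.center_le_generalizedFittingSubgroup C hzc_center
  have hzq_order : orderOf (⟨⟨z, hzC⟩, hzQ⟩ : Q₀) = 2 := by
    rw [← Subgroup.orderOf_coe, ← Subgroup.orderOf_coe]
    exact hz
  have hzq_center : (⟨⟨z, hzC⟩, hzQ⟩ : Q₀) ∈ Subgroup.center Q₀ := by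
    rw [Subgroup.mem_center_iff]
    intro x
    apply Subtype.ext
    have := (Subgroup.mem_center_iff.mp hzc_center) (x : C)
    simpa using this
  have h4' : ∀ q : Q₀, q ^ 4 = 1 := by
    intro q
    apply Subtype.ext
    apply Subtype.ext
    have := h4 ((q : C) : G) ⟨(q : C), q.2, rfl⟩
    simpa using this
  obtain ⟨hcinv, hsq, hcomm⟩ := SympType.structure_thm hQ h4' _ hzq_order hzq_center
  have hz1 : z ≠ 1 := by
    intro h
    rw [h, orderOf_one] at hz
    omega
  have hzz : z * z = 1 := by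
    have := pow_orderOf_eq_one z
    rw [hz, pow_two] at this
    exact this
  -- lifting elements of the image
  have hlift : ∀ x ∈ Q₀.map C.subtype, ∃ a : Q₀, ((a : C) : G) = x := by
    rintro x ⟨c, hc, rfl⟩
    exact ⟨⟨c, hc⟩, rfl⟩
  refine ⟨⟨⟨z, hzC⟩, hzQ, rfl⟩, hz1, hzz, ?_, ?_, ?_, ?_, ?_, ?_⟩
  · rintro q ⟨c, -, rfl⟩
    exact (hmemC _).1 c.2
  · intro x hx y hy
    obtain ⟨a, rfl⟩ := hlift x hx
    obtain ⟨b, rfl⟩ := hlift y hy
    rcases hcomm a b with h | h
    · left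
      have := congrArg (fun t : Q₀ => ((t : C) : G)) h
      simpa using this
    · right
      have := congrArg (fun t : Q₀ => ((t : C) : G)) h
      simpa using this
  · intro x hx
    obtain ⟨a, rfl⟩ := hlift x hx
    rcases hsq a with h | h
    · left
      have := congrArg (fun t : Q₀ => ((t : C) : G)) h
      simpa using this
    · right
      have := congrArg (fun t : Q₀ => ((t : C) : G)) h
      simpa using this
  · intro c hc
    have hcC : c ∈ C := (hmemC c).2 (hc z ⟨⟨z, hzC⟩, hzQ, rfl⟩)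
    have hcent : (⟨c, hcC⟩ : C) ∈ Subgroup.centralizer (Q₀ : Set C) := by
      rw [Subgroup.mem_centralizer_iff]
      intro q hq
      apply Subtype.ext
      exact (hc (q : G) ⟨q, hq, rfl⟩).symm
    have hle := Cfsg.Agent.Lib.Helper21.FStar.centralizer_gfs_le (G := C)
    rw [← hQdef] at hle
    exact ⟨⟨c, hcC⟩, hle hcent, rfl⟩
  · intro c hcQ hc hcc
    obtain ⟨a, rfl⟩ := hlift c hcQ
    have hac : a ∈ Subgroup.center Q₀ := by
      rw [Subgroup.mem_center_iff]
      intro q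
      apply Subtype.ext
      apply Subtype.ext
      exact (hc ((q : C) : G) ⟨(q : C), q.2, rfl⟩).symm
    have haa : a * a = 1 := by
      apply Subtype.ext
      apply Subtype.ext
      exact hcc
    rcases hcinv a hac haa with h | h
    · left
      have := congrArg (fun t : Q₀ => ((t : C) : G)) h
      simpa using this
    · right
      have := congrArg (fun t : Q₀ => ((t : C) : G)) h
      simpa using this
  · intro n hn q hq
    have hnC : n ∈ C := (hmemC n).2 hn
    obtain ⟨c, hc, rfl⟩ := hq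
    exact ⟨(⟨n, hnC⟩ : C) * c * (⟨n, hnC⟩ : C)⁻¹, hQn.conj_mem c hc ⟨n, hnC⟩, rfl⟩

end Cfsg.Agent.Lib.Helper93.SympConj
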