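import Mathlib
import Cfsg.Agent.Lib.Helper44.TSStmt
import Cfsg.Agent.Lib.Helper44.ReflProd
import Cfsg.Agent.Lib.Helper44.OMat
import Cfsg.Agent.Lib.Helper44.QClass
import Cfsg.Agent.Lib.Helper44.QBasis
import Cfsg.Agent.Lib.Helper44.SpinCount
import Cfsg.Agent.Lib.Helper44.NegPairs
import Cfsg.Agent.Lib.Helper44.Der3
import Cfsg.Agent.Lib.Helper44.WittND2
import Cfsg.Agent.Lib.Helper44.FinSq
import Cfsg.Agent.Lib.Helper8.HypHYPSUB

/-!
# S5972 / SPININV (helper93): `q ≡ 1 (mod 4)`, the `-1`-eigenspace of an involution of `Omega`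
is of plus type.
-/

set_option autoImplicit false

namespace Cfsg.Agent.Lib.Helper93.TSSPININV

open Module QuadraticMap
open Cfsg.Agent.Lib.Helper44.QSpace Cfsg.Agent.Lib.Helper44.OGroup
open Cfsg.Agent.Lib.Helper44.CartanD Cfsg.Agent.Lib.Helper44.ReflProd
open Cfsg.Agent.Lib.Helper44.QClass Cfsg.Agent.Lib.Helper44.QBasis
open Cfsg.Agent.Lib.Helper44.SpinCount
open Cfsg.Agent.Lib.Helper44.NegPairs Cfsg.Agent.Lib.Helper44.OMat
open Cfsg.Agent.Lib.Helper44.WittND Cfsg.Agent.Lib.Helper44.WittND2
open Cfsg.Agent.Lib.Helper37.HypStmt Cfsg.Agent.Lib.Helper37.HypStmt2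
open Cfsg.Agent.Lib.Helper44.TSStmt
open Cfsg.Agent.Lib.Helper8.HypHYPSUB

universe u

section core

variable {F : Type*} [Field F] {V : Type u} [AddCommGroup V] [Module F V]

theorem mem_pairList {κ : Type*} (e f : κ → V) (js : List κ) {w : V}
    (hw : w ∈ pairList e f js) : ∃ j ∈ js, w = e j + f j ∨ w = e j - f j := by
  unfold pairList at hw
  rw [List.mem_flatMap] at hw
  obtain ⟨j, hj, hw⟩ := hw
  refine ⟨j, hj, ?_⟩
  simpa using hw

theorem plus_mem_pairList {κ : Type*} (e f : κ → V) (js : List κ) {j : κ} (hj : j ∈ js) :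
    e j + f j ∈ pairList e f js := by
  unfold pairList
  rw [List.mem_flatMap]
  exact ⟨j, hj, by simp⟩

theorem minus_mem_pairList {κ : Type*} (e f : κ → V) (js : List κ) {j : κ} (hj : j ∈ js) :
    e j - f j ∈ pairList e f js := by
  unfold pairList
  rw [List.mem_flatMap]
  exact ⟨j, hj, by simp⟩

theorem pairList_pairwise {Q : QuadraticForm F V} {κ : Type*} [DecidableEq κ] (e f : κ → V)
    (hef : ∀ j l, polar Q (e j) (f l) = if j = l then 1 else 0)
    (hee : ∀ j l, polar Q (e j) (e l) = 0) (hff : ∀ j l, polar Q (f j) (f l) = 0)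
    (js : List κ) (hnd : js.Nodup) :
    (pairList e f js).Pairwise (fun v w => polar Q v w = 0) := by
  have hfe : ∀ a b, polar Q (f a) (e b) = if b = a then 1 else 0 := fun a b => by
    rw [polar_comm, hef]
  induction js with
  | nil => simp [pairList]
  | cons j js ih =>
    rw [List.nodup_cons] at hnd
    rw [pairList_cons, List.pairwise_cons, List.pairwise_cons]
    refine ⟨?_, ?_, ih hnd.2⟩
    · intro w hw
      rcases List.mem_cons.mp hw with rfl | hw
      · simp only [polar_add_left, polar_sub_right, hee, hff, hef, hfe, if_true]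
        ring
      · obtain ⟨l, hl, rfl | rfl⟩ := mem_pairList e f js hw
        · have hne : j ≠ l := fun h => hnd.1 (h ▸ hl)
          have hne' : l ≠ j := fun h => hne h.symm
          simp only [polar_add_left, polar_add_right, hee, hff, hef, hfe, if_neg hne, if_neg hne']
          ring
        · have hne : j ≠ l := fun h => hnd.1 (h ▸ hl)
          have hne' : l ≠ j := fun h => hne h.symm
          simp only [polar_add_left, polar_sub_right, hee, hff, hef, hfe, if_neg hne, if_neg hne']
          ring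
    · intro w hw
      obtain ⟨l, hl, rfl | rfl⟩ := mem_pairList e f js hw
      · have hne : j ≠ l := fun h => hnd.1 (h ▸ hl)
        have hne' : l ≠ j := fun h => hne h.symm
        simp only [polar_sub_left, polar_add_right, hee, hff, hef, hfe, if_neg hne, if_neg hne']
        ring
      · have hne : j ≠ l := fun h => hnd.1 (h ▸ hl)
        have hne' : l ≠ j := fun h => hne h.symm
        simp only [polar_sub_left, polar_sub_right, hee, hff, hef, hfe, if_neg hne, if_neg hne']
        ring

/-- Elliptic case: an orthogonal list of non-singular vectors of `M` whose reflections multiply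
to `-1` on `M`, with product of values `(-1)^m (ζ - 1/4)`. -/
theorem ell_prod (h2 : (2 : F) ≠ 0) (Q : QuadraticForm F V) (M : Submodule F V)
    [FiniteDimensional F M] {m : ℕ} (hfin : finrank F M = 2 * (m + 1))
    {e f : Fin m → M} {x y : M} {ζ : F} (hH : IsHyp (res Q M) e f)
    (hE : IsEll (res Q M) x y ζ)
    (horth : ∀ i, polar (res Q M) (e i) x = 0 ∧ polar (res Q M) (e i) y = 0 ∧
      polar (res Q M) (f i) x = 0 ∧ polar (res Q M) (f i) y = 0) :
    ∃ vs : List V, (∀ v ∈ vs, Q v ≠ 0) ∧ (∀ v ∈ vs, v ∈ M) ∧ Even vs.length ∧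
      (vs.map (fun v => Q v)).prod = (-1) ^ m * (ζ - 2⁻¹ * 2⁻¹) ∧
      ∀ v ∈ M, (vs.map (reflE Q)).prod v = -v := by
  classical
  have hHyp := hH
  have hEll := hE
  obtain ⟨h1, h2', h3, h4, h5⟩ := hH
  obtain ⟨hx, hxy, hy, hζ⟩ := hE
  obtain ⟨E, hEdef⟩ : ∃ E : Fin m → V, E = fun j => (e j : V) := ⟨_, rfl⟩
  obtain ⟨Fv, hFdef⟩ : ∃ Fv : Fin m → V, Fv = fun j => (f j : V) := ⟨_, rfl⟩
  obtain ⟨X, hXdef⟩ : ∃ X : V, X = (x : V) := ⟨_, rfl⟩
  obtain ⟨Y, hYdef⟩ : ∃ Y : V, Y = (y : V) + (-(2⁻¹ : F)) • X := ⟨_, rfl⟩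
  have hh : (2 : F) * 2⁻¹ = 1 := mul_inv_cancel₀ h2
  have qE : ∀ j, Q (E j) = 0 := fun j => by rw [hEdef]; exact h1 j
  have qF : ∀ j, Q (Fv j) = 0 := fun j => by rw [hFdef]; exact h2' j
  have pEF : ∀ j l, polar Q (E j) (Fv l) = if j = l then 1 else 0 := fun j l => by
    rw [hEdef, hFdef]; exact (polar_res Q M (e j) (f l)).symm.trans (h3 j l)
  have pEE : ∀ j l, polar Q (E j) (E l) = 0 := fun j l => by
    rw [hEdef]; exact (polar_res Q M (e j) (e l)).symm.trans (h4 j l)
  have pFF : ∀ j l, polar Q (Fv j) (Fv l) = 0 := fun j l => by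
    rw [hFdef]; exact (polar_res Q M (f j) (f l)).symm.trans (h5 j l)
  have qX : Q X = 1 := by rw [hXdef]; exact hx
  have pXy : polar Q X (y : V) = 1 := by
    rw [hXdef]; exact (polar_res Q M x y).symm.trans hxy
  have qy : Q (y : V) = ζ := hy
  have pEX : ∀ j, polar Q (E j) X = 0 := fun j => by
    rw [hEdef, hXdef]; exact (polar_res Q M (e j) x).symm.trans (horth j).1
  have pEy : ∀ j, polar Q (E j) (y : V) = 0 := fun j => by
    rw [hEdef]; exact (polar_res Q M (e j) y).symm.trans (horth j).2.1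
  have pFX : ∀ j, polar Q (Fv j) X = 0 := fun j => by
    rw [hFdef, hXdef]; exact (polar_res Q M (f j) x).symm.trans (horth j).2.2.1
  have pFy : ∀ j, polar Q (Fv j) (y : V) = 0 := fun j => by
    rw [hFdef]; exact (polar_res Q M (f j) y).symm.trans (horth j).2.2.2
  have qY : Q Y = ζ - 2⁻¹ * 2⁻¹ := by
    rw [hYdef, q_add, q_smul, polar_smul_r, qy, qX, polar_comm, pXy]
    linear_combination (2⁻¹ : F) * hh
  have pXY : polar Q X Y = 0 := by
    rw [hYdef, polar_add_right, polar_smul_r, pXy, polar_self', qX]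
    linear_combination -hh
  have pEY : ∀ j, polar Q (E j) Y = 0 := fun j => by
    rw [hYdef, polar_add_right, polar_smul_r, pEy, pEX]; ring
  have pFY : ∀ j, polar Q (Fv j) Y = 0 := fun j => by
    rw [hYdef, polar_add_right, polar_smul_r, pFy, pFX]; ring
  have qY0 : Q Y ≠ 0 := by
    rw [qY]
    intro h0
    apply hζ (-(2⁻¹ : F))
    linear_combination h0 + (2⁻¹ : F) * hh
  have hEM : ∀ j, E j ∈ M := fun j => by rw [hEdef]; exact (e j).2
  have hFM : ∀ j, Fv j ∈ M := fun j => by rw [hFdef]; exact (f j).2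
  have hXM : X ∈ M := by rw [hXdef]; exact x.2
  have hYM : Y ∈ M := by rw [hYdef]; exact M.add_mem y.2 (M.smul_mem _ hXM)
  obtain ⟨js, hjs⟩ : ∃ js : List (Fin m), js = List.finRange m := ⟨_, rfl⟩
  have hnd : js.Nodup := by rw [hjs]; exact List.nodup_finRange m
  have hjmem : ∀ j, j ∈ js := fun j => by rw [hjs]; exact List.mem_finRange j
  have hlen : js.length = m := by rw [hjs]; exact List.length_finRange
  obtain ⟨p1, p2, p3⟩ := pairList_props (Q := Q) E Fv qE qF (fun j => by rw [pEF, if_pos rfl]) js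
  have ppw := pairList_pairwise (Q := Q) E Fv pEF pEE pFF js hnd
  obtain ⟨vs, hvs⟩ : ∃ vs : List V, vs = pairList E Fv js ++ [X, Y] := ⟨_, rfl⟩
  have hQ : ∀ v ∈ vs, Q v ≠ 0 := by
    intro v hv
    rw [hvs] at hv
    rcases List.mem_append.mp hv with hv | hv
    · exact p1 v hv
    · simp only [List.mem_cons, List.not_mem_nil, or_false] at hv
      rcases hv with rfl | rfl
      · rw [qX]; exact one_ne_zero
      · exact qY0
  have hvM : ∀ v ∈ vs, v ∈ M := by
    intro v hv
    rw [hvs] at hv
    rcases List.mem_append.mp hv with hv | hv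
    · obtain ⟨l, -, rfl | rfl⟩ := mem_pairList E Fv js hv
      · exact M.add_mem (hEM l) (hFM l)
      · exact M.sub_mem (hEM l) (hFM l)
    · simp only [List.mem_cons, List.not_mem_nil, or_false] at hv
      rcases hv with rfl | rfl
      · exact hXM
      · exact hYM
  have hpw : vs.Pairwise (fun v w => polar Q v w = 0) := by
    rw [hvs, List.pairwise_append]
    refine ⟨ppw, ?_, ?_⟩
    · rw [List.pairwise_pair]; exact pXY
    · intro a ha b hb
      simp only [List.mem_cons, List.not_mem_nil, or_false] at hb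
      obtain ⟨l, -, rfl | rfl⟩ := mem_pairList E Fv js ha
      · rcases hb with rfl | rfl
        · rw [polar_add_left, pEX, pFX, add_zero]
        · rw [polar_add_left, pEY, pFY, add_zero]
      · rcases hb with rfl | rfl
        · rw [polar_sub_left, pEX, pFX, sub_zero]
        · rw [polar_sub_left, pEY, pFY, sub_zero]
  have hneg : ∀ w ∈ vs, (vs.map (reflE Q)).prod w = -w :=
    fun w hw => prod_reflE_neg Q vs hQ hpw w hw
  have hmemP : ∀ j, E j + Fv j ∈ vs := fun j => by
    rw [hvs]; exact List.mem_append_left _ (plus_mem_pairList E Fv js (hjmem j))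
  have hmemM : ∀ j, E j - Fv j ∈ vs := fun j => by
    rw [hvs]; exact List.mem_append_left _ (minus_mem_pairList E Fv js (hjmem j))
  have hmemX : X ∈ vs := by
    rw [hvs]; exact List.mem_append_right _ (by simp)
  have hmemY : Y ∈ vs := by
    rw [hvs]; exact List.mem_append_right _ (by simp)
  have hTE : ∀ j, (vs.map (reflE Q)).prod (E j) = -(E j) := by
    intro j
    have e1 : E j = (2⁻¹ : F) • ((E j + Fv j) + (E j - Fv j)) := by
      rw [add_add_sub_cancel, ← two_smul F, smul_smul, inv_mul_cancel₀ h2, one_smul]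
    have e2 : (vs.map (reflE Q)).prod (E j)
        = (vs.map (reflE Q)).prod ((2⁻¹ : F) • ((E j + Fv j) + (E j - Fv j))) := by
      rw [← e1]
    rw [e2, map_smul, map_add, hneg _ (hmemP j), hneg _ (hmemM j), ← neg_add, smul_neg, ← e1]
  have hTF : ∀ j, (vs.map (reflE Q)).prod (Fv j) = -(Fv j) := by
    intro j
    have e1 : Fv j = (2⁻¹ : F) • ((E j + Fv j) - (E j - Fv j)) := by
      rw [add_sub_sub_cancel, ← two_smul F, smul_smul, inv_mul_cancel₀ h2, one_smul]
    have e2 : (vs.map (reflE Q)).prod (Fv j)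
        = (vs.map (reflE Q)).prod ((2⁻¹ : F) • ((E j + Fv j) - (E j - Fv j))) := by
      rw [← e1]
    rw [e2, map_smul, map_sub, hneg _ (hmemP j), hneg _ (hmemM j), ← neg_sub', smul_neg, ← e1]
  have hTy : (vs.map (reflE Q)).prod (y : V) = -(y : V) := by
    have e1 : (y : V) = Y + (2⁻¹ : F) • X := by
      rw [hYdef, neg_smul, neg_add_cancel_right]
    have e2 : (vs.map (reflE Q)).prod (y : V) = (vs.map (reflE Q)).prod (Y + (2⁻¹ : F) • X) := by
      rw [← e1]
    rw [e2, map_add, map_smul, hneg _ hmemY, hneg _ hmemX, smul_neg, ← neg_add, ← e1]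
  have hr : LinearIndependent F ![x, y] := linearIndependent_ell hEll
  obtain ⟨b, hb⟩ := exists_hyp_basis (Q := res Q M) hHyp ![x, y] hr
    (fun i t => by
      fin_cases t
      · exact (horth i).1
      · exact (horth i).2.1)
    (fun i t => by
      fin_cases t
      · exact (horth i).2.2.1
      · exact (horth i).2.2.2)
    (by rw [hfin, Fintype.card_fin]; ring)
  have key : ((vs.map (reflE Q)).prod : V →ₗ[F] V) ∘ₗ M.subtype = -M.subtype := by
    apply b.ext
    intro i
    rw [hb]
    rcases i with (j | j) | t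
    · have := hTE j
      rw [hEdef] at this
      exact this
    · have := hTF j
      rw [hFdef] at this
      exact this
    · fin_cases t
      · have := hneg X hmemX
        rw [hXdef] at this
        exact this
      · exact hTy
  refine ⟨vs, hQ, hvM, ?_, ?_, ?_⟩
  · have : vs.length = (js.length + 1) + (js.length + 1) := by
      rw [hvs, List.length_append, p2]
      simp only [List.length_cons, List.length_nil]
      ring
    exact ⟨js.length + 1, this⟩
  · rw [hvs, List.map_append, List.prod_append, p3, hlen]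
    simp only [List.map_cons, List.map_nil, List.prod_cons, List.prod_nil, qX, qY, one_mul,
      mul_one]
  · intro v hv
    exact LinearMap.congr_fun key ⟨v, hv⟩

end core

theorem mem_Fm {F : Type u} [Field F] {d : ℕ} (x : Matrix (I d) (I d) F) (v : I d → F) :
    v ∈ Fm x ↔ x.mulVec v = -v := by
  unfold Fm
  rw [LinearMap.mem_ker, LinearMap.add_apply, Matrix.toLin'_apply, LinearMap.id_apply,
    add_eq_zero_iff_eq_neg]

theorem main (hDec : InvDec.{u}) (hPar : InvPar.{u}) : SpinInv.{u} := by
  intro F _ _ hodd h4 d hd x hx hx2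
  have h2 : (2 : F) ≠ 0 := Cfsg.Agent.Lib.Helper44.FinSq.two_ne_zero_of_odd_card hodd
  obtain ⟨g, hgΩ, hgx⟩ := (Cfsg.Agent.Lib.Helper44.Der3.mem_omegaGL_iff (oddQ d F) x).mp hx
  have hxiso : x ∈ Cfsg.isometryGroup F (Cfsg.quadFormOdd d F) := by
    rw [← hgx]; exact g.2
  obtain ⟨-, hndM, horth, -, -⟩ := hDec F hodd d x hxiso hx2
  have hpar := hPar F hodd d x hx hx2
  have hS : Sep (res (oddQ d F) (Fm (x : Matrix (I d) (I d) F))) :=
    sep_res_of_ndsub (ndsub_of_ndeg hndM)
  obtain ⟨k, hk⟩ := hpar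
  rcases Nat.eq_zero_or_pos k with hk0 | hkpos
  · refine ⟨⊥, bot_le, ?_, ?_⟩
    · intro w hw
      rw [Submodule.mem_bot] at hw
      rw [hw]
      exact map_zero (oddQ d F)
    · rw [finrank_bot, hk, hk0]
  · obtain ⟨m, rfl⟩ : ∃ m, k = m + 1 := ⟨k - 1, by omega⟩
    have hfin : finrank F (Fm (x : Matrix (I d) (I d) F)) = 2 * (m + 1) := by rw [hk]; ring
    rcases exists_hyp_even m (Fm (x : Matrix (I d) (I d) F))
        (res (oddQ d F) (Fm (x : Matrix (I d) (I d) F))) hfin hS with
      ⟨e, f, hH⟩ | ⟨e, f, x', y', ζ, hH, hE, horth'⟩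
    · obtain ⟨h1, h2', h3, h4', h5⟩ := hH
      have hHV : IsHyp (oddQ d F) (fun j => (e j : I d → F)) (fun j => (f j : I d → F)) :=
        ⟨fun j => h1 j, fun j => h2' j,
          fun j l => (polar_res (oddQ d F) _ (e j) (f l)).symm.trans (h3 j l),
          fun j l => (polar_res (oddQ d F) _ (e j) (e l)).symm.trans (h4' j l),
          fun j l => (polar_res (oddQ d F) _ (f j) (f l)).symm.trans (h5 j l)⟩
      have hli0 := linearIndependent_hyp hHV (Fin.elim0 : Fin 0 → (I d → F))
        linearIndependent_empty_type (fun i t => t.elim0) (fun i t => t.elim0)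
      have hli : LinearIndependent F (fun j => (e j : I d → F)) :=
        hli0.comp (fun j => Sum.inl (Sum.inl j)) (fun a b hab => by simpa using hab)
      refine ⟨Submodule.span F (Set.range (fun j => (e j : I d → F))), ?_, ?_, ?_⟩
      · rw [Submodule.span_le]
        rintro _ ⟨j, rfl⟩
        exact (e j).2
      · intro w hw
        obtain ⟨c, rfl⟩ := (Submodule.mem_span_range_iff_exists_fun F).mp hw
        have h6 := q_hyp_sum hHV c (fun _ => 0) Finset.univ
        simp only [zero_smul, add_zero, mul_zero, Finset.sum_const_zero] at h6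
        exact h6
      · rw [finrank_span_eq_card hli, Fintype.card_fin, hfin]
    · exfalso
      obtain ⟨vs, hQ, hvM, hev, hprod, hneg⟩ :=
        ell_prod h2 (oddQ d F) (Fm (x : Matrix (I d) (I d) F)) hfin hH hE horth'
      have hfix : ∀ v ∈ Fx (x : Matrix (I d) (I d) F),
          (vs.map (reflE (oddQ d F))).prod v = v := by
        intro v hv
        apply prod_reflE_fix
        intro w hw
        exact horth v hv w (hvM w hw)
      have hxx : ∀ v : I d → F, (x : Matrix (I d) (I d) F).mulVec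
          ((x : Matrix (I d) (I d) F).mulVec v) = v := by
        intro v
        rw [Matrix.mulVec_mulVec]
        have h7 : (x : Matrix (I d) (I d) F) * (x : Matrix (I d) (I d) F) = 1 := by
          have h8 := congrArg (fun g : Matrix.GeneralLinearGroup (I d) F =>
            (g : Matrix (I d) (I d) F)) hx2
          simpa [pow_two] using h8
        rw [h7, Matrix.one_mulVec]
      have hg : ∀ v, ((g : Matrix.GeneralLinearGroup (I d) F) : Matrix (I d) (I d) F).mulVec v
          = (vs.map (reflE (oddQ d F))).prod v := by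
        intro v
        rw [hgx]
        obtain ⟨a, ha_def⟩ : ∃ a : I d → F,
            a = (2⁻¹ : F) • (v + (x : Matrix (I d) (I d) F).mulVec v) := ⟨_, rfl⟩
        obtain ⟨c, hc_def⟩ : ∃ c : I d → F,
            c = (2⁻¹ : F) • (v - (x : Matrix (I d) (I d) F).mulVec v) := ⟨_, rfl⟩
        have ha : a ∈ Fx (x : Matrix (I d) (I d) F) := by
          rw [mem_Fx, ha_def, Matrix.mulVec_smul, Matrix.mulVec_add, hxx, add_comm]
        have hc : c ∈ Fm (x : Matrix (I d) (I d) F) := by
          rw [mem_Fm, hc_def, Matrix.mulVec_smul, Matrix.mulVec_sub, hxx, ← smul_neg, neg_sub]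
        have hv : v = a + c := by
          rw [ha_def, hc_def, ← smul_add, add_add_sub_cancel, ← two_smul F, smul_smul,
            inv_mul_cancel₀ h2, one_smul]
        have hxa : (x : Matrix (I d) (I d) F).mulVec a = a := (mem_Fx _ _).mp ha
        have hxc : (x : Matrix (I d) (I d) F).mulVec c = -c := (mem_Fm _ _).mp hc
        have e1 : (x : Matrix (I d) (I d) F).mulVec v = a - c := by
          have h9 : (x : Matrix (I d) (I d) F).mulVec v
              = (x : Matrix (I d) (I d) F).mulVec (a + c) := by rw [← hv]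
          rw [h9, Matrix.mulVec_add, hxa, hxc, sub_eq_add_neg]
        have e2 : (vs.map (reflE (oddQ d F))).prod v = a - c := by
          have h9 : (vs.map (reflE (oddQ d F))).prod v
              = (vs.map (reflE (oddQ d F))).prod (a + c) := by rw [← hv]
          rw [h9, map_add, hfix a ha, hneg c hc, sub_eq_add_neg]
        rw [e1, e2]
      have hn : 2 ≤ Fintype.card (I d) := by
        rw [Fintype.card_sum, Fintype.card_sum, Fintype.card_unit, Fintype.card_fin]
        omega
      have hcrit := (mem_omega_iff_of_mulVec h2 (oddQ d F) (sep_oddQ h2 d) hn g vs hQ hg).mp hgΩ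
      obtain ⟨-, s, hs⟩ := hcrit
      rw [hprod] at hs
      obtain ⟨i, hi⟩ := (FiniteField.isSquare_neg_one_iff (F := F)).mpr (by omega)
      have hAA : ((-1 : F) ^ m) * ((-1 : F) ^ m) = 1 := by
        rw [← mul_pow]; simp
      have hA : (i ^ m) * (i ^ m) = (-1 : F) ^ m := by
        rw [← mul_pow, ← hi]
      have hr : ζ - 2⁻¹ * 2⁻¹ = (i ^ m * s) * (i ^ m * s) := by
        calc ζ - 2⁻¹ * 2⁻¹ = ((-1 : F) ^ m) * ((-1 : F) ^ m) * (ζ - 2⁻¹ * 2⁻¹) := by
              rw [hAA, one_mul]
          _ = ((-1 : F) ^ m) * (s * s) := by rw [mul_assoc, hs]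
          _ = (i ^ m * s) * (i ^ m * s) := by rw [← hA]; ring
      have hh : (2 : F) * 2⁻¹ = 1 := mul_inv_cancel₀ h2
      apply hE.2.2.2 (i * (i ^ m * s) - 2⁻¹)
      linear_combination ((i ^ m * s) * (i ^ m * s)) * hi.symm
        + (2⁻¹ - i * (i ^ m * s)) * hh + hr

end Cfsg.Agent.Lib.Helper93.TSSPININV
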