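import Mathlib
import Cfsg.Agent.Lib.Helper44.TPStmt
import Cfsg.Agent.Lib.Helper93.TSSPININV

/-!
# S5973 / SPININV (helper93): `q ≡ 1 (mod 4)`, the `-1`-eigenspace of an involution of `Omega+`
is of plus type.  Port of `Helper93.TSSPININV.main` to `quadFormPlus`; the generic elliptic
reflection product `Helper93.TSSPININV.ell_prod` is reused.
-/

set_option autoImplicit false

namespace Cfsg.Agent.Lib.Helper93.TPSPININV

open Module QuadraticMap
open Cfsg.Agent.Lib.Helper44.QSpace Cfsg.Agent.Lib.Helper44.OGroup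
open Cfsg.Agent.Lib.Helper44.CartanD Cfsg.Agent.Lib.Helper44.ReflProd
open Cfsg.Agent.Lib.Helper44.QClass Cfsg.Agent.Lib.Helper44.QBasis
open Cfsg.Agent.Lib.Helper44.SpinCount
open Cfsg.Agent.Lib.Helper44.NegPairs Cfsg.Agent.Lib.Helper44.OMat
open Cfsg.Agent.Lib.Helper44.WittND Cfsg.Agent.Lib.Helper44.WittND2
open Cfsg.Agent.Lib.Helper44.TPStmt

universe u

theorem mem_FxJ {F : Type u} [Field F] {d : ℕ} (x : Matrix (J d) (J d) F) (v : J d → F) :
    v ∈ Fx x ↔ x.mulVec v = v := by
  unfold Fx
  rw [LinearMap.mem_ker, LinearMap.sub_apply, Matrix.toLin'_apply, LinearMap.id_apply,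
    sub_eq_zero]

theorem mem_FmJ {F : Type u} [Field F] {d : ℕ} (x : Matrix (J d) (J d) F) (v : J d → F) :
    v ∈ Fm x ↔ x.mulVec v = -v := by
  unfold Fm
  rw [LinearMap.mem_ker, LinearMap.add_apply, Matrix.toLin'_apply, LinearMap.id_apply,
    add_eq_zero_iff_eq_neg]

theorem ndsub_of_ndegJ {F : Type u} [Field F] {d : ℕ} {W : Submodule F (J d → F)}
    (h : NDeg d F W) : NDsub (plusQ d F) W := by
  intro x hx hxy
  by_contra hx0
  obtain ⟨-, y, hy, hxy'⟩ := h x hx hx0
  exact hxy' (hxy y hy)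

theorem main (hDec : InvDec.{u}) (hPar : InvPar.{u}) : SpinInv.{u} := by
  intro F _ _ hodd h4 d hd x hx hx2
  have h2 : (2 : F) ≠ 0 := Cfsg.Agent.Lib.Helper44.FinSq.two_ne_zero_of_odd_card hodd
  obtain ⟨g, hgΩ, hgx⟩ := (Cfsg.Agent.Lib.Helper44.Der3.mem_omegaGL_iff (plusQ d F) x).mp hx
  have hxiso : x ∈ Cfsg.isometryGroup F (Cfsg.quadFormPlus d F) := by
    rw [← hgx]; exact g.2
  obtain ⟨-, hndM, horth, -, -, -⟩ := hDec F hodd d x hxiso hx2
  have hpar := hPar F hodd d x hx hx2
  have hS : Sep (res (plusQ d F) (Fm (x : Matrix (J d) (J d) F))) :=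
    sep_res_of_ndsub (ndsub_of_ndegJ hndM)
  obtain ⟨k, hk⟩ := hpar
  rcases Nat.eq_zero_or_pos k with hk0 | hkpos
  · refine ⟨⊥, bot_le, ?_, ?_⟩
    · intro w hw
      rw [Submodule.mem_bot] at hw
      rw [hw]
      exact map_zero (plusQ d F)
    · rw [finrank_bot, hk, hk0]
  · obtain ⟨m, rfl⟩ : ∃ m, k = m + 1 := ⟨k - 1, by omega⟩
    have hfin : finrank F (Fm (x : Matrix (J d) (J d) F)) = 2 * (m + 1) := by rw [hk]; ring
    rcases exists_hyp_even m (Fm (x : Matrix (J d) (J d) F))
        (res (plusQ d F) (Fm (x : Matrix (J d) (J d) F))) hfin hS with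
      ⟨e, f, hH⟩ | ⟨e, f, x', y', ζ, hH, hE, horth'⟩
    · obtain ⟨h1, h2', h3, h4', h5⟩ := hH
      have hHV : IsHyp (plusQ d F) (fun j => (e j : J d → F)) (fun j => (f j : J d → F)) :=
        ⟨fun j => h1 j, fun j => h2' j,
          fun j l => (polar_res (plusQ d F) _ (e j) (f l)).symm.trans (h3 j l),
          fun j l => (polar_res (plusQ d F) _ (e j) (e l)).symm.trans (h4' j l),
          fun j l => (polar_res (plusQ d F) _ (f j) (f l)).symm.trans (h5 j l)⟩
      have hli0 := linearIndependent_hyp hHV (Fin.elim0 : Fin 0 → (J d → F))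
        linearIndependent_empty_type (fun i t => t.elim0) (fun i t => t.elim0)
      have hli : LinearIndependent F (fun j => (e j : J d → F)) :=
        hli0.comp (fun j => Sum.inl (Sum.inl j)) (fun a b hab => by simpa using hab)
      refine ⟨Submodule.span F (Set.range (fun j => (e j : J d → F))), ?_, ?_, ?_⟩
      · rw [Submodule.span_le]
        rintro _ ⟨j, rfl⟩
        exact (e j).2
      · intro w hw
        obtain ⟨c, rfl⟩ := (Submodule.mem_span_range_iff_exists_fun F).mp hw
        have h6 := q_hyp_sum hHV c (fun _ => 0) Finset.univ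
        simp only [zero_smul, add_zero, mul_zero, Finset.sum_const_zero] at h6
        exact h6
      · rw [finrank_span_eq_card hli, Fintype.card_fin, hfin]
    · exfalso
      obtain ⟨vs, hQ, hvM, hev, hprod, hneg⟩ :=
        Cfsg.Agent.Lib.Helper93.TSSPININV.ell_prod h2 (plusQ d F)
          (Fm (x : Matrix (J d) (J d) F)) hfin hH hE horth'
      have hfix : ∀ v ∈ Fx (x : Matrix (J d) (J d) F),
          (vs.map (reflE (plusQ d F))).prod v = v := by
        intro v hv
        apply prod_reflE_fix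
        intro w hw
        exact horth v hv w (hvM w hw)
      have hxx : ∀ v : J d → F, (x : Matrix (J d) (J d) F).mulVec
          ((x : Matrix (J d) (J d) F).mulVec v) = v := by
        intro v
        rw [Matrix.mulVec_mulVec]
        have h7 : (x : Matrix (J d) (J d) F) * (x : Matrix (J d) (J d) F) = 1 := by
          have h8 := congrArg (fun g : Matrix.GeneralLinearGroup (J d) F =>
            (g : Matrix (J d) (J d) F)) hx2
          simpa [pow_two] using h8
        rw [h7, Matrix.one_mulVec]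
      have hg : ∀ v, ((g : Matrix.GeneralLinearGroup (J d) F) : Matrix (J d) (J d) F).mulVec v
          = (vs.map (reflE (plusQ d F))).prod v := by
        intro v
        rw [hgx]
        obtain ⟨a, ha_def⟩ : ∃ a : J d → F,
            a = (2⁻¹ : F) • (v + (x : Matrix (J d) (J d) F).mulVec v) := ⟨_, rfl⟩
        obtain ⟨c, hc_def⟩ : ∃ c : J d → F,
            c = (2⁻¹ : F) • (v - (x : Matrix (J d) (J d) F).mulVec v) := ⟨_, rfl⟩
        have ha : a ∈ Fx (x : Matrix (J d) (J d) F) := by
          rw [mem_FxJ, ha_def, Matrix.mulVec_smul, Matrix.mulVec_add, hxx, add_comm]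
        have hc : c ∈ Fm (x : Matrix (J d) (J d) F) := by
          rw [mem_FmJ, hc_def, Matrix.mulVec_smul, Matrix.mulVec_sub, hxx, ← smul_neg, neg_sub]
        have hv : v = a + c := by
          rw [ha_def, hc_def, ← smul_add, add_add_sub_cancel, ← two_smul F, smul_smul,
            inv_mul_cancel₀ h2, one_smul]
        have hxa : (x : Matrix (J d) (J d) F).mulVec a = a := (mem_FxJ _ _).mp ha
        have hxc : (x : Matrix (J d) (J d) F).mulVec c = -c := (mem_FmJ _ _).mp hc
        have e1 : (x : Matrix (J d) (J d) F).mulVec v = a - c := by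
          have h9 : (x : Matrix (J d) (J d) F).mulVec v
              = (x : Matrix (J d) (J d) F).mulVec (a + c) := by rw [← hv]
          rw [h9, Matrix.mulVec_add, hxa, hxc, sub_eq_add_neg]
        have e2 : (vs.map (reflE (plusQ d F))).prod v = a - c := by
          have h9 : (vs.map (reflE (plusQ d F))).prod v
              = (vs.map (reflE (plusQ d F))).prod (a + c) := by rw [← hv]
          rw [h9, map_add, hfix a ha, hneg c hc, sub_eq_add_neg]
        rw [e1, e2]
      have hn : 2 ≤ Fintype.card (J d) := by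
        rw [Fintype.card_sum, Fintype.card_fin]
        omega
      have hcrit := (mem_omega_iff_of_mulVec h2 (plusQ d F) (sep_plusQ d) hn g vs hQ hg).mp hgΩ
      obtain ⟨-, s, hs⟩ := hcrit
      rw [hprod] at hs
      obtain ⟨i, hi⟩ := (FiniteField.isSquare_neg_one_iff (F := F)).mpr (by omega)
      have hAA : ((-1 : F) ^ m) * ((-1 : F) ^ m) = 1 := by
        rw [← mul_pow]; simp
      have hA : (i ^ m) * (i ^ m) = (-1 : F) ^ m := by
        rw [← mul_pow, ← hi]
      have hr : ζ - 2⁻¹ * 2⁻¹ = (i ^ m * s) * (i ^ m * s) := by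
        calc ζ - 2⁻¹ * 2⁻¹ = ((-1 : F) ^ m) * ((-1 : F) ^ m) * (ζ - 2⁻¹ * 2⁻¹) := by
              rw [hAA, one_mul]
          _ = ((-1 : F) ^ m) * (s * s) := by rw [mul_assoc, hs]
          _ = (i ^ m * s) * (i ^ m * s) := by rw [← hA]; ring
      have hh : (2 : F) * 2⁻¹ = 1 := mul_inv_cancel₀ h2
      apply hE.2.2.2 (i * (i ^ m * s) - 2⁻¹)
      linear_combination ((i ^ m * s) * (i ^ m * s)) * hi.symm
        + (2⁻¹ - i * (i ^ m * s)) * hh + hr

end Cfsg.Agent.Lib.Helper93.TPSPININV
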